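import Cfsg.Agent.Solv.Hall
import Cfsg.Agent.Solv.NilpotentHall
import Cfsg.Agent.Solv.CoprimeBasic
import Cfsg.Agent.S0007
import Cfsg.Prelude.Def_SolvableStructure

/-!
Hall complement systems of finite groups, the Hall subgroups they determine, and system
normalizers: conjugacy, images, nilpotency.
-/

set_option autoImplicit false

open scoped Pointwise

namespace Cfsg.Lib.Solv

variable {G : Type*} [Group G]

section CRT

variable [Finite G]

theorem isPiNum_index_biInf (H : Nat.Primes → Subgroup G)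
    (hH : ∀ p : Nat.Primes, IsPiNum {(p : ℕ)} (H p).index) (s : Finset Nat.Primes) :
    IsPiNum {q | ∃ p ∈ s, (p : ℕ) = q} (⨅ p ∈ s, H p).index := by
  classical
  induction s using Finset.induction_on with
  | empty => simpa using IsPiNum.one _
  | insert a s ha ih =>
    rw [Finset.iInf_insert]
    have hc : (H a).index.Coprime (⨅ p ∈ s, H p).index := by
      refine (hH a).coprime_of_disjoint ih (Set.disjoint_singleton_left.2 ?_)
      rintro ⟨p, hp, h⟩
      exact ha (Subtype.ext h ▸ hp)
    rw [(Cfsg.Agent.S0007.result _ _ hc).1]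
    refine ((hH a).mono ?_).mul (ih.mono ?_)
    · rintro _ rfl
      exact ⟨a, Finset.mem_insert_self a s, rfl⟩
    · rintro _ ⟨p, hp, rfl⟩
      exact ⟨p, Finset.mem_insert_of_mem hp, rfl⟩

/-- Chinese remainder theorem for cosets of subgroups of prime-power index. -/
theorem exists_forall_inv_mul_mem_finset (H : Nat.Primes → Subgroup G)
    (hH : ∀ p : Nat.Primes, IsPiNum {(p : ℕ)} (H p).index) (g : Nat.Primes → G)
    (s : Finset Nat.Primes) : ∃ x : G, ∀ p ∈ s, x⁻¹ * g p ∈ H p := by
  classical
  induction s using Finset.induction_on with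
  | empty => exact ⟨1, by simp⟩
  | insert a s ha ih =>
    obtain ⟨x, hx⟩ := ih
    have hc : (⨅ p ∈ s, H p).index.Coprime (H a).index := by
      refine ((hH a).coprime_of_disjoint (isPiNum_index_biInf H hH s)
        (Set.disjoint_singleton_left.2 ?_)).symm
      rintro ⟨p, hp, h⟩
      exact ha (Subtype.ext h ▸ hp)
    obtain ⟨y, hy, h, hh, e⟩ := (Cfsg.Agent.S0007.result _ _ hc).2 (x⁻¹ * g a)
    refine ⟨x * y, fun p hp => ?_⟩
    rcases Finset.mem_insert.1 hp with rfl | hp
    · rw [mul_inv_rev, mul_assoc, e, inv_mul_cancel_left]; exact hh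
    · rw [mul_inv_rev, mul_assoc]
      simp only [Subgroup.mem_iInf] at hy
      exact (H p).mul_mem ((H p).inv_mem (hy p hp)) (hx p hp)

/-- The primes dividing the group order, as a finite set of `Nat.Primes`. -/
noncomputable def cardPrimes (G : Type*) [Group G] : Finset Nat.Primes :=
  (Nat.card G).primeFactors.subtype Nat.Prime

theorem mem_cardPrimes {p : Nat.Primes} : p ∈ cardPrimes G ↔ (p : ℕ) ∣ Nat.card G := by
  refine (Finset.mem_subtype (p := Nat.Prime) (s := (Nat.card G).primeFactors)).trans ?_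
  rw [Nat.mem_primeFactors]
  exact ⟨fun h => h.2.1, fun h => ⟨p.2, h, Nat.card_pos.ne'⟩⟩

omit [Finite G] in
theorem eq_top_of_isPiNum_index {H : Subgroup G} {p : ℕ} (h : IsPiNum {p} H.index)
    (hp : ¬ p ∣ Nat.card G) : H = ⊤ := by
  rw [← Subgroup.index_eq_one]
  refine h.eq_one fun q hq hd hqp => hp ?_
  rw [← hqp]
  exact hd.trans H.index_dvd_card

theorem exists_forall_inv_mul_mem (H : Nat.Primes → Subgroup G)
    (hH : ∀ p : Nat.Primes, IsPiNum {(p : ℕ)} (H p).index) (g : Nat.Primes → G) :
    ∃ x : G, ∀ p, x⁻¹ * g p ∈ H p := by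
  obtain ⟨x, hx⟩ := exists_forall_inv_mul_mem_finset H hH g (cardPrimes G)
  refine ⟨x, fun p => ?_⟩
  by_cases hp : p ∈ cardPrimes G
  · exact hx p hp
  · rw [eq_top_of_isPiNum_index (hH p) (mt mem_cardPrimes.2 hp)]; trivial

/-- Relative form inside a subgroup `N`. -/
theorem exists_forall_inv_mul_mem_of_mem (N : Subgroup G) (H : Nat.Primes → Subgroup G)
    (hH : ∀ p : Nat.Primes, IsPiNum {(p : ℕ)} ((H p).relIndex N)) (g : Nat.Primes → G)
    (hg : ∀ p, g p ∈ N) : ∃ x ∈ N, ∀ p, x⁻¹ * g p ∈ H p := by
  obtain ⟨x, hx⟩ := exists_forall_inv_mul_mem (fun p => (H p).subgroupOf N) hH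
    (fun p => ⟨g p, hg p⟩)
  exact ⟨x, x.2, hx⟩

end CRT

section Systems

variable [Finite G] {K : Nat.Primes → Subgroup G}

theorem isPiHall_compl_singleton_iff_index_eq {p : ℕ} (hp : p.Prime) {H : Subgroup G} :
    IsPiHall {p}ᶜ H ↔ H.index = p ^ (Nat.card G).factorization p := by
  have h0 : Nat.card G ≠ 0 := Nat.card_pos.ne'
  rw [isPiHall_iff, compl_compl, isPiNum_compl_singleton_iff hp,
    isPiNum_singleton_iff hp Subgroup.index_ne_zero_of_finite]
  constructor
  · rintro ⟨h1, k, hk⟩
    rw [hk, ← H.card_mul_index, Nat.factorization_mul Nat.card_pos.ne'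
      Subgroup.index_ne_zero_of_finite, hk, Finsupp.add_apply,
      Nat.factorization_eq_zero_of_not_dvd ((Nat.Prime.coprime_iff_not_dvd hp).1 h1.symm),
      Nat.Prime.factorization_pow hp]
    simp
  · intro h
    refine ⟨((Nat.Prime.coprime_iff_not_dvd hp).2 fun hd => ?_).symm, _, h⟩
    apply Nat.pow_succ_factorization_not_dvd h0 hp
    rw [pow_succ, mul_comm, ← h]
    conv_rhs => rw [← H.card_mul_index]
    exact Nat.mul_dvd_mul_right hd _

theorem isComplementSystem_iff :
    IsComplementSystem K ↔ ∀ p : Nat.Primes, IsPiHall {(p : ℕ)}ᶜ (K p) :=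
  forall_congr' fun p => (isPiHall_compl_singleton_iff_index_eq p.2).symm

theorem _root_.Cfsg.IsComplementSystem.isPiHall (hK : IsComplementSystem K) (p : Nat.Primes) :
    IsPiHall {(p : ℕ)}ᶜ (K p) := isComplementSystem_iff.1 hK p

theorem _root_.Cfsg.IsComplementSystem.isPiNum_index (hK : IsComplementSystem K)
    (p : Nat.Primes) : IsPiNum {(p : ℕ)} (K p).index := by
  have := (isPiHall_iff.1 (hK.isPiHall p)).2
  rwa [compl_compl] at this

theorem exists_isComplementSystem (G : Type*) [Group G] [Finite G] [Group.IsSolvable G] :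
    ∃ K : Nat.Primes → Subgroup G, IsComplementSystem K := by
  choose K hK using fun p : Nat.Primes => exists_isPiHall {(p : ℕ)}ᶜ G
  exact ⟨K, isComplementSystem_iff.2 hK⟩

/-- There is a complement system reducing into a given subgroup. -/
theorem exists_isComplementSystem_reduces [Group.IsSolvable G] (U : Subgroup G) :
    ∃ K : Nat.Primes → Subgroup G, IsComplementSystem K ∧
      ∀ p : Nat.Primes, IsPiHallOf {(p : ℕ)}ᶜ (K p ⊓ U) U := by
  have : ∀ p : Nat.Primes, ∃ L : Subgroup G, IsPiHall {(p : ℕ)}ᶜ L ∧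
      IsPiHallOf {(p : ℕ)}ᶜ (L ⊓ U) U := by
    intro p
    obtain ⟨H, hH⟩ := exists_isPiHallOf {(p : ℕ)}ᶜ U
    obtain ⟨L, hL, hHL⟩ := exists_isPiHall_ge (G := G) hH.2.1
    refine ⟨L, hL, ?_⟩
    rwa [← eq_of_isPiHallOf_of_le hH (isPiSubgroup_of_le hL.1 inf_le_left) (le_inf hHL hH.1)
      inf_le_right]
  choose K hK hK' using this
  exact ⟨K, isComplementSystem_iff.2 hK, hK'⟩

theorem _root_.Cfsg.IsComplementSystem.conj (hK : IsComplementSystem K) (g : G) :
    IsComplementSystem fun p => MulAut.conj g • K p :=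
  isComplementSystem_iff.2 fun p => isPiHall_conj (hK.isPiHall p) g

theorem _root_.Cfsg.IsComplementSystem.map {G' : Type*} [Group G'] (hK : IsComplementSystem K)
    {f : G →* G'} (hf : Function.Surjective f) : IsComplementSystem fun p => (K p).map f :=
  have : Finite G' := Finite.of_surjective f hf
  isComplementSystem_iff.2 fun p => isPiHall_map hf (hK.isPiHall p)

theorem isComplementSystem_subgroupOf {U : Subgroup G}
    (h : ∀ p : Nat.Primes, IsPiHallOf {(p : ℕ)}ᶜ (K p ⊓ U) U) :
    IsComplementSystem fun p => (K p).subgroupOf U :=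
  isComplementSystem_iff.2 fun p => by
    have := (isPiHallOf_iff_subgroupOf.1 (h p)).2
    rwa [Subgroup.inf_subgroupOf_right] at this

omit [Finite G] in
theorem mem_systemNormalizer {g : G} :
    g ∈ systemNormalizer K ↔ ∀ p, MulAut.conj g • K p = K p := by
  simp only [systemNormalizer, Subgroup.mem_iInf, mem_normalizer_iff_conj_smul_eq]

omit [Finite G] in
theorem systemNormalizer_le (K : Nat.Primes → Subgroup G) (p : Nat.Primes) :
    systemNormalizer K ≤ Subgroup.normalizer (K p : Set G) := iInf_le _ p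

omit [Finite G] in
theorem systemNormalizer_conj (K : Nat.Primes → Subgroup G) (g : G) :
    systemNormalizer (fun p => MulAut.conj g • K p) = MulAut.conj g • systemNormalizer K := by
  ext x
  simp only [systemNormalizer, Subgroup.mem_iInf, mem_conj_smul, ← conj_smul_normalizer]

omit [Finite G] in
theorem center_le_systemNormalizer (K : Nat.Primes → Subgroup G) :
    Subgroup.center G ≤ systemNormalizer K :=
  le_iInf fun _ => Subgroup.center_le_normalizer _

omit [Finite G] in
theorem systemNormalizer_subgroupOf_le (K : Nat.Primes → Subgroup G) (U : Subgroup G) :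
    (systemNormalizer K).subgroupOf U ≤ systemNormalizer fun p => (K p).subgroupOf U := by
  refine le_iInf fun p => ?_
  refine (Subgroup.comap_mono (systemNormalizer_le K p)).trans ?_
  exact Subgroup.le_normalizer_comap _

theorem systemNormalizer_eq_top_of_isNilpotent [Group.IsNilpotent G] (hK : IsComplementSystem K) :
    systemNormalizer K = ⊤ := by
  rw [eq_top_iff]
  refine le_iInf fun p => ?_
  rw [eq_piCore_of_isPiHall_of_isNilpotent (hK.isPiHall p), Subgroup.normalizer_eq_top]

/-- Two complement systems agreeing modulo a normal subgroup `N` of a solvable group are conjugate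
by an element of `N`. -/
theorem _root_.Cfsg.IsComplementSystem.exists_conj_of_sup_eq [Group.IsSolvable G]
    {L : Nat.Primes → Subgroup G} (hK : IsComplementSystem K) (hL : IsComplementSystem L)
    (N : Subgroup G) [N.Normal] (h : ∀ p, L p ≤ N ⊔ K p) :
    ∃ n ∈ N, ∀ p, MulAut.conj n • K p = L p := by
  have h1 : ∀ p, ∃ n ∈ N, MulAut.conj n • K p = L p := by
    intro p
    obtain ⟨g, hg, e⟩ := isPiHallOf_conj_eq (isPiHallOf_of_isPiHall (hK.isPiHall p) le_sup_right)
      (isPiHallOf_of_isPiHall (hL.isPiHall p) (h p))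
    obtain ⟨n, hn, k, hk, rfl⟩ := (mem_sup_of_le_normalizer Subgroup.le_normalizer_of_normal).1 hg
    refine ⟨n, hn, ?_⟩
    rwa [conj_mul_smul, conj_smul_eq_of_mem_normalizer (Subgroup.le_normalizer hk)] at e
  choose g hgN hg using h1
  obtain ⟨x, hxN, hx⟩ := exists_forall_inv_mul_mem_of_mem N
    (fun p => Subgroup.normalizer (K p : Set G)) (fun p => by
      have := (isPiHallOf_iff.1 (isPiHallOf_inf_of_normal (hK.isPiHall p) N)).2.2
      rw [compl_compl, Subgroup.inf_relIndex_right] at this
      exact this.of_dvd (Subgroup.relIndex_dvd_of_le_left _ Subgroup.le_normalizer)) g hgN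
  refine ⟨x, hxN, fun p => ?_⟩
  rw [← hg p, ← mul_inv_cancel_left x (g p), conj_mul_smul, conj_smul_eq_of_mem_normalizer (hx p)]

theorem _root_.Cfsg.IsComplementSystem.exists_conj [Group.IsSolvable G]
    {L : Nat.Primes → Subgroup G} (hK : IsComplementSystem K) (hL : IsComplementSystem L) :
    ∃ g : G, ∀ p, MulAut.conj g • K p = L p := by
  obtain ⟨g, -, hg⟩ := hK.exists_conj_of_sup_eq hL ⊤ (by simp)
  exact ⟨g, hg⟩

theorem _root_.Cfsg.IsComplementSystem.map_systemNormalizer [Group.IsSolvable G]
    {G' : Type*} [Group G'] (hK : IsComplementSystem K) {f : G →* G'}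
    (hf : Function.Surjective f) :
    systemNormalizer (fun p => (K p).map f) = (systemNormalizer K).map f := by
  apply le_antisymm
  · intro y hy
    obtain ⟨g, rfl⟩ := hf y
    obtain ⟨n, hn, h⟩ := hK.exists_conj_of_sup_eq (hK.conj g) f.ker (fun p => by
      rw [sup_comm, ← Subgroup.comap_map_eq, ← Subgroup.map_le_iff_le_comap, map_conj_smul,
        mem_systemNormalizer.1 hy p])
    refine ⟨n⁻¹ * g, mem_systemNormalizer.2 fun p => ?_, ?_⟩
    · rw [conj_mul_smul, ← h p, conj_inv_smul_conj_smul]
    · rw [map_mul, map_inv, MonoidHom.mem_ker.1 hn, inv_one, one_mul]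
  · refine le_iInf fun p => (Subgroup.map_mono (systemNormalizer_le K p)).trans ?_
    exact Subgroup.le_normalizer_map f

/-- The Hall `π`-subgroup determined by a complement system. -/
def systemHall (K : Nat.Primes → Subgroup G) (π : Set ℕ) : Subgroup G :=
  ⨅ (q : Nat.Primes) (_ : (q : ℕ) ∉ π), K q

omit [Finite G] in
theorem systemHall_mono (K : Nat.Primes → Subgroup G) {π σ : Set ℕ} (h : π ⊆ σ) :
    systemHall K π ≤ systemHall K σ :=
  le_iInf₂ fun q hq => iInf₂_le q fun h' => hq (h h')

theorem _root_.Cfsg.IsComplementSystem.isPiHall_systemHall (hK : IsComplementSystem K)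
    (π : Set ℕ) : IsPiHall π (systemHall K π) := by
  classical
  refine isPiHall_iff.2 ⟨fun q hq hd => ?_, ?_⟩
  · by_contra hqπ
    have hle : systemHall K π ≤ K ⟨q, hq⟩ := iInf₂_le (⟨q, hq⟩ : Nat.Primes) hqπ
    exact (hK.isPiHall ⟨q, hq⟩).1 q hq (hd.trans (Subgroup.card_dvd_of_le hle)) rfl
  · have h1 := isPiNum_index_biInf K hK.isPiNum_index
      ((cardPrimes G).filter fun q => (q : ℕ) ∉ π)
    refine (h1.mono ?_).of_dvd (Subgroup.index_dvd_of_le (le_iInf₂ fun q hq => ?_))
    · rintro _ ⟨q, hq, rfl⟩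
      exact (Finset.mem_filter.1 hq).2
    · by_cases hqG : q ∈ cardPrimes G
      · exact iInf₂_le q (Finset.mem_filter.2 ⟨hqG, hq⟩)
      · rw [eq_top_of_isPiNum_index (hK.isPiNum_index q) (mt mem_cardPrimes.2 hqG)]
        exact le_top

omit [Finite G] in
theorem le_normalizer_systemHall {D : Subgroup G}
    (h : ∀ p, D ≤ Subgroup.normalizer (K p : Set G)) (π : Set ℕ) :
    D ≤ Subgroup.normalizer (systemHall K π : Set G) := by
  intro d hd
  rw [Subgroup.mem_normalizer_iff]
  intro x
  simp only [systemHall, Subgroup.mem_iInf]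
  exact forall₂_congr fun q _ => Subgroup.mem_normalizer_iff.1 (h q hd) x

/-- The Hall subgroups of a system permute. -/
theorem _root_.Cfsg.IsComplementSystem.coe_systemHall_union (hK : IsComplementSystem K)
    (π σ : Set ℕ) :
    (systemHall K (π ∪ σ) : Set G) = (systemHall K π : Set G) * (systemHall K σ : Set G) := by
  have h1 : systemHall K π ≤ systemHall K (π ∪ σ) := systemHall_mono K Set.subset_union_left
  have h2 : systemHall K σ ≤ systemHall K (π ∪ σ) := systemHall_mono K Set.subset_union_right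
  have hc : ((systemHall K π).relIndex (systemHall K (π ∪ σ))).Coprime
      ((systemHall K σ).relIndex (systemHall K (π ∪ σ))) := by
    apply Nat.coprime_of_dvd
    intro q hq h3 h4
    rcases (hK.isPiHall_systemHall (π ∪ σ)).1 q hq (h3.trans (Subgroup.relIndex_dvd_card _ _))
      with h | h
    · exact (hK.isPiHall_systemHall π).2 q hq h (h3.trans (Subgroup.relIndex_dvd_index_of_le h1))
    · exact (hK.isPiHall_systemHall σ).2 q hq h (h4.trans (Subgroup.relIndex_dvd_index_of_le h2))
  apply Set.Subset.antisymm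
  · intro g hg
    obtain ⟨x, hx, y, hy, e⟩ := (Cfsg.Agent.S0007.result _ _ hc).2 ⟨g, hg⟩
    exact ⟨x, hx, y, hy, (congrArg Subtype.val e).symm⟩
  · rintro _ ⟨x, hx, y, hy, rfl⟩
    exact (systemHall K (π ∪ σ)).mul_mem (h1 hx) (h2 hy)

/-- A group with a complement system consisting of normal subgroups is nilpotent. -/
theorem _root_.Cfsg.IsComplementSystem.isNilpotent_of_normal (hK : IsComplementSystem K)
    (h : ∀ p, (K p).Normal) : Group.IsNilpotent G := by
  have q := (Group.isNilpotent_of_finite_tfae (G := G)).out 0 3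
  rw [q]
  intro p hp P
  have hn : (systemHall K {p}).Normal := by
    rw [← Subgroup.normalizer_eq_top_iff, eq_top_iff]
    exact le_normalizer_systemHall (fun q => by rw [Subgroup.normalizer_eq_top]) _
  have h1 := le_of_normal_isPiHall (hK.isPiHall_systemHall {p}) (isPiHall_singleton_sylow P).1
  rw [eq_of_isPiHall_of_le (isPiHall_singleton_sylow P) (hK.isPiHall_systemHall {p}).1 h1]
  exact hn

/-- A complement system reduces into every subgroup normalising its members. -/
theorem _root_.Cfsg.IsComplementSystem.isPiHallOf_inf_of_le_normalizer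
    (hK : IsComplementSystem K) {D : Subgroup G} (p : Nat.Primes)
    (h : D ≤ Subgroup.normalizer (K p : Set G)) : IsPiHallOf {(p : ℕ)}ᶜ (K p ⊓ D) D := by
  refine isPiHallOf_iff.2 ⟨inf_le_right, isPiSubgroup_of_le (hK.isPiHall p).1 inf_le_left, ?_⟩
  rw [compl_compl, Subgroup.inf_relIndex_right, ← Coprime.relIndex_sup_of_le_normalizer h]
  exact (hK.isPiNum_index p).of_dvd (Subgroup.relIndex_dvd_index_of_le le_sup_left)

theorem _root_.Cfsg.IsComplementSystem.isNilpotent_systemNormalizer (hK : IsComplementSystem K) :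
    Group.IsNilpotent (systemNormalizer K) :=
  (isComplementSystem_subgroupOf fun p =>
    hK.isPiHallOf_inf_of_le_normalizer p (systemNormalizer_le K p)).isNilpotent_of_normal
    fun p => Subgroup.normal_subgroupOf_of_le_normalizer (systemNormalizer_le K p)

end Systems

end Cfsg.Lib.Solv
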