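import Cfsg.Agent.Solv.SylowSystem
import Cfsg.Agent.Solv.PiSeries
import Cfsg.Agent.Solv.PGroupNormal
import Cfsg.Agent.Solv.Carter
import Cfsg.Agent.Solv.Fitting
import Cfsg.Agent.Solv.Nilpotent

/-!
System normalizers cover central and avoid eccentric chief factors; their relation to Carter
subgroups.
-/

set_option autoImplicit false

open scoped Pointwise

namespace Cfsg.Lib.Solv

universe u

variable {G : Type*} [Group G] [Finite G]

/-- A Hall `p'`-subgroup of a solvable group has no fixed points on a non-central minimal normal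
`p`-subgroup. -/
theorem inf_centralizer_eq_bot_of_isPiHall [Group.IsSolvable G] {B H : Subgroup G}
    (hB : IsMinNormal B) {p : ℕ} [hp : Fact p.Prime] (hBp : IsPGroup p B)
    (hH : IsPiHall {p}ᶜ H) (hc : ¬ B ≤ Subgroup.center G) :
    B ⊓ Subgroup.centralizer (H : Set G) = ⊥ := by
  have := hB.normal
  set C := Subgroup.centralizer (B : Set G) with hC
  have hCt : C ≠ ⊤ := by
    intro h
    apply hc
    intro b hb
    rw [Subgroup.mem_center_iff]
    intro g
    have : g ∈ C := h ▸ Subgroup.mem_top g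
    exact (this b hb).symm
  have : Nontrivial (G ⧸ C) := QuotientGroup.nontrivial_iff.2 hCt
  obtain ⟨q, R, hq, hR, -, -, hRq⟩ := exists_isMinNormal_elementary (G ⧸ C)
  have := hR.normal
  have hsurj := QuotientGroup.mk'_surjective C
  have hfix : ∀ L : Subgroup G, R ≤ L.map (QuotientGroup.mk' C) →
      B ⊓ Subgroup.centralizer (L : Set G) = ⊥ := by
    intro L hL
    have h1 : B ⊓ Subgroup.centralizer (L : Set G) ≤
        B ⊓ Subgroup.centralizer (R.comap (QuotientGroup.mk' C) : Set G) := by
      refine le_inf inf_le_left ?_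
      rw [← Subgroup.le_centralizer_iff]
      refine (Subgroup.comap_mono hL).trans ?_
      rw [Subgroup.comap_map_eq, QuotientGroup.ker_mk']
      refine sup_le ?_ (Subgroup.centralizer_le (SetLike.coe_subset_coe.2 inf_le_left))
      rw [Subgroup.le_centralizer_iff]
      exact inf_le_right
    rcases hB.inf_eq_bot_or_le (Subgroup.centralizer (R.comap (QuotientGroup.mk' C) : Set G))
      with h | h
    · exact le_bot_iff.1 (h ▸ h1)
    · exact absurd (Subgroup.le_centralizer_iff.1 h) (lt_comap_mk' C hR.ne_bot).not_ge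
  by_cases hqp : q = p
  · subst hqp
    obtain ⟨P⟩ : Nonempty (Sylow q G) := inferInstance
    exact absurd (hfix P (hRq.le_sylow_of_normal (P.mapSurjective hsurj)))
      (PG.inf_centralizer_ne_bot P.isPGroup' hBp Subgroup.le_normalizer_of_normal hB.ne_bot)
  · have : Fact q.Prime := ⟨hq⟩
    exact hfix H (le_of_isPiHall_of_normal (isPiHall_map hsurj hH)
      (isPiSubgroup_of_isPGroup hqp hRq))

variable {K : Nat.Primes → Subgroup G}

theorem _root_.Cfsg.IsComplementSystem.inf_systemNormalizer_eq_bot [Group.IsSolvable G]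
    (hK : IsComplementSystem K) {B : Subgroup G} (hB : IsMinNormal B)
    (hc : ¬ B ≤ Subgroup.center G) : B ⊓ systemNormalizer K = ⊥ := by
  have := hB.normal
  obtain ⟨p, hp, -, -, hBp⟩ := hB.elementary
  have : Fact p.Prime := ⟨hp⟩
  rw [eq_bot_iff, ← inf_centralizer_eq_bot_of_isPiHall hB hBp (hK.isPiHall ⟨p, hp⟩) hc]
  refine le_inf inf_le_left ?_
  intro b hb
  rw [Subgroup.mem_centralizer_iff]
  intro k hk
  have h0 := inf_eq_bot_of_isPiSubgroup (isPiSubgroup_singleton_iff.2 hBp)
    (hK.isPiHall ⟨p, hp⟩).1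
  have h1 : k * b * k⁻¹ * b⁻¹ ∈ B ⊓ K ⟨p, hp⟩ := by
    refine ⟨B.mul_mem (hB.normal.conj_mem b hb.1 k) (B.inv_mem hb.1), ?_⟩
    have := conj_mem_of_mem_normalizer (systemNormalizer_le K ⟨p, hp⟩ hb.2) (inv_mem hk)
    have e : k * b * k⁻¹ * b⁻¹ = k * (b * k⁻¹ * b⁻¹) := by group
    rw [e]
    exact mul_mem hk this
  rw [h0, Subgroup.mem_bot] at h1
  rw [← mul_inv_eq_one, ← h1]; group

omit [Finite G] in
theorem isMinNormal_map_mk' {A B : Subgroup G} [A.Normal] [hB : B.Normal] (hAB : A < B)
    (hchief : ∀ N : Subgroup G, N.Normal → A ≤ N → N ≤ B → N = A ∨ N = B) :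
    IsMinNormal (B.map (QuotientGroup.mk' A)) := by
  have hsurj := QuotientGroup.mk'_surjective A
  refine ⟨hB.map _ hsurj, ?_, fun M hM hle => ?_⟩
  · rw [Ne, Subgroup.map_eq_bot_iff, QuotientGroup.ker_mk']
    exact hAB.not_ge
  · have h1 : M.comap (QuotientGroup.mk' A) ≤ B := by
      refine (Subgroup.comap_mono hle).trans ?_
      rw [Subgroup.comap_map_eq, QuotientGroup.ker_mk', sup_eq_left.2 hAB.le]
    rcases hchief _ (hM.comap _) (le_comap_mk' A M) h1 with h | h
    · left
      rw [← Subgroup.map_comap_eq_self_of_surjective hsurj M, h, Subgroup.map_eq_bot_iff,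
        QuotientGroup.ker_mk']
    · right
      rw [← Subgroup.map_comap_eq_self_of_surjective hsurj M, h]

omit [Finite G] in
theorem map_mk'_le_center_iff {A B : Subgroup G} [A.Normal] :
    B.map (QuotientGroup.mk' A) ≤ Subgroup.center (G ⧸ A) ↔ ⁅B, (⊤ : Subgroup G)⁆ ≤ A := by
  conv_rhs => rw [← QuotientGroup.ker_mk' A, ← Subgroup.map_eq_bot_iff, Subgroup.map_commutator,
    Subgroup.map_top_of_surjective _ (QuotientGroup.mk'_surjective A),
    Subgroup.commutator_eq_bot_iff_le_centralizer, Subgroup.coe_top, Subgroup.centralizer_univ]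

/-- In a nilpotent-by-nilpotent group system normalizers are Carter subgroups. -/
theorem isCarterSubgroup_systemNormalizer (G : Type u) [Group G] [Finite G] :
    ∀ (F : Subgroup G) [F.Normal], Group.IsNilpotent F → Group.IsNilpotent (G ⧸ F) →
      ∀ K : Nat.Primes → Subgroup G, IsComplementSystem K →
        IsCarterSubgroup (systemNormalizer K) := by
  refine card_induction (P := fun G _ _ => ∀ (F : Subgroup G) [F.Normal], Group.IsNilpotent F →
    Group.IsNilpotent (G ⧸ F) → ∀ K : Nat.Primes → Subgroup G, IsComplementSystem K →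
      IsCarterSubgroup (systemNormalizer K)) (fun G _ _ ih => ?_) G
  intro F _ hF hGF K hK
  have : Group.IsSolvable G := (Group.isSolvable_iff_subgroup_quotient F).2
    ⟨inferInstance, inferInstance⟩
  refine ⟨hK.isNilpotent_systemNormalizer, le_antisymm ?_ Subgroup.le_normalizer⟩
  rcases subsingleton_or_nontrivial G with hG | hG
  · exact (Subsingleton.elim _ _).le
  obtain ⟨N, hN⟩ := exists_isMinNormal G
  have := hN.normal
  have hsurj := QuotientGroup.mk'_surjective N
  have : (F.map (QuotientGroup.mk' N)).Normal := Subgroup.Normal.map inferInstance _ hsurj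
  have h1 := ih (G ⧸ N) (card_quotient_lt hN.ne_bot) (F.map (QuotientGroup.mk' N))
    (isNilpotent_map _ _ hF)
    (Group.nilpotent_of_surjective (QuotientGroup.map F _ (QuotientGroup.mk' N)
      (Subgroup.le_comap_map _ _))
      (QuotientGroup.map_surjective_of_surjective F _ _
        (QuotientGroup.mk_surjective.comp hsurj) _)) _ (hK.map hsurj)
  rw [hK.map_systemNormalizer hsurj] at h1
  set D := systemNormalizer K with hD
  have h2 : Subgroup.normalizer (D : Set G) ≤ N ⊔ D := by
    rw [sup_comm, ← QuotientGroup.ker_mk' N, ← Subgroup.comap_map_eq,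
      ← Subgroup.map_le_iff_le_comap, ← h1.2]
    exact Subgroup.le_normalizer_map _
  by_cases hc : N ≤ Subgroup.center G
  · exact h2.trans (sup_le (hc.trans (center_le_systemNormalizer K)) le_rfl)
  have h3 := hK.inf_systemNormalizer_eq_bot hN hc
  have hDF : D ⊔ F = ⊤ := by
    have h4 := hK.map_systemNormalizer (QuotientGroup.mk'_surjective F)
    rw [systemNormalizer_eq_top_of_isNilpotent (hK.map (QuotientGroup.mk'_surjective F))] at h4
    rw [← QuotientGroup.ker_mk' F, ← Subgroup.comap_map_eq, ← h4, Subgroup.comap_top]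
  have hFN : F ≤ Subgroup.centralizer (N : Set G) :=
    (le_fitting inferInstance hF).trans (fitting_le_centralizer_of_minimal_normal hN.min)
  intro g hg
  obtain ⟨n, hn, d, hd, rfl⟩ := (mem_sup_of_le_normalizer Subgroup.le_normalizer_of_normal).1
    (h2 hg)
  have hnN : n ∈ Subgroup.normalizer (D : Set G) := by
    have := mul_mem hg (inv_mem (Subgroup.le_normalizer hd))
    rwa [mul_inv_cancel_right] at this
  have hnc : n ∈ N ⊓ Subgroup.center G := by
    refine ⟨hn, ?_⟩
    have h5 : (⊤ : Subgroup G) ≤ Subgroup.centralizer ({n} : Set G) := by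
      rw [← hDF]
      refine sup_le (fun x hx => ?_)
        (hFN.trans (Subgroup.centralizer_le (Set.singleton_subset_iff.2 hn)))
      rw [Subgroup.mem_centralizer_singleton_iff]
      have h6 : x * n * x⁻¹ * n⁻¹ ∈ N ⊓ D := by
        refine ⟨N.mul_mem (hN.normal.conj_mem n hn x) (N.inv_mem hn), ?_⟩
        have := conj_mem_of_mem_normalizer hnN (inv_mem hx)
        have e : x * n * x⁻¹ * n⁻¹ = x * (n * x⁻¹ * n⁻¹) := by group
        rw [e]
        exact mul_mem hx this
      rw [h3, Subgroup.mem_bot] at h6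
      rw [← mul_inv_eq_one, ← h6]; group
    refine Subgroup.mem_center_iff.2 fun x => ?_
    exact Subgroup.mem_centralizer_singleton_iff.1 (h5 (Subgroup.mem_top x))
  rw [(hN.inf_eq_bot_or_le _).resolve_right hc, Subgroup.mem_bot] at hnc
  rw [hnc, one_mul]
  exact hd

/-- If a complement system reduces into a Carter subgroup, its normalizer lies in that Carter
subgroup. -/
theorem systemNormalizer_le_carter (G : Type u) [Group G] [Finite G] :
    Group.IsSolvable G → ∀ (C : Subgroup G), IsCarterSubgroup C →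
      ∀ K : Nat.Primes → Subgroup G, IsComplementSystem K →
        (∀ p : Nat.Primes, IsPiHallOf {(p : ℕ)}ᶜ (K p ⊓ C) C) → systemNormalizer K ≤ C := by
  refine card_induction (P := fun G _ _ => Group.IsSolvable G → ∀ (C : Subgroup G),
    IsCarterSubgroup C → ∀ K : Nat.Primes → Subgroup G, IsComplementSystem K →
      (∀ p : Nat.Primes, IsPiHallOf {(p : ℕ)}ᶜ (K p ⊓ C) C) → systemNormalizer K ≤ C)
    (fun G _ _ ih => ?_) G
  intro hs C hC K hK hred
  rcases subsingleton_or_nontrivial G with hG | hG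
  · exact (Subsingleton.elim _ _).le
  obtain ⟨q, N, hq, hN, hNc, -, hNq⟩ := exists_isMinNormal_elementary G
  have := hN.normal
  have : Fact q.Prime := ⟨hq⟩
  have hsurj := QuotientGroup.mk'_surjective N
  have h1 := ih (G ⧸ N) (card_quotient_lt hN.ne_bot) inferInstance _
    (Carter.carter_map_of_surjective hsurj hC) _ (hK.map hsurj) (fun p => by
      have h2 := isPiHallOf_map (QuotientGroup.mk' N) (hred p)
      rwa [eq_of_isPiHallOf_of_le h2
        (isPiSubgroup_of_le ((hK.map hsurj).isPiHall p).1 inf_le_left)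
        (Subgroup.map_inf_le _ _ _) inf_le_right] at h2)
  rw [hK.map_systemNormalizer hsurj, Subgroup.map_le_iff_le_comap, Subgroup.comap_map_eq,
    QuotientGroup.ker_mk'] at h1
  have hidx : C.relIndex (C ⊔ N) ∣ Nat.card N := by
    rw [sup_comm]
    have h2 := card_sup_dvd_of_le_normalizer (H := C) (N := N) Subgroup.le_normalizer_of_normal
    rw [← card_mul_relIndex_of_le (le_sup_right : C ≤ N ⊔ C), mul_comm (Nat.card N)] at h2
    exact Nat.dvd_of_mul_dvd_mul_left Nat.card_pos h2
  by_cases hU : C ⊔ N = ⊤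
  · -- `K q ≤ C`
    have hKq : K ⟨q, hq⟩ ≤ C := by
      have h2 : IsPiHall {q}ᶜ (K ⟨q, hq⟩ ⊓ C) := by
        refine isPiHall_of_isPiHallOf (hred ⟨q, hq⟩) ?_
        rw [compl_compl, ← Subgroup.relIndex_top_right, ← hU]
        exact (isPGroup_iff_isPiNum.1 hNq).of_dvd hidx
      exact (eq_of_isPiHall_of_le h2 (hK.isPiHall ⟨q, hq⟩).1 inf_le_left).ge.trans inf_le_right
    have hCK : C ≤ Subgroup.normalizer (K ⟨q, hq⟩ : Set G) := by
      have := hC.1
      have h2 := (isPiHallOf_iff_subgroupOf.1 (isPiHallOf_of_isPiHall (hK.isPiHall ⟨q, hq⟩) hKq)).2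
      rw [← Subgroup.normal_subgroupOf_iff_le_normalizer hKq,
        eq_piCore_of_isPiHall_of_isNilpotent h2]
      infer_instance
    by_cases hL : Subgroup.normalizer (K ⟨q, hq⟩ : Set G) = ⊤
    · have : (K ⟨q, hq⟩).Normal := Subgroup.normalizer_eq_top_iff.1 hL
      have h3 : Group.IsNilpotent (G ⧸ K ⟨q, hq⟩) :=
        (isPGroup_iff_isPiNum.2 (hK.isPiNum_index ⟨q, hq⟩)).isNilpotent
      have h4 : Group.IsNilpotent (G ⧸ N) := by
        have := hC.1
        refine Group.nilpotent_of_surjective ((QuotientGroup.mk' N).comp C.subtype) ?_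
        rw [← MonoidHom.range_eq_top, MonoidHom.range_comp, C.range_subtype,
          ← Subgroup.map_comap_eq_self_of_surjective hsurj (C.map _), Subgroup.comap_map_eq,
          QuotientGroup.ker_mk', hU, Subgroup.map_top_of_surjective _ hsurj]
      have h5 := isNilpotent_of_quotients_of_disjoint N (K ⟨q, hq⟩)
        (inf_eq_bot_of_isPiSubgroup (isPiSubgroup_singleton_iff.2 hNq) (hK.isPiHall ⟨q, hq⟩).1)
      rw [Carter.IsCarter.eq_top hC]
      exact le_top
    · have := (Carter.eq_of_sup_min_normal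
        (fun a ha b hb => congrArg Subtype.val (hNc.is_comm.comm (⟨a, ha⟩ : N) ⟨b, hb⟩))
        hN.min hU hCK hL).2
      exact (systemNormalizer_le K ⟨q, hq⟩).trans this.le
  · have hredU : ∀ p : Nat.Primes, IsPiHallOf {(p : ℕ)}ᶜ (K p ⊓ (C ⊔ N)) (C ⊔ N) := by
      intro p
      refine isPiHallOf_iff.2 ⟨inf_le_right,
        isPiSubgroup_of_le (hK.isPiHall p).1 inf_le_left, ?_⟩
      have h2 := (isPiHallOf_iff.1 (hred p)).2.2
      by_cases hpq : (p : ℕ) = q
      · refine IsPiNum.of_dvd ?_ (Subgroup.relIndex_dvd_of_le_left _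
          (inf_le_inf_left (K p) (le_sup_left : C ≤ C ⊔ N)))
        rw [← Subgroup.relIndex_mul_relIndex _ _ _ inf_le_right (le_sup_left : C ≤ C ⊔ N)]
        refine h2.mul ?_
        rw [compl_compl, hpq]
        exact (isPGroup_iff_isPiNum.1 hNq).of_dvd hidx
      · have hNK : N ≤ K p := le_of_isPiHall_of_normal (hK.isPiHall p)
          (isPiSubgroup_of_isPGroup (Ne.symm hpq) hNq)
        have h3 := (isPiHallOf_iff.1 (isPiHallOf_map (QuotientGroup.mk' N) (hred p))).2.2
        rw [Subgroup.relIndex_map_map, QuotientGroup.ker_mk'] at h3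
        exact h3.of_dvd (Subgroup.relIndex_dvd_of_le_left _
          (sup_le (inf_le_inf_left _ le_sup_left) (le_inf hNK le_sup_right)))
    have h2 := ih (C ⊔ N : Subgroup G) (card_lt_of_ne_top hU) inferInstance _
      (Carter.IsCarter.subgroupOf hC le_sup_left) _ (isComplementSystem_subgroupOf hredU)
      (fun p => by
        have h3 := hred p
        rw [isPiHallOf_iff] at h3 ⊢
        have e : (K p).subgroupOf (C ⊔ N) ⊓ C.subgroupOf (C ⊔ N) = (K p ⊓ C).subgroupOf (C ⊔ N) :=
          (Subgroup.comap_inf _ _ _).symm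
        refine ⟨inf_le_right, ?_, ?_⟩
        · rw [e]
          exact h3.2.1.card_subgroupOf _
        · rw [e, Subgroup.relIndex_subgroupOf le_sup_left]
          exact h3.2.2)
    intro d hd
    exact h2 (systemNormalizer_subgroupOf_le K _ (show (⟨d, h1 hd⟩ : (C ⊔ N : Subgroup G)) ∈ _
      from hd))

end Cfsg.Lib.Solv
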