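import Mathlib

/-!
# Griess' extension `Q.Out(Q)` for an extraspecial `2`-group `Q` (helper2)

The normaliser of `Q` in the faithful irreducible representation over `F₃` is an extension of the
centre of `Q` by `Aut(Q)`.  We use the bimodule of functions `φ : Q → F₃` with `φ (z x) = - φ x`.
-/

set_option autoImplicit false

namespace Cfsg.Lib.Griess

universe u

variable {Q : Type u} [Group Q]

/-- Hypotheses on `Q` and the central involution `z`. -/
structure Hyp (z : Q) : Prop where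
  ne_one : z ≠ 1
  mul_self : z * z = 1
  comm : ∀ x, z * x = x * z
  conj : ∀ x, x ≠ 1 → x ≠ z → ∃ a, a⁻¹ * x * a = z * x
  card : ¬ 3 ∣ Nat.card Q
  aut : ∀ α : MulAut Q, ∃ x, ∀ a, α a ≠ z * (x * a * x⁻¹)

/-- Odd functions. -/
def W (z : Q) : Submodule (ZMod 3) (Q → ZMod 3) where
  carrier := {φ | ∀ x, φ (z * x) = - φ x}
  add_mem' {φ ψ} h h' x := by simp only [Pi.add_apply, h x, h' x]; ring
  zero_mem' x := by simp
  smul_mem' c φ h x := by simp only [Pi.smul_apply, h x, smul_eq_mul]; ring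

variable {z : Q}

/-- Two-sided translation. -/
def Tl (h : Hyp z) (p : Q × Q) : W z →ₗ[ZMod 3] W z where
  toFun φ := ⟨fun x => φ.1 (p.1⁻¹ * x * p.2), fun x => by
    change φ.1 (p.1⁻¹ * (z * x) * p.2) = - φ.1 (p.1⁻¹ * x * p.2)
    rw [← φ.2, ← mul_assoc, ← h.comm, mul_assoc z, mul_assoc z]⟩
  map_add' _ _ := rfl
  map_smul' _ _ := rfl

/-- Two-sided translation as a group homomorphism. -/
def T (h : Hyp z) : Q × Q →* (W z ≃ₗ[ZMod 3] W z) where
  toFun p := LinearEquiv.ofLinear (Tl h p) (Tl h p⁻¹)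
    (by ext φ x; simp [Tl, mul_assoc]) (by ext φ x; simp [Tl, mul_assoc])
  map_one' := by ext φ x; simp [Tl]
  map_mul' p q := by ext φ x; simp [Tl, mul_assoc]

theorem T_apply (h : Hyp z) (p : Q × Q) (φ : W z) (x : Q) :
    (T h p φ).1 x = φ.1 (p.1⁻¹ * x * p.2) := rfl

theorem T_T (h : Hyp z) (p q : Q × Q) (φ : W z) : T h p (T h q φ) = T h (p * q) φ := by
  rw [map_mul]; rfl

theorem Hyp.inv (h : Hyp z) : z⁻¹ = z := inv_eq_of_mul_eq_one_right h.mul_self

open Classical in
/-- The basic odd function. -/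
noncomputable def dl (h : Hyp z) : W z :=
  ⟨fun x => (if x = 1 then 1 else 0) - (if x = z then 1 else 0), fun x => by
    have h1 : z * x = 1 ↔ x = z := by rw [mul_eq_one_iff_inv_eq, h.inv, eq_comm]
    have h2 : z * x = z ↔ x = 1 := mul_eq_left
    simp only [h1, h2]; ring⟩

theorem dl_one (h : Hyp z) : (dl h).1 1 = 1 := by simp [dl, h.ne_one.symm]

theorem dl_z (h : Hyp z) : (dl h).1 z = -1 := by simp [dl, h.ne_one]

theorem dl_of_ne (h : Hyp z) {x : Q} (h1 : x ≠ 1) (h2 : x ≠ z) : (dl h).1 x = 0 := by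
  simp [dl, h1, h2]

theorem sum_mul_dl [Fintype Q] (h : Hyp z) {M : Type*} [AddCommGroup M] [Module (ZMod 3) M]
    (f : Q → M) : ∑ t, (dl h).1 t • f t = f 1 - f z := by
  classical
  simp [dl, sub_smul, Finset.sum_sub_distrib]

theorem eq_sum [Fintype Q] (h : Hyp z) (φ : W z) :
    φ = -∑ t, φ.1 t • T h (1, t⁻¹) (dl h) := by
  apply Subtype.ext
  funext x
  simp only [Submodule.coe_neg, Pi.neg_apply, Submodule.coe_sum, Finset.sum_apply,
    Submodule.coe_smul, Pi.smul_apply, T_apply, inv_one, one_mul]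
  rw [← Equiv.sum_comp ((Equiv.inv Q).trans (Equiv.mulRight x))]
  simp only [Equiv.trans_apply, Equiv.inv_apply, Equiv.coe_mulRight, mul_inv_rev, inv_inv,
    mul_inv_cancel_left, smul_eq_mul]
  have := sum_mul_dl h (fun t => φ.1 (t⁻¹ * x))
  simp only [smul_eq_mul, inv_one, one_mul, h.inv, φ.2 x] at this
  simp only [mul_comm (φ.1 _), this]
  have h3 : (3 : ZMod 3) = 0 := rfl
  linear_combination (φ.1 x) * h3

theorem eq_smul_dl (h : Hyp z) {φ : W z} (hφ : ∀ a, T h (a, a) φ = φ) : φ = φ.1 1 • dl h := by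
  apply Subtype.ext
  funext x
  rw [Submodule.coe_smul, Pi.smul_apply, smul_eq_mul]
  by_cases h1 : x = 1
  · rw [h1, dl_one, mul_one]
  by_cases h2 : x = z
  · rw [h2, dl_z, mul_neg_one, ← φ.2, mul_one]
  obtain ⟨a, ha⟩ := h.conj x h1 h2
  have h3 := congrFun (congrArg Subtype.val (hφ a)) x
  rw [T_apply, ha, φ.2] at h3
  rw [dl_of_ne h h1 h2, mul_zero]
  have h4 : (3 : ZMod 3) = 0 := rfl
  linear_combination h3 + (φ.1 x) * h4

theorem T_conj_dl (h : Hyp z) (a : Q) : T h (a, a) (dl h) = dl h := by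
  classical
  apply Subtype.ext
  funext x
  have h1 : a⁻¹ * x * a = 1 ↔ x = 1 := by
    constructor
    · intro e
      have : x = a * (a⁻¹ * x * a) * a⁻¹ := by group
      rw [this, e]; group
    · rintro rfl; group
  have h2 : a⁻¹ * x * a = z ↔ x = z := by
    constructor
    · intro e
      have : x = a * (a⁻¹ * x * a) * a⁻¹ := by group
      rw [this, e, ← h.comm]; group
    · rintro rfl; rw [mul_assoc, h.comm]; group
  rw [T_apply]
  exact congrArg₂ (· - ·) (if_congr h1 rfl rfl) (if_congr h2 rfl rfl)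

theorem cast_ne_zero {n : ℕ} (h : Hyp z) (hn : n ∣ Nat.card Q) : (n : ZMod 3) ≠ 0 := by
  rw [Ne, ZMod.natCast_eq_zero_iff]
  exact fun h3 => h.card (h3.trans hn)

theorem eq_top [Finite Q] (h : Hyp z) {I : Submodule (ZMod 3) (W z)}
    (hI : ∀ p, ∀ φ ∈ I, T h p φ ∈ I) (h0 : I ≠ ⊥) : I = ⊤ := by
  haveI : Fact (Nat.Prime 3) := ⟨Nat.prime_three⟩
  letI := Fintype.ofFinite Q
  obtain ⟨φ, hφ, hne⟩ := Submodule.exists_mem_ne_zero_of_ne_bot h0
  obtain ⟨t, ht⟩ : ∃ t, φ.1 t ≠ 0 := by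
    by_contra hc
    push Not at hc
    exact hne (Subtype.ext (funext hc))
  let ψ : W z := ∑ a, T h (a, a) (T h (1, t) φ)
  have hψ : ψ ∈ I := I.sum_mem fun a _ => hI _ _ (hI _ _ hφ)
  have h1 : ψ.1 1 ≠ 0 := by
    simp only [ψ, Submodule.coe_sum, Finset.sum_apply, T_apply, mul_one, inv_mul_cancel, inv_one,
      one_mul, Finset.sum_const, Finset.card_univ, nsmul_eq_mul]
    exact mul_ne_zero (cast_ne_zero h (by rw [Nat.card_eq_fintype_card])) ht
  have h2 : ψ = ψ.1 1 • dl h := eq_smul_dl h fun b => by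
    simp only [ψ, map_sum, T_T h (b, b)]
    exact Equiv.sum_comp (Equiv.mulLeft b) fun a => T h (a, a) (T h (1, t) φ)
  have h3 : dl h ∈ I := by
    rw [h2] at hψ
    exact (I.smul_mem_iff h1).1 hψ
  rw [eq_top_iff]
  intro χ _
  rw [eq_sum h χ]
  exact I.neg_mem (I.sum_mem fun s _ => I.smul_mem _ (hI _ _ h3))

theorem T_z_left (h : Hyp z) (φ : W z) : T h (z, 1) φ = -φ := by
  apply Subtype.ext
  funext x
  rw [T_apply, mul_one, h.inv, φ.2]; rfl

theorem T_z_right (h : Hyp z) (φ : W z) : T h (1, z) φ = -φ := by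
  apply Subtype.ext
  funext x
  rw [T_apply, inv_one, one_mul, ← h.comm, φ.2]; rfl

theorem eq_of_comm [Finite Q] (h : Hyp z) {x : W z ≃ₗ[ZMod 3] W z}
    (hx : ∀ p φ, x (T h p φ) = T h p (x φ)) : x = 1 ∨ x = T h (z, 1) := by
  letI := Fintype.ofFinite Q
  have h1 : x (dl h) = (x (dl h)).1 1 • dl h := eq_smul_dl h fun a => by rw [← hx, T_conj_dl]
  generalize (x (dl h)).1 1 = c at h1
  have h2 : ∀ φ, x φ = c • φ := fun φ => by
    conv_lhs => rw [eq_sum h φ]
    conv_rhs => rw [eq_sum h φ]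
    simp only [map_neg, map_sum, map_smul, hx, h1, smul_neg, Finset.smul_sum, smul_comm c]
  have hc : c = 0 ∨ c = 1 ∨ c = -1 := by clear h1 h2; revert c; decide
  rcases hc with rfl | rfl | rfl
  · exfalso
    have h3 : dl h = 0 := x.injective (by rw [h2, zero_smul, map_zero])
    have h4 := dl_one h
    rw [h3] at h4
    exact absurd (show (0 : ZMod 3) = 1 from h4) (by decide)
  · left; ext1 φ; rw [h2, one_smul]; rfl
  · right; ext1 φ; rw [h2, T_z_left]; exact neg_one_smul (ZMod 3) φ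

theorem exists_intertwiner [Finite Q] (h : Hyp z) (α : MulAut Q) :
    ∃ x : W z ≃ₗ[ZMod 3] W z, ∀ a b φ, x (T h (a, b) φ) = T h (α a, b) (x φ) := by
  classical
  letI := Fintype.ofFinite Q
  obtain ⟨x₀, hx₀⟩ := h.aut α
  let y : W z := ∑ a, T h (α a, a) (T h (1, x₀⁻¹) (dl h))
  have hy : ∀ b, T h (α b, b) y = y := fun b => by
    simp only [y, map_sum, T_T h (α b, b), Prod.mk_mul_mk, ← map_mul α]
    exact Equiv.sum_comp (Equiv.mulLeft b) fun a => T h (α a, a) (T h (1, x₀⁻¹) (dl h))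
  have hy0 : y.1 x₀ ≠ 0 := by
    let D : Subgroup Q := α.toMonoidHom.eqLocus (MulAut.conj x₀).toMonoidHom
    have : ∀ a, (dl h).1 ((α a)⁻¹ * x₀ * a * x₀⁻¹) = if a ∈ D then 1 else 0 := fun a => by
      have e : a ∈ D ↔ α a = x₀ * a * x₀⁻¹ := Iff.rfl
      split_ifs with ha
      · rw [e.1 ha, show (x₀ * a * x₀⁻¹)⁻¹ * x₀ * a * x₀⁻¹ = 1 by group, dl_one]
      · apply dl_of_ne
        · intro e1
          apply ha
          rw [e, ← mul_one (α a), ← e1]; group
        · intro e1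
          apply hx₀ a
          rw [h.comm, ← h.inv, ← e1]; group
    simp only [y, Submodule.coe_sum, Finset.sum_apply, T_apply, inv_one, one_mul, this,
      Finset.sum_boole]
    apply cast_ne_zero h
    rw [← Fintype.card_subtype, ← Nat.card_eq_fintype_card]
    exact D.card_subgroup_dvd_card
  let x : W z →ₗ[ZMod 3] W z :=
    { toFun := fun φ => ∑ t, φ.1 t • T h (1, t⁻¹) y
      map_add' := fun φ ψ => by simp [add_smul, Finset.sum_add_distrib]
      map_smul' := fun c φ => by simp [Finset.smul_sum, mul_smul] }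
  have hx : ∀ a b φ, x (T h (a, b) φ) = T h (α a, b) (x φ) := fun a b φ => by
    change ∑ t, φ.1 (a⁻¹ * t * b) • T h (1, t⁻¹) y = T h (α a, b) (∑ t, φ.1 t • T h (1, t⁻¹) y)
    rw [map_sum, ← Equiv.sum_comp ((Equiv.mulLeft a).trans (Equiv.mulRight b⁻¹))]
    refine Finset.sum_congr rfl fun t _ => ?_
    simp only [Equiv.trans_apply, Equiv.coe_mulLeft, Equiv.coe_mulRight, map_smul]
    congr 1
    · congr 1; group
    · conv_lhs => rw [← hy a]
      rw [T_T, T_T]
      congr 2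
      ext <;> simp [mul_assoc]
  have hker : LinearMap.ker x = ⊥ := by
    by_contra h0
    have ht := eq_top h (fun p φ hφ => by
      rw [LinearMap.mem_ker] at hφ ⊢
      rw [hx p.1 p.2, hφ, map_zero]) h0
    have h1 : x (dl h) = 0 := LinearMap.mem_ker.1 (ht ▸ Submodule.mem_top)
    replace h1 := (sum_mul_dl h fun t => T h (1, t⁻¹) y).symm.trans h1
    rw [h.inv, T_z_right, inv_one, show ((1 : Q), (1 : Q)) = 1 from rfl, map_one] at h1
    have h2 := congrFun (congrArg Subtype.val h1) x₀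
    change y.1 x₀ - - y.1 x₀ = 0 at h2
    have h4 : (3 : ZMod 3) = 0 := rfl
    exact hy0 (by linear_combination -h2 + (y.1 x₀) * h4)
  have hinj : Function.Injective x := LinearMap.ker_eq_bot.1 hker
  exact ⟨LinearEquiv.ofBijective x (Finite.injective_iff_bijective.1 hinj), hx⟩

/-- The normaliser, as a group of pairs. -/
def N (h : Hyp z) : Subgroup ((W z ≃ₗ[ZMod 3] W z) × MulAut Q) where
  carrier := {p | ∀ a b φ, p.1 (T h (a, b) φ) = T h (p.2 a, b) (p.1 φ)}
  one_mem' _ _ _ := rfl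
  mul_mem' {p q} hp hq a b φ := by
    change p.1 (q.1 _) = T h (p.2 (q.2 a), b) (p.1 (q.1 φ))
    rw [hq, hp]
  inv_mem' {p} hp a b φ := by
    apply p.1.injective
    change p.1 (p.1.symm _) = p.1 (T h (p.2.symm a, b) (p.1.symm φ))
    rw [hp]
    simp

theorem exists_extension [Finite Q] (h : Hyp z) :
    ∃ (R : Type u) (_ : Group R) (_ : Finite R) (ι : Q →* R) (π : R →* MulAut Q),
      Function.Injective ι ∧ Function.Surjective π ∧ (∀ a, π (ι a) = MulAut.conj a) ∧
      (∀ x a, x * ι a * x⁻¹ = ι (π x a)) ∧ ∀ x, π x = 1 → x ∈ ι.range := by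
  haveI : Finite (W z ≃ₗ[ZMod 3] W z) :=
    Finite.of_injective (fun f => (f : W z → W z)) DFunLike.coe_injective
  haveI : Finite (MulAut Q) := Finite.of_injective (fun f => (f : Q → Q)) DFunLike.coe_injective
  let ι : Q →* N h := (((T h).comp (MonoidHom.inl Q Q)).prod MulAut.conj).codRestrict _
    fun c a b φ => by
      change T h (c, 1) _ = T h (c * a * c⁻¹, b) (T h (c, 1) φ)
      rw [T_T, T_T]
      congr 2
      ext <;> simp
  refine ⟨N h, inferInstance, inferInstance, ι, (MonoidHom.snd _ _).comp (N h).subtype, ?_, ?_,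
    fun _ => rfl, ?_, ?_⟩
  · rw [injective_iff_map_eq_one]
    intro a ha
    have h1 : T h (a, 1) (dl h) = dl h := by
      have : T h (a, 1) = 1 := congrArg (fun p : N h => p.1.1) ha
      rw [this]; rfl
    have h2 := congrFun (congrArg Subtype.val h1) a
    rw [T_apply, inv_mul_cancel, mul_one, dl_one] at h2
    by_contra h3
    by_cases h4 : a = z
    · rw [h4, dl_z] at h2
      exact absurd h2 (by decide)
    · rw [dl_of_ne h h3 h4] at h2
      exact absurd h2 (by decide)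
  · intro α
    obtain ⟨x, hx⟩ := exists_intertwiner h α
    exact ⟨⟨(x, α), hx⟩, rfl⟩
  · intro x a
    rw [mul_inv_eq_iff_eq_mul]
    apply Subtype.ext
    apply Prod.ext
    · ext1 φ
      exact x.2 a 1 φ
    · ext b
      change x.1.2 (a * b * a⁻¹) = x.1.2 a * x.1.2 b * (x.1.2 a)⁻¹
      simp
  · intro x hx
    have h1 : x.1.2 = 1 := hx
    have h2 := eq_of_comm h (x := x.1.1) fun p φ => by
      have := x.2 p.1 p.2 φ
      rwa [h1] at this
    rcases h2 with h2 | h2
    · exact ⟨1, by rw [map_one]; exact Subtype.ext (Prod.ext h2.symm h1.symm)⟩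
    · refine ⟨z, Subtype.ext (Prod.ext h2.symm ?_)⟩
      rw [h1]
      ext b
      change z * b * z⁻¹ = b
      rw [h.comm]; group

end Cfsg.Lib.Griess
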