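import Cfsg.Agent.Solv.CoprimeGen

/-!
Minimal invariant subgroups, the socle of an action on an abelian group, and Clifford's theorem
(first part) for actions on abelian groups, in the ambient-subgroup language.
-/

set_option autoImplicit false

namespace Cfsg.Lib.Solv

open Subgroup
open scoped Pointwise commutatorElement

variable {G : Type*} [Group G]

/-- `M` is a minimal nontrivial `A`-invariant subgroup. -/
def IsMinInv (A M : Subgroup G) : Prop :=
  M ≠ ⊥ ∧ A ≤ normalizer (M : Set G) ∧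
    ∀ L : Subgroup G, L ≤ M → A ≤ normalizer (L : Set G) → L = ⊥ ∨ L = M

/-- The join of the minimal `A`-invariant subgroups of `V`. -/
def invSocle (A V : Subgroup G) : Subgroup G := ⨆ M : {M // IsMinInv A M ∧ M ≤ V}, M.1

variable {A H V : Subgroup G}

theorem exists_isMinInv_le [Finite G] (hV : V ≠ ⊥) (hAV : A ≤ normalizer (V : Set G)) :
    ∃ M, IsMinInv A M ∧ M ≤ V := by
  obtain ⟨M, hMV, hM⟩ := Finite.exists_le_minimal
    (p := fun M : Subgroup G => M ≠ ⊥ ∧ A ≤ normalizer (M : Set G)) ⟨hV, hAV⟩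
  refine ⟨M, ⟨hM.prop.1, hM.prop.2, fun L hL hAL => ?_⟩, hMV⟩
  by_cases h : L = ⊥
  · exact Or.inl h
  · exact Or.inr (le_antisymm hL (hM.le_of_le ⟨h, hAL⟩ hL))

theorem IsMinInv.conj {M : Subgroup G} (hM : IsMinInv A M) {g : G}
    (hg : g ∈ normalizer (A : Set G)) : IsMinInv A (MulAut.conj g • M) := by
  have key : ∀ {g : G} {L : Subgroup G}, g ∈ normalizer (A : Set G) → A ≤ normalizer (L : Set G) →
      A ≤ normalizer ((MulAut.conj g • L : Subgroup G) : Set G) := by
    intro g L hg hL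
    rw [← conj_smul_normalizer, ← conj_smul_eq_of_mem_normalizer hg]
    exact conj_smul_mono g hL
  refine ⟨fun h => hM.1 (conj_smul_eq_bot_iff.mp h), key hg hM.2.1, fun L hL hAL => ?_⟩
  rcases hM.2.2 (MulAut.conj g⁻¹ • L) (by
    have := conj_smul_mono g⁻¹ hL
    rwa [conj_inv_smul_conj_smul] at this) (key (inv_mem hg) hAL) with h | h
  · exact Or.inl (conj_smul_eq_bot_iff.mp h)
  · right; rw [← h, conj_smul_conj_inv_smul]

theorem IsMinInv.inf_eq_bot_or_le {M L : Subgroup G} (hM : IsMinInv A M)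
    (hL : A ≤ normalizer (L : Set G)) : M ⊓ L = ⊥ ∨ M ≤ L :=
  (hM.2.2 _ inf_le_left (le_normalizer_inf hM.2.1 hL)).imp id inf_eq_left.mp

theorem invSocle_le : invSocle A V ≤ V := iSup_le fun M => M.2.2

theorem IsMinInv.le_invSocle {M : Subgroup G} (hM : IsMinInv A M) (hMV : M ≤ V) :
    M ≤ invSocle A V :=
  le_iSup (fun M : {M // IsMinInv A M ∧ M ≤ V} => M.1) ⟨M, hM, hMV⟩

theorem le_normalizer_invSocle [Finite G] (hHA : H ≤ normalizer (A : Set G))
    (hHV : H ≤ normalizer (V : Set G)) : H ≤ normalizer (invSocle A V : Set G) := by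
  intro g hg
  have : MulAut.conj g • invSocle A V ≤ invSocle A V := by
    rw [invSocle, conj_smul_iSup]
    refine iSup_le fun M => (M.2.1.conj (hHA hg)).le_invSocle ?_
    exact (conj_smul_mono g M.2.2).trans (conj_smul_eq_of_mem_normalizer (hHV hg)).le
  exact mem_normalizer_of_conj_mem fun x hx => this (conj_mem_conj_smul g hx)

/-- If an abelian group is generated by minimal invariant subgroups, invariant subgroups have
invariant complements. -/
theorem exists_invariant_complement_of_invSocle_eq [Finite G] [IsMulCommutative V]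
    (hS : invSocle A V = V) {U : Subgroup G} (hUV : U ≤ V) (hAU : A ≤ normalizer (U : Set G)) :
    ∃ W : Subgroup G, W ≤ V ∧ A ≤ normalizer (W : Set G) ∧ U ⊓ W = ⊥ ∧ U ⊔ W = V := by
  have hn : ∀ {X Y : Subgroup G}, X ≤ V → Y ≤ V → X ≤ normalizer (Y : Set G) := by
    intro X Y hX hY x hx
    refine mem_normalizer_of_conj_mem fun y hy => ?_
    rw [setLike_mul_comm (s := V) (hX hx) (hY hy), mul_inv_cancel_right]
    exact hy
  obtain ⟨W, -, hW⟩ := Finite.exists_le_maximal
    (p := fun W : Subgroup G => W ≤ V ∧ A ≤ normalizer (W : Set G) ∧ U ⊓ W = ⊥) (a := ⊥)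
    ⟨bot_le, le_normalizer_of_normal, inf_bot_eq _⟩
  obtain ⟨hWV, hAW, hUW⟩ := hW.prop
  refine ⟨W, hWV, hAW, hUW, le_antisymm (sup_le hUV hWV) ?_⟩
  conv_lhs => rw [← hS]
  refine iSup_le fun ⟨M, hM, hMV⟩ => ?_
  rcases hM.inf_eq_bot_or_le (le_normalizer_sup hAU hAW) with h | h
  · refine le_sup_of_le_right (le_sup_right.trans (hW.le_of_ge (y := W ⊔ M)
      ⟨sup_le hWV hMV, le_normalizer_sup hAW hM.2.1, ?_⟩ le_sup_left))
    rw [eq_bot_iff]
    rintro u ⟨hu, hu'⟩
    obtain ⟨w, hw, m, hm, rfl⟩ := (Coprime.mem_sup_iff (hn hMV hWV)).mp hu'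
    have h1 : m ∈ M ⊓ (U ⊔ W) := ⟨hm, by
      have := mul_mem (mem_sup_right (S := U) (inv_mem hw)) (mem_sup_left (T := W) hu)
      rwa [inv_mul_cancel_left] at this⟩
    rw [h, mem_bot] at h1
    subst h1
    rw [← hUW]
    exact ⟨hu, by simpa using hw⟩
  · exact h

/-- If `H` acts semisimply on `V` and normalizes `A`, and `A` normalizes all `H`-invariant
subgroups (e.g. `A ≤ H`), then `V` is generated by its minimal `A`-invariant subgroups. -/
theorem invSocle_eq_of_semisimple [Finite G] (hHV : H ≤ normalizer (V : Set G)) (hAH : A ≤ H)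
    (hHA : H ≤ normalizer (A : Set G))
    (hss : ∀ U : Subgroup G, U ≤ V → H ≤ normalizer (U : Set G) →
      ∃ W : Subgroup G, W ≤ V ∧ H ≤ normalizer (W : Set G) ∧ U ⊓ W = ⊥ ∧ U ⊔ W = V) :
    invSocle A V = V := by
  obtain ⟨W, hWV, hHW, h1, h2⟩ := hss _ invSocle_le (le_normalizer_invSocle hHA hHV)
  by_cases hW : W = ⊥
  · rwa [hW, sup_bot_eq] at h2
  · obtain ⟨M, hM, hMW⟩ := exists_isMinInv_le hW (hAH.trans hHW)
    exact absurd (eq_bot_iff.mpr (h1 ▸ le_inf (hM.le_invSocle (hMW.trans hWV)) hMW)) hM.1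

/-- Clifford: a minimal `H`-invariant subgroup is generated by its minimal `A`-invariant subgroups
for `A ⊴ H`. -/
theorem IsMinInv.invSocle_eq [Finite G] (hV : IsMinInv H V) (hAH : A ≤ H)
    (hHA : H ≤ normalizer (A : Set G)) : invSocle A V = V := by
  rcases hV.2.2 _ invSocle_le (le_normalizer_invSocle hHA hV.2.1) with h | h
  · obtain ⟨M, hM, hMV⟩ := exists_isMinInv_le hV.1 (hAH.trans hV.2.1)
    exact absurd (eq_bot_iff.mpr (h ▸ hM.le_invSocle hMV)) hM.1
  · exact h

end Cfsg.Lib.Solv
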