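import Cfsg.Agent.Trans.GenFitting
import Cfsg.Agent.Solv.MinNormal
import Cfsg.Agent.Solv.Conj

/-!
# Normal closures of components; minimal normal subgroups and `E(G)`
-/

set_option autoImplicit false

open scoped Pointwise

namespace Cfsg.Lib.Solv

open Cfsg.Lib.Trans

variable {G : Type*} [Group G]

/-- The normal closure of a subgroup is the join of its conjugates. -/
theorem normalClosure_eq_sSup_conj_smul (K : Subgroup G) :
    Subgroup.normalClosure (K : Set G) = sSup {L | ∃ g : G, L = MulAut.conj g • K} := by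
  refine le_antisymm ?_ ?_
  · haveI : (sSup {L | ∃ g : G, L = MulAut.conj g • K} : Subgroup G).Normal := by
      refine Subgroup.normalizer_eq_top_iff.1 (eq_top_iff.2 fun x _ => ?_)
      rw [mem_normalizer_iff_conj_smul_eq, sSup_eq_iSup', conj_smul_iSup]
      refine le_antisymm (iSup_le ?_) (iSup_le ?_)
      · rintro ⟨_, g, rfl⟩
        exact le_iSup_of_le ⟨_, x * g, rfl⟩ (conj_mul_smul x g K).ge
      · rintro ⟨_, g, rfl⟩
        refine le_iSup_of_le ⟨_, x⁻¹ * g, rfl⟩ ?_
        rw [← conj_mul_smul, mul_inv_cancel_left]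
    exact Subgroup.normalClosure_le_normal
      (le_sSup (s := {L | ∃ g : G, L = MulAut.conj g • K}) ⟨1, (conj_one_smul K).symm⟩)
  · refine sSup_le ?_
    rintro _ ⟨g, rfl⟩
    rw [conj_smul_le_iff]
    exact fun h hh => Subgroup.normalClosure_normal.conj_mem _ (Subgroup.subset_normalClosure hh) g

/-- A product of centre-free components is centre-free. -/
theorem inf_centralizer_sSup_components_eq_bot {S : Set (Subgroup G)} (hfin : S.Finite)
    (hS : ∀ K ∈ S, IsComponent K)
    (hZ : ∀ K ∈ S, K ⊓ Subgroup.centralizer (K : Set G) = ⊥) :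
    sSup S ⊓ Subgroup.centralizer ((sSup S : Subgroup G) : Set G) = ⊥ := by
  induction S, hfin using Set.Finite.induction_on with
  | empty => simp
  | @insert K S hKS _ ih =>
    have hK := hS K (Set.mem_insert _ _)
    have hS' : ∀ L ∈ S, IsComponent L := fun L hL => hS L (Set.mem_insert_of_mem _ hL)
    have hc : ⁅K, sSup S⁆ = ⊥ := IsComponent.commutator_sSup_eq_bot hK hS' hKS
    have ih' := ih hS' fun L hL => hZ L (Set.mem_insert_of_mem _ hL)
    rw [sSup_insert, eq_bot_iff]
    rintro x ⟨hx, hxc⟩
    obtain ⟨k, hk, y, hy, rfl⟩ := (mem_sup_of_le_normalizer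
      (le_normalizer_of_commutator_eq_bot (commutator_eq_bot_symm hc))).1 hx
    have hyK : y ∈ Subgroup.centralizer (K : Set G) :=
      commutator_eq_bot_iff_le_centralizer'.1 hc hy
    have hxK : k * y ∈ Subgroup.centralizer (K : Set G) :=
      Subgroup.centralizer_le (SetLike.coe_subset_coe.2 le_sup_left) hxc
    have hk1 : k = 1 := by
      have : k ∈ K ⊓ Subgroup.centralizer (K : Set G) := by
        refine ⟨hk, ?_⟩
        have := Subgroup.mul_mem _ hxK (Subgroup.inv_mem _ hyK)
        rwa [mul_inv_cancel_right] at this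
      rwa [hZ K (Set.mem_insert _ _), Subgroup.mem_bot] at this
    subst hk1
    rw [one_mul] at hxc ⊢
    rw [← ih']
    exact ⟨hy, Subgroup.centralizer_le (SetLike.coe_subset_coe.2 le_sup_right) hxc⟩

/-- The normal closure of a centre-free component is a minimal normal subgroup. -/
theorem isMinNormal_normalClosure_of_isComponent [Finite G] {K : Subgroup G} (hK : IsComponent K)
    (hZ : K ⊓ Subgroup.centralizer (K : Set G) = ⊥) :
    IsMinNormal (Subgroup.normalClosure (K : Set G)) := by
  refine ⟨inferInstance, fun h => IsComponent.ne_bot hK (eq_bot_iff.2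
    (h ▸ Subgroup.le_normalClosure)), fun N hN hNK => ?_⟩
  rcases IsComponent.le_or_commutator_eq_bot hK hN.isSubnormal with h | h
  · right
    exact le_antisymm hNK (Subgroup.normalClosure_le_normal h)
  · left
    have hc : Subgroup.normalClosure (K : Set G) ≤ Subgroup.centralizer (N : Set G) :=
      Subgroup.normalClosure_le_normal (Subgroup.commutator_eq_bot_iff_le_centralizer.1 h)
    have h0 := inf_centralizer_sSup_components_eq_bot (S := {L | ∃ g : G, L = MulAut.conj g • K})
      (Set.toFinite _) (by rintro _ ⟨g, rfl⟩; exact IsComponent.conj_smul hK g)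
      (by
        rintro _ ⟨g, rfl⟩
        rw [← conj_smul_centralizer, ← Subgroup.smul_inf, hZ, Subgroup.smul_bot])
    rw [← normalClosure_eq_sSup_conj_smul] at h0
    rw [eq_bot_iff, ← h0]
    exact le_inf hNK (Subgroup.le_centralizer_iff.1 hc)

theorem IsMinNormal.le_genFitting [Finite G] {N : Subgroup G} (hN : IsMinNormal N) :
    N ≤ generalizedFittingSubgroup G :=
  hN.le_of_inf_ne_bot (inf_genFitting_ne_bot hN.normal.isSubnormal hN.ne_bot)

/-- If `F(G) = 1`, then `E(G)` is the product of the minimal normal subgroups. -/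
theorem sSup_isMinNormal_eq_layer [Finite G] (hF : fittingSubgroup G = ⊥) :
    sSup {N : Subgroup G | IsMinNormal N} = layer G := by
  refine le_antisymm (sSup_le fun N hN => ?_) (layer_le_iff.2 fun K hK => ?_)
  · rw [← genFitting_eq_layer_of_fitting_eq_bot hF]
    exact IsMinNormal.le_genFitting hN
  · refine Subgroup.le_normalClosure.trans (le_sSup ?_)
    refine isMinNormal_normalClosure_of_isComponent hK (eq_bot_iff.2 ?_)
    rw [← hF]
    exact IsComponent.center_le_fitting hK

end Cfsg.Lib.Solv
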