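import Mathlib.GroupTheory.FiniteAbelian.Duality
import Mathlib.RingTheory.IntegralDomain
import Mathlib.RingTheory.RootsOfUnity.PrimitiveRoots
import Mathlib.Tactic.Group
import Cfsg.Agent.Solv.PGroupNormal

/-!
# Anisotropic quadratic maps in characteristic two

A Chevalley–Warning type bound, proved by Gauss sums: if `q : G → W` is a quadratic map into an
elementary abelian `2`-group whose zeros form a subgroup `N`, then `|G : N| ≤ |W| ^ 2`.
-/

set_option autoImplicit false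

open scoped commutatorElement Pointwise
open Subgroup

namespace Cfsg.Lib.Solv.PG

theorem two_pow_half_dvd_of_dvd_sq : ∀ (e : ℕ) (S : ℤ), (2 : ℤ) ^ e ∣ S ^ 2 →
    (2 : ℤ) ^ ((e + 1) / 2) ∣ S
  | 0, _, _ => by simp
  | 1, S, h => by simpa using Int.prime_two.dvd_of_dvd_pow (by simpa using h)
  | e + 2, S, h => by
    obtain ⟨T, rfl⟩ : (2 : ℤ) ∣ S :=
      Int.prime_two.dvd_of_dvd_pow ((dvd_pow_self 2 (by omega)).trans h)
    rw [show (e + 2 + 1) / 2 = (e + 1) / 2 + 1 by omega, pow_succ']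
    refine mul_dvd_mul_left _ (two_pow_half_dvd_of_dvd_sq e T ?_)
    rw [mul_pow, pow_add, mul_comm] at h
    exact (mul_dvd_mul_iff_left (by norm_num)).mp h

theorem hasEnoughRootsOfUnity_int {W : Type*} [Group W] (hW : ∀ w : W, w ^ 2 = 1) :
    HasEnoughRootsOfUnity ℤ (Monoid.exponent W) := by
  have : HasEnoughRootsOfUnity ℤ 2 :=
    ⟨⟨-1, IsPrimitiveRoot.neg_one 0 (by norm_num)⟩, rootsOfUnity.isCyclic _ _⟩
  exact HasEnoughRootsOfUnity.of_dvd ℤ (Monoid.exponent_dvd_of_forall_pow_eq_one hW)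

open Classical in
/-- Orthogonality for the `±1`-valued characters of an elementary abelian `2`-group. -/
theorem sum_signChar {W : Type*} [CommGroup W] [Finite W] [Fintype (W →* ℤˣ)]
    (hW : ∀ w : W, w ^ 2 = 1) (w : W) :
    ∑ l : W →* ℤˣ, (l w : ℤ) = if w = 1 then (Nat.card W : ℤ) else 0 := by
  have := hasEnoughRootsOfUnity_int hW
  split_ifs with h
  · simp [h, ← CommGroup.card_monoidHom_of_hasEnoughRootsOfUnity W ℤ]
  · obtain ⟨φ, hφ⟩ := CommGroup.exists_apply_ne_one_of_hasEnoughRootsOfUnity W ℤ h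
    exact sum_hom_units_eq_zero ((Units.coeHom ℤ).comp (MonoidHom.eval w)) fun h1 =>
      hφ (Units.ext (DFunLike.congr_fun h1 φ))

theorem normal_of_forall_sq_mem {G : Type*} [Group G] {L : Subgroup G} (h : ∀ x : G, x ^ 2 ∈ L) :
    L.Normal := ⟨fun l hl g => by
  have : g * l * g⁻¹ = (g * l) ^ 2 * l⁻¹ * g⁻¹ ^ 2 := by simp only [sq]; group
  exact this ▸ mul_mem (mul_mem (h _) (inv_mem hl)) (h _)⟩

theorem card_dvd_sum_hom {R : Type*} [Group R] [Fintype R] (f : R →* ℤ) :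
    (Nat.card R : ℤ) ∣ ∑ r : R, f r := by
  by_cases h : f = 1
  · simp [h]
  · simp [sum_hom_units_eq_zero f h]

section

variable {G W : Type*} [Group G] [CommGroup W] {q : G → W} {B : G → G → W}

/-- Gauss sum attached to a `±1`-valued quadratic function. -/
theorem card_mul_card_dvd_gauss_sq [Fintype G] {s : G → ℤˣ} {b : G → G → ℤˣ}
    (hq : ∀ x y, s (x * y) = s x * s y * b x y) (hl : ∀ x y z, b (x * y) z = b x z * b y z)
    (hr : ∀ x y z, b x (y * z) = b x y * b x z) {K : Subgroup G} (hK : ∀ k ∈ K, ∀ x, b k x = 1) :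
    (Nat.card G * Nat.card K : ℤ) ∣ (∑ x, (s x : ℤ)) ^ 2 := by
  classical
  let R : Subgroup G := ⨅ x, (MonoidHom.mk' (fun u => b u x) fun u v => hl u v x).ker
  have hR : ∀ u, u ∈ R ↔ ∀ x, b u x = 1 := fun u => by simp [R, mem_iInf]
  have h1 : ∀ u, ∑ x, (b u x : ℤ) = if u ∈ R then (Nat.card G : ℤ) else 0 := fun u => by
    split_ifs with h
    · simp [(hR u).mp h]
    · exact sum_hom_units_eq_zero ((Units.coeHom ℤ).comp (MonoidHom.mk' (b u) (hr u))) fun h1 =>
        h ((hR u).mpr fun x => Units.ext (DFunLike.congr_fun h1 x))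
  have h2 : (∑ x, (s x : ℤ)) ^ 2 = Nat.card G * ∑ u : R, (s u : ℤ) := by
    calc (∑ x, (s x : ℤ)) ^ 2 = ∑ x, ∑ u, (s x : ℤ) * s (u * x) := by
          rw [sq, Finset.sum_mul]
          exact Finset.sum_congr rfl fun x _ => by
            rw [← Finset.mul_sum, ← Equiv.sum_comp (Equiv.mulRight x) (fun u => (s u : ℤ))]; rfl
      _ = ∑ u, (s u : ℤ) * ∑ x, (b u x : ℤ) := by
          rw [Finset.sum_comm]
          refine Finset.sum_congr rfl fun u _ => ?_
          rw [Finset.mul_sum]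
          refine Finset.sum_congr rfl fun x _ => ?_
          rw [hq, ← Units.val_mul, ← Units.val_mul, mul_comm (s u), mul_assoc, ← mul_assoc,
            Int.units_mul_self, one_mul]
      _ = _ := by
          simp only [h1, mul_ite, mul_zero, ← Finset.sum_filter, ← Finset.sum_mul]
          rw [mul_comm, Finset.sum_subtype (p := (· ∈ R)) _ (by simp)]
  rw [h2]
  refine mul_dvd_mul_left _ (dvd_trans ?_ (card_dvd_sum_hom ((Units.coeHom ℤ).comp
    (MonoidHom.mk' (fun u : R => s u) fun u v => by rw [coe_mul, hq, (hR _).mp u.2, mul_one]))))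
  exact Int.natCast_dvd_natCast.mpr (card_dvd_of_le fun k hk => (hR k).mpr (hK k hk))

theorem index_le_sq_of_anisotropic [Finite G] [Finite W] (hG : IsPGroup 2 G)
    (hW : ∀ w : W, w ^ 2 = 1) (hq : ∀ x y, q (x * y) = q x * q y * B x y)
    (hl : ∀ x y z, B (x * y) z = B x z * B y z) (hr : ∀ x y z, B x (y * z) = B x y * B x z)
    {K : Subgroup G} (hKB : ∀ k ∈ K, ∀ x, B k x = 1) (hK : ∀ x, x ∈ K ↔ q x = 1) :
    K.index ≤ Nat.card W ^ 2 := by
  classical
  have : Fact (Nat.Prime 2) := ⟨Nat.prime_two⟩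
  have := Fintype.ofFinite G
  have : Finite (W →* ℤˣ) := Finite.of_injective _ DFunLike.coe_injective
  have := Fintype.ofFinite (W →* ℤˣ)
  obtain ⟨a, ha⟩ := IsPGroup.exists_card_eq hG
  obtain ⟨b, hb⟩ := IsPGroup.exists_card_eq (hG.to_subgroup K)
  have h1 : ∑ l : W →* ℤˣ, ∑ x, (l (q x) : ℤ) = Nat.card W * Nat.card K := by
    rw [Finset.sum_comm]
    simp only [sum_signChar hW, ← hK, ← Finset.sum_filter, Finset.sum_const, nsmul_eq_mul]
    rw [mul_comm, Nat.card_eq_fintype_card (α := K), Fintype.card_subtype]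
  have h2 : (2 : ℤ) ^ ((a + b + 1) / 2) ∣ Nat.card W * Nat.card K :=
    h1 ▸ Finset.dvd_sum fun l _ => two_pow_half_dvd_of_dvd_sq _ _ (by
      have := card_mul_card_dvd_gauss_sq (s := fun x => l (q x)) (b := fun x y => l (B x y))
        (fun x y => by rw [hq, map_mul, map_mul]) (fun x y z => by rw [hl, map_mul])
        (fun x y z => by rw [hr, map_mul]) (K := K) (fun k hk x => by rw [hKB k hk, map_one])
      rwa [ha, hb, Nat.cast_pow, Nat.cast_pow, ← pow_add] at this)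
  have h3 : 2 ^ ((a + b + 1) / 2) ≤ Nat.card W * Nat.card K :=
    Nat.le_of_dvd (Nat.mul_pos Nat.card_pos Nat.card_pos) (by exact_mod_cast h2)
  have h4 : K.index * Nat.card K ^ 2 ≤ Nat.card W ^ 2 * Nat.card K ^ 2 := by
    rw [← mul_pow, sq (Nat.card K), ← mul_assoc, index_mul_card, ha]
    refine le_trans ?_ (Nat.pow_le_pow_left h3 2)
    rw [hb, ← pow_add, ← pow_mul]
    exact Nat.pow_le_pow_right two_pos (by omega)
  exact Nat.le_of_mul_le_mul_right h4 (pow_pos Nat.card_pos 2)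

/-- A complement in an elementary abelian section `G / K` of a `2`-group. -/
theorem exists_complement_of_sq_mem [Finite G] {K N : Subgroup G} (hKN : K ≤ N)
    (hK : ∀ x : G, x ^ 2 ∈ K) : ∃ H : Subgroup G, H ⊓ N = K ∧ N ⊔ H = ⊤ := by
  obtain ⟨H, hH, hmax⟩ := exists_maximal_of_wellFoundedGT (fun H : Subgroup G => H ⊓ N = K)
    ⟨K, inf_eq_left.mpr hKN⟩
  have hKH : K ≤ H := hH ▸ inf_le_left
  have := normal_of_forall_sq_mem fun x => hKH (hK x)
  refine ⟨H, hH, eq_top_iff.mpr fun g _ => by_contra fun hg => hg (mem_sup_right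
    (hmax (y := H ⊔ zpowers g) (le_antisymm (fun x hx => ?_) (le_inf (hKH.trans le_sup_left) hKN))
      le_sup_left (mem_sup_right (mem_zpowers g))))⟩
  obtain ⟨h, hh, k, rfl⟩ := (mem_sup_zpowers_iff (le_normalizer_of_normal (mem_top g))).mp hx.1
  obtain ⟨j, rfl | rfl⟩ := Int.even_or_odd' k
  · exact hH ▸ ⟨mul_mem hh (by rw [zpow_mul, zpow_ofNat]; exact zpow_mem (hKH (hK g)) j), hx.2⟩
  · refine absurd ?_ hg
    have h1 : h * g ^ (2 * j) ∈ H :=
      mul_mem hh (by rw [zpow_mul, zpow_ofNat]; exact zpow_mem (hKH (hK g)) j)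
    have := mul_mem (inv_mem (mem_sup_right h1 : _ ∈ N ⊔ H)) (mem_sup_left hx.2)
    rwa [zpow_add_one, ← mul_assoc h, inv_mul_cancel_left] at this

/-- Chevalley–Warning bound for a quadratic map whose zeros form a subgroup `N`. -/
theorem index_le_sq_of_quadratic [Finite G] [Finite W] (hG : IsPGroup 2 G)
    (hW : ∀ w : W, w ^ 2 = 1) (hq : ∀ x y, q (x * y) = q x * q y * B x y)
    (hl : ∀ x y z, B (x * y) z = B x z * B y z) (hr : ∀ x y z, B x (y * z) = B x y * B x z)
    {K N : Subgroup G} (hKN : K ≤ N) (hK : ∀ x : G, x ^ 2 ∈ K) (hKB : ∀ k ∈ K, ∀ x, B k x = 1)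
    (hN : ∀ x, x ∈ N ↔ q x = 1) : N.index ≤ Nat.card W ^ 2 := by
  obtain ⟨H, h1, h2⟩ := exists_complement_of_sq_mem hKN hK
  have := normal_of_forall_sq_mem fun x => hKN (hK x)
  rw [← relIndex_top_right, ← h2, relIndex_sup_left]
  exact index_le_sq_of_anisotropic (q := fun x : H => q x) (B := fun x y : H => B x y)
    (hG.to_subgroup H) hW (fun x y => hq x y) (fun x y z => hl x y z) (fun x y z => hr x y z)
    (fun k hk x => hKB k (h1 ▸ ⟨k.2, hk⟩) x) fun x => hN x

end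

/-- Group form: `D ≤ W ≤ Z(G)`, `W / D` elementary abelian, the squares of `H` lie in `W` and the
elements of `H` whose squares lie in `D` form the subgroup `L ⊓ H`.  Then `|H : L ⊓ H| ≤ |W : D| ^ 2`. -/
theorem relIndex_le_relIndex_sq {G : Type*} [Group G] [Finite G] {H W D L : Subgroup G}
    (hH : IsPGroup 2 H) (hW : W ≤ center G) (hWD : ∀ w ∈ W, w ^ 2 ∈ D)
    (hHW : ∀ x ∈ H, x ^ 2 ∈ W) (hL : ∀ x ∈ H, x ∈ L ↔ x ^ 2 ∈ D) :
    L.relIndex H ≤ D.relIndex W ^ 2 := by
  have hc : ∀ w ∈ W, ∀ g, Commute g w := fun w hw g => mem_center_iff.mp (hW hw) g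
  let _ : CommGroup W := { mul_comm := fun a b => Subtype.ext (hc b b.2 a) }
  have hB : ∀ x y : H, ⁅(y : G), (x : G)⁆ ∈ W := fun x y => by
    have : ⁅(y : G), (x : G)⁆ = (y : G) ^ 2 * ((y : G)⁻¹ * x) ^ 2 * (x : G)⁻¹ ^ 2 := by
      simp only [commutatorElement_def, sq]; group
    exact this ▸ mul_mem (mul_mem (hHW _ y.2) (hHW _ (mul_mem (inv_mem y.2) x.2)))
      (hHW _ (inv_mem x.2))
  let π := QuotientGroup.mk' (D.subgroupOf W)
  refine index_le_sq_of_quadratic (W := W ⧸ D.subgroupOf W)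
    (q := fun x : H => π ⟨x ^ 2, hHW x x.2⟩) (B := fun x y : H => π ⟨_, hB x y⟩) hH
    (fun w => ?_) (fun x y => ?_) (fun x y z => ?_) (fun x y z => ?_) (K := W.subgroupOf H)
    (fun x hx => (hL x x.2).mpr (hWD x hx)) (fun x => hHW x x.2) (fun k hk x => ?_) fun x => ?_
  · obtain ⟨w, rfl⟩ := QuotientGroup.mk'_surjective _ w
    exact (QuotientGroup.eq_one_iff _).mpr (hWD w w.2)
  · rw [← map_mul, ← map_mul]
    refine congrArg π (Subtype.ext ?_)
    have := (hc _ (hB x y) ((x : G) * y)).eq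
    calc ((x : G) * y) ^ 2 = x * (⁅(y : G), (x : G)⁆ * (x * y)) * y := by
          simp only [commutatorElement_def, sq]; group
      _ = x * (x * y) * (⁅(y : G), (x : G)⁆ * y) := by rw [← this]; group
      _ = _ := by rw [← (hc _ (hB x y) y).eq]; simp only [sq, coe_mul, mul_assoc]
  · rw [← map_mul]
    refine congrArg π (Subtype.ext ?_)
    change ⁅(z : G), (x : G) * y⁆ = ⁅(z : G), (x : G)⁆ * ⁅(z : G), (y : G)⁆
    rw [commutatorElement_mul_right_eq_mul_conj, mul_assoc _ (x : G), (hc _ (hB y z) x).eq,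
      ← mul_assoc, mul_inv_cancel_right]
  · rw [← map_mul]
    refine congrArg π (Subtype.ext ?_)
    change ⁅(y : G) * z, (x : G)⁆ = ⁅(y : G), (x : G)⁆ * ⁅(z : G), (x : G)⁆
    rw [commutatorElement_mul_left_eq_conj_mul, (hc _ (hB x z) y).eq, mul_inv_cancel_right,
      (hc _ (hB x y) _).eq]
  · rw [← π.map_one]
    exact congrArg π (Subtype.ext (hc k hk x).commutator_eq)
  · exact (hL x x.2).trans 
      (QuotientGroup.eq_one_iff (N := D.subgroupOf W) (⟨x ^ 2, hHW x x.2⟩ : W)).symm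

end Cfsg.Lib.Solv.PG
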