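import Cfsg.Agent.Solv.HKK
import Cfsg.Agent.Solv.FrattiniRep
import Cfsg.Agent.Solv.DerivedLength
import Cfsg.Agent.Solv.PConstrained
import Cfsg.Agent.Solv.SectionAut

/-! Alperin's theorem: a solvable group with an automorphism of order `p` having `p ^ n` fixed
points has bounded derived length. -/

set_option autoImplicit false

namespace Cfsg.Lib.Solv.Lie

open Subgroup
open scoped commutatorElement

universe u

variable {G : Type u} [Group G]

/-- `α` has period `p` and at most `q` fixed points. -/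
def AF (p q : ℕ) (α : G →* G) : Prop := (∀ g, α^[p] g = g) ∧ Nat.card {g : G // α g = g} ≤ q

/-- The restriction of an endomorphism to an invariant subgroup. -/
def resEnd (α : G →* G) (H : Subgroup G) (h : ∀ g ∈ H, α g ∈ H) : H →* H :=
  (α.comp H.subtype).codRestrict H fun g => h g g.2

theorem coe_resEnd_iterate (α : G →* G) (H : Subgroup G) (h : ∀ g ∈ H, α g ∈ H) (k : ℕ) (g : H) :
    ((resEnd α H h)^[k] g : G) = α^[k] g :=
  Function.Semiconj.iterate_right (f := ((↑) : H → G)) (fun _ => rfl) k g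

theorem AF.surjective {p q : ℕ} [hp : Fact p.Prime] {α : G →* G} (h : AF p q α) :
    Function.Surjective α := fun g => by
  obtain ⟨k, hk⟩ := Nat.exists_eq_succ_of_ne_zero hp.out.ne_zero
  refine ⟨α^[k] g, ?_⟩
  have := h.1 g
  rwa [hk, Function.iterate_succ_apply'] at this

variable [Finite G]

theorem AF.sub {p q : ℕ} {α : G →* G} (h : AF p q α) (H : Subgroup G) (hH : ∀ g ∈ H, α g ∈ H) :
    AF p q (resEnd α H hH) := by
  refine ⟨fun g => Subtype.ext ((coe_resEnd_iterate α H hH p g).trans (h.1 g)), le_trans ?_ h.2⟩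
  exact Nat.card_le_card_of_injective
    (fun x => (⟨x.1, congrArg Subtype.val x.2⟩ : {g : G // α g = g}))
    fun x y hxy => Subtype.ext (Subtype.ext (Subtype.mk.inj hxy))

theorem card_fixed_quotient_le (α : G →* G) (N : Subgroup G) [N.Normal] (hN : ∀ g ∈ N, α g ∈ N) :
    Nat.card {x : G ⧸ N // QuotientGroup.map N N α hN x = x} ≤ Nat.card {g : G // α g = g} := by
  classical
  let X : Subgroup G := ((QuotientGroup.map N N α hN).eqLocus (MonoidHom.id _)).comap
    (QuotientGroup.mk' N)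
  have hX : ∀ x ∈ X, x⁻¹ * α x ∈ N := fun x hx => by
    have : (α x : G ⧸ N) = x := hx
    exact QuotientGroup.eq.1 this.symm
  have h1 : Nat.card X = Nat.card {x : G ⧸ N // QuotientGroup.map N N α hN x = x} * Nat.card N := by
    rw [card_comap_mk']
    rfl
  let f : X → N := fun x => ⟨x⁻¹ * α x, hX x x.2⟩
  let s : N → G := fun n => if h : ∃ x, f x = n then h.choose else 1
  have hs : ∀ x : X, (s (f x))⁻¹ * α (s (f x)) = (x : G)⁻¹ * α x := fun x => by
    have h : ∃ y, f y = f x := ⟨x, rfl⟩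
    simp only [s, dif_pos h]
    exact congrArg Subtype.val h.choose_spec
  have h2 : Nat.card X ≤ Nat.card ({g : G // α g = g} × N) := by
    refine Nat.card_le_card_of_injective
      (fun x => (⟨x * (s (f x))⁻¹, ?_⟩, f x)) fun x y hxy => ?_
    · rw [map_mul, map_inv, mul_inv_eq_iff_eq_mul, mul_assoc, hs x, mul_inv_cancel_left]
    · obtain ⟨h3, h4⟩ := Prod.mk.inj hxy
      have h5 := congrArg Subtype.val h3
      simp only [h4, mul_left_inj] at h5
      exact Subtype.ext h5
  rw [h1, Nat.card_prod] at h2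
  exact Nat.le_of_mul_le_mul_right h2 Nat.card_pos

theorem AF.quot {p q : ℕ} {α : G →* G} (h : AF p q α) (N : Subgroup G) [N.Normal]
    (hN : ∀ g ∈ N, α g ∈ N) : AF p q (QuotientGroup.map N N α hN) := by
  refine ⟨fun x => ?_, (card_fixed_quotient_le α N hN).trans h.2⟩
  obtain ⟨g, rfl⟩ := QuotientGroup.mk_surjective x
  rw [← Function.Semiconj.iterate_right (f := (QuotientGroup.mk : G → G ⧸ N)) (ga := α)
    (fun _ => rfl) p g, h.1]

theorem card_le_of_iterate_eq_zero {V : Type*} [AddCommGroup V] [Finite V] (β : V →+ V)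
    (m : ℕ) : ∀ U : AddSubgroup V, (∀ x ∈ U, β^[m] x = 0) → Nat.card U ≤ Nat.card β.ker ^ m := by
  induction m with
  | zero =>
    intro U h
    rw [(eq_bot_iff (a := U)).2 h]; simp
  | succ m ih =>
    intro U h
    let f := β.comp U.subtype
    have h1 : Nat.card f.ker ≤ Nat.card β.ker :=
      Nat.card_le_card_of_injective (fun x => ⟨x.1.1, x.2⟩)
        fun x y hxy => Subtype.ext (Subtype.ext (Subtype.mk.inj hxy))
    rw [← f.ker.index_mul_card, AddSubgroup.index_ker, pow_succ]
    refine Nat.mul_le_mul (ih _ ?_) h1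
    rintro _ ⟨x, rfl⟩
    exact h x x.2

theorem card_le_of_period {V : Type*} [AddCommGroup V] [Finite V] {p k : ℕ} (hp : p.Prime)
    (a : V →+ V) (ha : ∀ x, a^[p] x = x) (hk : ∀ x : V, p ^ k • x = 0) :
    Nat.card V ≤ Nat.card {x : V // a x = x} ^ (p * k) := by
  let b : Module.End ℤ V := a.toIntLinearMap
  have hb : b ^ p = 1 := LinearMap.ext fun x => (Module.End.pow_apply b p x).trans (ha x)
  obtain ⟨r, hr⟩ := (Commute.one_right (b - 1)).exists_add_pow_prime_eq hp
  rw [sub_add_cancel, hb, one_pow, mul_one, add_right_comm, right_eq_add,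
    add_eq_zero_iff_eq_neg, mul_assoc, neg_mul_eq_mul_neg] at hr
  have h1 : (b - 1) ^ (p * k) = 0 := by
    rw [pow_mul, hr, (Nat.cast_commute p _).mul_pow, ← Nat.cast_pow]
    exact LinearMap.ext fun x => hk _
  have h2 := card_le_of_iterate_eq_zero (b - 1).toAddMonoidHom (p * k) ⊤
    fun x _ => (Module.End.pow_apply (b - 1) _ x).symm.trans (by rw [h1]; rfl)
  rw [AddSubgroup.card_top] at h2
  refine h2.trans (Nat.pow_le_pow_left ?_ _)
  exact Nat.card_le_card_of_injective (fun x => ⟨x.1, sub_eq_zero.1 x.2⟩)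
    fun x y hxy => Subtype.ext (Subtype.mk.inj hxy)

open scoped IsMulCommutative in
theorem AF.card_le_of_comm {p q k : ℕ} [hp : Fact p.Prime] {α : G →* G} (h : AF p q α)
    [IsMulCommutative G] (hk : ∀ g : G, g ^ p ^ k = 1) : Nat.card G ≤ q ^ (p * k) :=
  (card_le_of_period (V := Additive G) hp.out (MonoidHom.toAdditive α) h.1 hk).trans
    (Nat.pow_le_pow_left h.2 _)

theorem AF.relIndex_le {p q k : ℕ} [Fact p.Prime] {α : G →* G} (h : AF p q α) {M N : Subgroup G}
    [M.Normal] (hM : ∀ g ∈ M, α g ∈ M) (hN : ∀ g ∈ N, α g ∈ N) (hc : ⁅N, N⁆ ≤ M)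
    (hk : ∀ g ∈ N, g ^ p ^ k ∈ M) : M.relIndex N ≤ q ^ (p * k) := by
  have := Coprime.isMulCommutative_section hc
  refine ((h.sub N hN).quot (M.subgroupOf N) fun g hg => hM g hg).card_le_of_comm fun x => ?_
  obtain ⟨g, rfl⟩ := QuotientGroup.mk_surjective x
  exact (QuotientGroup.eq_one_iff (g ^ p ^ k)).2 (hk g g.2)

theorem AF.pow_mem {p n : ℕ} [hp : Fact p.Prime] {α : G →* G} (h : AF p (p ^ n) α)
    (hG : IsPGroup p G) {N : Subgroup G} [N.Normal] (hN : ∀ g ∈ N, α g ∈ N) {g : G}
    (hg : g⁻¹ * α g ∈ N) : g ^ p ^ n ∈ N := by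
  let C := (QuotientGroup.map N N α hN).eqLocus (MonoidHom.id _)
  have h1 : (g : G ⧸ N) ∈ C := (QuotientGroup.eq.2 hg).symm
  obtain ⟨m, hm⟩ := IsPGroup.iff_card.1 ((hG.to_quotient N).to_subgroup C)
  have h2 : p ^ m ≤ p ^ n := hm ▸ (h.quot N hN).2
  rw [← QuotientGroup.eq_one_iff, QuotientGroup.mk_pow, ← orderOf_dvd_iff_pow_eq_one]
  exact (hm ▸ C.orderOf_dvd_natCard h1).trans
    (pow_dvd_pow p ((Nat.pow_le_pow_iff_right hp.out.one_lt).1 h2))

omit [Finite G] in
theorem le_of_le_commutator_sup [Group.IsNilpotent G] {M N : Subgroup G} [M.Normal]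
    (h : N ≤ ⁅N, ⊤⁆ ⊔ M) : N ≤ M := by
  obtain ⟨c, hc⟩ := (isNilpotent_iff_lowerCentralSeries (⊤ : Subgroup G)).1 inferInstance
  have key : ∀ j, N ≤ (⊤ : Subgroup G).lowerCentralSeries j ⊔ M := fun j => by
    induction j with
    | zero => exact le_top.trans le_sup_left
    | succ j ih =>
      refine h.trans (sup_le ((commutator_mono ih le_rfl).trans ?_) le_sup_right)
      exact commutator_sup_left_le le_sup_left ((commutator_le_left _ _).trans le_sup_right)
  simpa [hc] using key c

omit [Finite G] in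
theorem iterate_commutator_le {N : Subgroup G} [N.Normal] (j : ℕ) :
    ((fun K : Subgroup G => ⁅K, (⊤ : Subgroup G)⁆)^[j] N).Normal ∧
      (fun K : Subgroup G => ⁅K, (⊤ : Subgroup G)⁆)^[j] N ≤ N := by
  induction j with
  | zero => exact ⟨‹_›, le_rfl⟩
  | succ j ih =>
    have := ih.1
    rw [Function.iterate_succ_apply']
    exact ⟨inferInstance, (commutator_le_left _ _).trans ih.2⟩

theorem iterate_commutator_le_of_relIndex [Group.IsNilpotent G] {M : Subgroup G} [M.Normal]
    (r : ℕ) : ∀ (N : Subgroup G) [N.Normal], M.relIndex N ≤ r + 1 →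
      (fun K : Subgroup G => ⁅K, (⊤ : Subgroup G)⁆)^[r] N ≤ M := by
  induction r with
  | zero =>
    intro N _ h
    exact relIndex_eq_one.1 (le_antisymm h (Nat.pos_of_ne_zero FiniteIndex.index_ne_zero))
  | succ r ih =>
    intro N _ h
    by_cases h1 : N ≤ M
    · exact (iterate_commutator_le _).2.trans h1
    rw [Function.iterate_succ_apply]
    refine ih _ (Nat.le_of_lt_succ (lt_of_lt_of_le ?_ h))
    have h2 : ⁅N, ⊤⁆ ⊔ M < N ⊔ M :=
      lt_of_le_of_ne (sup_le_sup_right (commutator_le_left _ _) _)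
        fun h3 => h1 (le_of_le_commutator_sup (h3 ▸ le_sup_left))
    rw [← relIndex_sup_right N, ← relIndex_sup_right ⁅N, ⊤⁆,
      ← relIndex_mul_relIndex M _ _ le_sup_right h2.le]
    refine lt_mul_of_one_lt_right (Nat.pos_of_ne_zero FiniteIndex.index_ne_zero) ?_
    exact lt_of_le_of_ne (Nat.pos_of_ne_zero FiniteIndex.index_ne_zero)
      fun h3 => h2.not_ge (relIndex_eq_one.1 h3.symm)

theorem AF.derivedSeries_of_isPGroup {p n : ℕ} [hp : Fact p.Prime] {α : G →* G}
    (h : AF p (p ^ n) α) (hG : IsPGroup p G) :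
    derivedSeries G ((p ^ n) ^ (p * (n + (hkk p + 1))) + (hkk p + 1)) = ⊥ := by
  have := hG.isNilpotent
  set f := (p ^ n) ^ (p * (n + (hkk p + 1)))
  let H := (⊤ : Subgroup G).lowerCentralSeries f
  have hH : ∀ g ∈ H, α g ∈ H := map_mem_lcsSer α f
  have hmap : ∀ i, H.lowerCentralSeries i =
      ((⊤ : Subgroup H).lowerCentralSeries i).map H.subtype := fun i => by
    rw [map_lowerCentralSeries, ← MonoidHom.range_eq_map, range_subtype]
  have hinv : ∀ i, ∀ g ∈ H.lowerCentralSeries i, α g ∈ H.lowerCentralSeries i := fun i => by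
    rw [hmap]
    rintro _ ⟨g, hg, rfl⟩
    exact ⟨_, map_mem_lcsSer (resEnd α H hH) i g hg, rfl⟩
  have h1 : (H.lowerCentralSeries (hkk p + 1)).relIndex (H.lowerCentralSeries (hkk p)) ≤ f := by
    refine h.relIndex_le (hinv _) (hinv _) (commutator_mono le_rfl (lowerCentralSeries_le_self _ _))
      ?_
    rw [hmap, hmap]
    rintro _ ⟨g, hg, rfl⟩
    refine ⟨g ^ p ^ (n + (hkk p + 1)), ?_, rfl⟩
    rw [pow_add]
    exact pow_mem_lowerCentralSeries (gradedBound_hkk p) _ (h.sub H hH).1 (fun i x _ hx =>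
      (h.sub H hH).pow_mem (hG.to_subgroup H) (map_mem_lcsSer _ (i + 1)) hx) le_rfl hg
  let c := fun j => (fun K : Subgroup G => ⁅K, (⊤ : Subgroup G)⁆)^[j] (H.lowerCentralSeries (hkk p))
  have hc : ∀ j, (c j).Normal := fun j => (iterate_commutator_le j).1
  have h2 : c f ≤ H.lowerCentralSeries (hkk p + 1) :=
    iterate_commutator_le_of_relIndex f _ (h1.trans (Nat.le_succ _))
  have h3 : H.lowerCentralSeries (hkk p + 1) ≤ ⁅c f, ⊤⁆ := by
    have := commutator_lowerCentralSeries_le_of_chain c ⊤ (fun _ _ => le_normalizer_of_normal)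
      (fun _ => le_normalizer_of_normal)
      (fun i => (Function.iterate_succ_apply' (fun K : Subgroup G => ⁅K, (⊤ : Subgroup G)⁆) i _).ge)
      0 f
    rwa [zero_add, show c (f + 1) = ⁅c f, ⊤⁆ from Function.iterate_succ_apply' _ f _] at this
  have h4 : c f = ⊥ := eq_bot_of_le_commutator_of_isNilpotent (N := ⊤) inferInstance le_top
    (h2.trans h3)
  rw [h4, commutator_bot_left, hmap, le_bot_iff, map_eq_bot_iff_of_injective _ H.subtype_injective]
    at h3
  refine derivedSeries_eq_bot_of_extension H ?_ ?_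
  · exact (derivedSeries_quotient_eq_bot_iff H).2 (Subgroup.derived_le_lower_central f)
  · exact le_bot_iff.1 ((Subgroup.derived_le_lower_central _).trans h3.le)

theorem derivedSeries_eq_bot_of_card_le [Group.IsSolvable G] {m : ℕ} (h : Nat.card G ≤ m) :
    derivedSeries G m = ⊥ := by
  have key : ∀ j, derivedSeries G j = ⊥ ∨ Nat.card (derivedSeries G j) + j ≤ Nat.card G :=
    fun j => by
      induction j with
      | zero => right; simp
      | succ j ih =>
        by_cases h1 : derivedSeries G j = ⊥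
        · exact Or.inl (derivedSeries_eq_bot_mono (Nat.le_succ j) h1)
        · have h2 := Group.IsSolvable.commutator_lt_of_ne_bot h1
          have h3 := card_lt_of_lt h2
          have h4 := ih.resolve_left h1
          rw [derivedSeries_succ]
          omega
  refine (key m).resolve_right fun h1 => ?_
  have : 0 < Nat.card (derivedSeries G m) := Nat.card_pos
  omega

theorem card_mulAut_le (G : Type u) [Group G] [Finite G] :
    Nat.card (MulAut G) ≤ (Nat.card G).factorial := by
  rw [← Nat.card_perm]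
  exact Nat.card_le_card_of_injective _ MulEquiv.toEquiv_injective

theorem AF.derivedSeries_of_centralizer_le {p n : ℕ} [hp : Fact p.Prime] {α : G →* G}
    (h : AF p (p ^ n) α) [Group.IsSolvable G]
    (hC : centralizer (pCore p G : Set G) ≤ pCore p G) :
    derivedSeries G (((p ^ n) ^ (p * 1)).factorial +
      ((p ^ n) ^ (p * (n + (hkk p + 1))) + (hkk p + 1))) = ⊥ := by
  have hP := pCore_isPGroup p G
  have h1 := h.sub (pCore p G) fun g hg => map_pCore_le α h.surjective ⟨g, hg, rfl⟩
  refine derivedSeries_eq_bot_of_extension (pCore p G) ?_ (h1.derivedSeries_of_isPGroup hP)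
  have := elemAb_quotient_frattini hP
  have := ElemAb.isMulCommutative p (pCore p G ⧸ frattini (pCore p G))
  have h2 : Nat.card (pCore p G ⧸ frattini (pCore p G)) ≤ (p ^ n) ^ (p * 1) := by
    refine (h1.quot _ fun g hg => map_frattini_le_of_isPGroup hP hP _ ⟨g, hg, rfl⟩).card_le_of_comm
      fun x => ?_
    obtain ⟨g, rfl⟩ := QuotientGroup.mk_surjective x
    rw [pow_one]
    exact (QuotientGroup.eq_one_iff (g ^ p)).2 (pow_mem_frattini hP g)
  let φ := Coprime.quotAut (MulAut.conjNormal (H := pCore p G)) (frattini (pCore p G))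
    fun a x hx => map_frattini_le_of_isPGroup hP hP (MulAut.conjNormal a).toMonoidHom
      ⟨x, hx, rfl⟩
  have h3 : φ.ker ≤ pCore p G := fun g hg =>
    (mem_pCore_iff_commutator_mem_frattini hC).2 fun a ha =>
      ⟨_, (Coprime.mem_ker_quotAut _ _ _ g).1 hg ⟨a, ha⟩, rfl⟩
  refine derivedSeries_eq_bot_of_card_le ?_
  calc Nat.card (G ⧸ pCore p G) ≤ φ.ker.index := index_antitone h3
    _ ≤ _ := by rw [index_ker]; exact card_le_card_group _
    _ ≤ _ := card_mulAut_le _
    _ ≤ _ := Nat.factorial_le h2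

/-- Alperin's theorem. -/
theorem alperin {p n : ℕ} [hp : Fact p.Prime] [Group.IsSolvable G] {α : MulAut G} (hα : α ^ p = 1)
    (hn : Nat.card {g : G // α g = g} = p ^ n) :
    derivedSeries G (((p ^ n) ^ (p * 1)).factorial +
      ((p ^ n) ^ (p * (n + (hkk p + 1))) + (hkk p + 1)) + hkk p) = ⊥ := by
  have h : AF p (p ^ n) (α : G →* G) := ⟨iterate_eq_of_pow_eq_one hα, hn.le⟩
  have hK : ∀ g ∈ pPrimeCore p G, α g ∈ pPrimeCore p G :=
    fun g hg => map_pPrimeCore_le (α : G →* G) α.surjective ⟨g, hg, rfl⟩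
  refine derivedSeries_eq_bot_of_extension (pPrimeCore p G)
    ((h.quot _ hK).derivedSeries_of_centralizer_le
      (isPConstrained_iff_quotient.1 (isPConstrained_of_isSolvable p G))) ?_
  let β : MulAut (pPrimeCore p G) := MulAut.characteristic (pPrimeCore p G) α
  refine le_bot_iff.1 ((Subgroup.derived_le_lower_central _).trans
    (lowerCentralSeries_eq_bot_of_fpf (gradedBound_hkk p) (α := β) ?_ fun g hg => ?_).le)
  · rw [← map_pow, hα, map_one]
  · let C := (α : G →* G).eqLocus (MonoidHom.id G)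
    have h1 : (g : G) ∈ C := congrArg Subtype.val hg
    have h2 : orderOf (g : G) ∣ p ^ n := hn ▸ C.orderOf_dvd_natCard h1
    exact Subtype.ext (orderOf_eq_one_iff.1 (Nat.eq_one_of_dvd_coprimes
      ((coprime_card_pPrimeCore p G).pow_right n) (Subgroup.orderOf_dvd_natCard _ g.2) h2))

end Cfsg.Lib.Solv.Lie
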