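import Cfsg.Agent.Solv.CoprimeBasic
import Cfsg.Agent.Solv.MinNormal
import Cfsg.Agent.Trans.Involves

/-! # A criterion for a section isomorphic to `S₄` -/

set_option autoImplicit false

open scoped commutatorElement

namespace Cfsg.Lib.Solv

/-- If `D` normalises a subgroup `W` of order four, `W ∩ D = 1` and some commutator of order three
in `D` does not centralise `W`, then `S₄` is involved. -/
theorem involves_perm_four {G : Type*} [Group G] [Finite G] {W D : Subgroup G}
    (hW : Nat.card W = 4) (hD : D ≤ Subgroup.normalizer (W : Set G)) (hWD : W ⊓ D = ⊥) {n : G}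
    (hn : n ∈ ⁅D, D⁆) (hn3 : n ^ 3 = 1) (hnW : n ∉ Subgroup.centralizer (W : Set G)) :
    Involves (Equiv.Perm (Fin 4)) G := by
  set X := W ⊔ D with hX
  set D' := D.subgroupOf X with hD'
  have hcD : Nat.card D' = Nat.card D := Coprime.card_subgroupOf le_sup_right
  have hidx : D'.index = 4 := by
    have h1 := D'.index_mul_card
    rw [Coprime.card_sup hD (disjoint_iff.2 hWD), hcD, hW] at h1
    exact Nat.eq_of_mul_eq_mul_right Nat.card_pos h1
  let f := MulAction.toPermHom X (X ⧸ D')
  have hker : f.ker = D'.normalCore := (Subgroup.normalCore_eq_ker D').symm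
  have hcP : Nat.card (Equiv.Perm (X ⧸ D')) = 24 := by
    rw [Nat.card_perm, ← Subgroup.index_eq_card, hidx]; rfl
  have hnD : n ∈ D := Subgroup.commutator_le_self D hn
  have hnk : (⟨n, Subgroup.mem_sup_right hnD⟩ : X) ∉ f.ker := by
    intro h
    apply hnW
    intro w hw
    have hWn := Coprime.normal_subgroupOf_sup hD
    have h1 : ⁅(⟨n, Subgroup.mem_sup_right hnD⟩ : X), ⟨w, Subgroup.mem_sup_left hw⟩⁆ ∈
        f.ker ⊓ W.subgroupOf X :=
      Subgroup.commutator_le_inf _ _ (Subgroup.commutator_mem_commutator h hw)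
    have h2 : ⁅n, w⁆ ∈ W ⊓ D := ⟨h1.2, (hker ▸ D'.normalCore_le) h1.1⟩
    rw [hWD, Subgroup.mem_bot, commutatorElement_eq_one_iff_mul_comm] at h2
    exact h2.symm
  have hrel : f.ker.relIndex D' * 4 = Nat.card f.range := by
    rw [← hidx, Subgroup.relIndex_mul_index (hker ▸ D'.normalCore_le), Subgroup.index_ker]
  let g : D →* Equiv.Perm (X ⧸ D') := f.comp (Subgroup.inclusion le_sup_right)
  have hg : Nat.card g.range = f.ker.relIndex D' := by
    rw [Subgroup.relIndex_ker]
    congr 2
    ext y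
    constructor
    · rintro ⟨d, rfl⟩
      exact ⟨_, d.2, rfl⟩
    · rintro ⟨d, hd, rfl⟩
      exact ⟨⟨d, hd⟩, rfl⟩
  have hgn : g ⟨n, hnD⟩ ≠ 1 := hnk
  have h3 : 3 ∣ Nat.card g.range := by
    have : Fact (Nat.Prime 3) := ⟨Nat.prime_three⟩
    rw [← orderOf_eq_prime (x := g ⟨n, hnD⟩) (p := 3)
      (by rw [← map_pow, show (⟨n, hnD⟩ : D) ^ 3 = 1 from Subtype.ext hn3, map_one]) hgn]
    exact g.range.orderOf_dvd_natCard ⟨_, rfl⟩
  have hne : Nat.card g.range ≠ 3 := by
    intro h
    have : Fact (Nat.Prime 3) := ⟨Nat.prime_three⟩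
    have hc := (isCyclic_of_prime_card h).isMulCommutative
    have h1 : commutator D ≤ g.rangeRestrict.ker := by
      rw [commutator_def, Subgroup.commutator_le]
      intro a _ b _
      rw [MonoidHom.mem_ker, map_commutatorElement, commutatorElement_eq_one_iff_mul_comm,
        mul_comm']
    rw [MonoidHom.ker_rangeRestrict] at h1
    rw [← Subgroup.map_subtype_commutator] at hn
    obtain ⟨m, hm, rfl⟩ := hn
    exact hgn (h1 hm)
  have h24 : Nat.card f.range ∣ 24 := hcP ▸ Subgroup.card_subgroup_dvd_card _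
  have htop : f.range = ⊤ := by
    apply Subgroup.eq_top_of_le_card
    rw [hcP, ← hrel, ← hg]
    rw [← hrel, ← hg] at h24
    obtain ⟨c, hc⟩ := h3
    have := Nat.le_of_dvd (by norm_num) h24
    have : 0 < Nat.card g.range := Nat.card_pos
    omega
  have e : (X ⧸ D') ≃ Fin 4 := Finite.equivFinOfCardEq hidx
  exact Trans.involves_iff_exists_surjective.2 ⟨X, e.permCongrHom.toMonoidHom.comp f,
    e.permCongrHom.surjective.comp (MonoidHom.range_eq_top.1 htop)⟩

end Cfsg.Lib.Solv
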