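import Cfsg.Agent.Solv.HallHigmanA
import Cfsg.Agent.Solv.PReduce
import Cfsg.Agent.Solv.PGroupNormal
import Cfsg.Agent.Solv.DerivedLength

/-!
# Hall–Higman: `p`-length and the derived length of a Sylow `p`-subgroup (`p` odd)
-/

set_option autoImplicit false

open Module
open scoped commutatorElement

namespace Cfsg.Lib.Solv.HH

universe u

section Linear

variable {K V : Type*} [Field K] [AddCommGroup V] [Module K V]

theorem coeff_eq_zero_of_nilpotent {T : End K V} {w : V}
    {m : ℕ} (h0 : (T ^ m) w ≠ 0) (h1 : (T ^ (m + 1)) w = 0) {n j : ℕ} {c : Fin n → K}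
    (h : ∑ i, c i • (T ^ (j + i)) w = 0) : ∀ (k : ℕ) (i : Fin n), (i : ℕ) = k → j + i ≤ m →
      c i = 0 := by
  intro k
  induction k using Nat.strong_induction_on with
  | _ k ih =>
    intro i hi hm
    have := congrArg (T ^ (m - (j + i))) h
    rw [map_sum, map_zero, Finset.sum_eq_single i] at this
    · rw [map_smul, ← End.mul_apply, ← pow_add, Nat.sub_add_cancel hm] at this
      exact (smul_eq_zero.1 this).resolve_right h0
    · intro l _ hl
      rcases lt_or_gt_of_ne hl with hlt | hlt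
      · rw [ih l (hi ▸ hlt) l rfl (by have : (l : ℕ) < i := hlt; omega), zero_smul, map_zero]
      · have : (i : ℕ) < l := hlt
        rw [map_smul, ← End.mul_apply, ← pow_add,
          show m - (j + i) + (j + l) = (l - i - 1) + (m + 1) by omega, pow_add, End.mul_apply, h1,
          map_zero, smul_zero]
    · intro h
      exact absurd (Finset.mem_univ i) h

theorem linearIndependent_pow_of_nilpotent {T : End K V} {w : V} {m : ℕ} (h0 : (T ^ m) w ≠ 0)
    (h1 : (T ^ (m + 1)) w = 0) : LinearIndependent K fun i : Fin (m + 1) => (T ^ (i : ℕ)) w :=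
  Fintype.linearIndependent_iff.2 fun _ hc i =>
    coeff_eq_zero_of_nilpotent h0 h1 (j := 0) (by simpa only [zero_add] using hc) i i rfl
      (by have := i.2; omega)

/-- The centraliser of a regular nilpotent endomorphism consists of polynomials in it. -/
theorem exists_eq_sum_of_commute [FiniteDimensional K V] {T : End K V} {m : ℕ} (h0 : T ^ m ≠ 0)
    (h1 : T ^ (m + 1) = 0) (hd : finrank K V = m + 1) {f : End K V} (hf : Commute f T) :
    ∃ c : Fin (m + 1) → K, f = ∑ i, c i • T ^ (i : ℕ) := by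
  obtain ⟨w, hw⟩ : ∃ w, (T ^ m) w ≠ 0 := by
    by_contra! h'
    exact h0 (LinearMap.ext h')
  let b := basisOfLinearIndependentOfCardEqFinrank
    (linearIndependent_pow_of_nilpotent hw (by rw [h1]; rfl)) (by simp [hd])
  have hb : ∀ i, b i = (T ^ (i : ℕ)) w := fun i => by simp [b]
  refine ⟨b.repr (f w), b.ext fun j => ?_⟩
  rw [hb, ← End.mul_apply, (hf.pow_right _).eq, End.mul_apply]
  conv_lhs => rw [← b.sum_repr (f w)]
  simp only [map_sum, map_smul, LinearMap.sum_apply, LinearMap.smul_apply, hb, ← End.mul_apply,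
    ← pow_add, add_comm]

theorem commute_of_commute_regular [FiniteDimensional K V] {T : End K V} {m : ℕ} (h0 : T ^ m ≠ 0)
    (h1 : T ^ (m + 1) = 0) (hd : finrank K V = m + 1) {f g : End K V} (hf : Commute f T)
    (hg : Commute g T) : Commute f g := by
  obtain ⟨c, rfl⟩ := exists_eq_sum_of_commute h0 h1 hd hg
  exact Commute.sum_right _ _ _ fun i _ => (hf.pow_right _).smul_right _

end Linear

section Rep

variable {K : Type*} [Field K] {Q : Type*} [Group Q]
variable {W V : Type*} [AddCommGroup W] [Module K W] [AddCommGroup V] [Module K V]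

/-- Two intertwiners for commuting automorphisms commute if one of them is unipotent. -/
theorem commute_of_intertwiners [IsAlgClosed K] [FiniteDimensional K W] (p : ℕ) [hp : Fact p.Prime]
    [CharP K p] {σ : Q →* End K W} (hσ : Irr σ) {α β : MulAut Q} (hαβ : α * β = β * α)
    {u : End K W} (hu : ∀ g, u * σ g = σ (α g) * u) {n : ℕ} (hun : u ^ p ^ n = 1)
    {v : (End K W)ˣ} (hv : ∀ g, v * σ g = σ (β g) * v) : Commute (v : End K W) u := by
  have hN := pow_pos hp.out.pos n
  have hu' : u ^ (p ^ n - 1) * u = 1 := by rw [← pow_succ, Nat.sub_add_cancel hN, hun]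
  have hu'' : u * u ^ (p ^ n - 1) = 1 := by rw [← pow_succ', Nat.sub_add_cancel hN, hun]
  obtain ⟨c, hc⟩ := hσ.exists_scalar (f := u ^ (p ^ n - 1) * (v⁻¹ : (End K W)ˣ) * u * v)
    fun g => by
      have h1 : u * v * σ g = σ (β (α g)) * (u * v) := by
        rw [mul_assoc, hv, ← mul_assoc, hu, mul_assoc, ← MulAut.mul_apply, hαβ, MulAut.mul_apply]
      have h2 : (v⁻¹ : (End K W)ˣ) * σ (β (α g)) = σ (α g) * (v⁻¹ : (End K W)ˣ) := by
        rw [Units.inv_mul_eq_iff_eq_mul, ← mul_assoc, hv, Units.mul_inv_cancel_right]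
      have h3 : u ^ (p ^ n - 1) * σ (α g) = σ g * u ^ (p ^ n - 1) := by
        rw [← mul_one (σ (α g)), ← hu'', ← mul_assoc (σ _), ← hu, ← mul_assoc, ← mul_assoc, hu',
          one_mul]
      rw [mul_assoc (_ * _) u, mul_assoc, h1, ← mul_assoc, mul_assoc (u ^ _), h2,
        ← mul_assoc (u ^ _), h3]
      simp only [mul_assoc]
  have h4 : (v⁻¹ : (End K W)ˣ) * u * v = c • u := by
    rw [← mul_one u, ← mul_smul_comm, ← hc]
    simp only [← mul_assoc, hu'', one_mul, mul_one]
  rcases subsingleton_or_nontrivial W with h | h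
  · exact Subsingleton.elim _ _
  have h5 : c ^ p ^ n = 1 := by
    have := congrArg (· ^ p ^ n) h4
    simp only [Units.conj_pow', hun, smul_pow, mul_one, Units.inv_mul] at this
    exact (smul_left_injective K (one_ne_zero (α := End K W)) ((one_smul K _).trans this)).symm
  have h6 : c = 1 := by
    rwa [← sub_eq_zero, ← one_pow (p ^ n), ← sub_pow_char_pow, pow_eq_zero_iff hN.ne',
      sub_eq_zero] at h5
  rw [h6, one_smul, mul_assoc, Units.inv_mul_eq_iff_eq_mul] at h4
  exact h4.symm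

theorem proj_sub_one_sq [FiniteDimensional K W] {σ : Q →* End K W} (hσ : Irr σ)
    {τ : Q →* End K V} {h : W →ₗ[K] V} (hh : ∀ g w, h (σ g w) = τ g (h w)) {π : V →ₗ[K] W}
    (hπ1 : ∀ w, π (h w) = w) (hπ : ∀ g v, π (τ g v) = σ g (π v)) {β : MulAut Q}
    (hβ : β ∉ inertia σ) (hodd : Odd (orderOf β)) {x : End K V}
    (hx : ∀ g, x * τ g = τ (β g) * x) (w : W) :
    π (((x - 1) ^ 2 : End K V) (h w)) = w := by
  have hβ2 : β ^ 2 ∉ inertia σ := fun h2 => hβ (Subgroup.zpowers_le.2 h2
    (mem_zpowers_pow_iff.2 hodd.coprime_two_left))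
  have h1 := proj_eq_zero_of_not_mem_inertia hσ hh hπ hβ hx w
  have h2 := proj_eq_zero_of_not_mem_inertia hσ hh hπ hβ2 (pow_mul_rep hx 2) w
  rw [show (x - 1) ^ 2 = x ^ 2 - x - x + 1 by noncomm_ring]
  simp [h1, h2, hπ1]

/-- The representation-theoretic core of the bound by the derived length. -/
theorem false_of_quadratic [IsAlgClosed K] [FiniteDimensional K V] [Finite Q] (p : ℕ)
    [hp : Fact p.Prime] [CharP K p] (hp2 : p ≠ 2) (hQ : (Nat.card Q : K) ≠ 0) {τ : Q →* End K V}
    (hτ : ∃ g, τ g ≠ 1) {B : Type*} [Group B] (hB : IsPGroup p B) (α : B →* MulAut Q)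
    (ρ : B →* End K V) (hρ : ∀ b g, ρ b * τ g = τ (α b g) * ρ b) {z : B} (hz : z ∈ commutator B)
    (hzZ : z ∈ Subgroup.center B) (hzp : z ^ p = 1)
    (hC : ∀ g, α z g = g → g ∈ Subgroup.center Q)
    (hgen : ∀ M : Subgroup Q, (∀ g, α z g * g⁻¹ ∈ M) → M = ⊤) (h2 : (ρ z - 1) ^ 2 = 0)
    (h3 : ∀ b, (ρ z - 1) * (ρ b - 1) ^ 2 = 0) : False := by
  obtain ⟨U, hU, hU0, hσ, g₀, hg₀⟩ := exists_irr_nontrivial hQ τ hτ
  have : Nontrivial U := Submodule.nontrivial_iff_ne_bot.2 hU0
  set σ := res τ U hU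
  have hodd : ∀ b, Odd (orderOf (α b)) := fun b => by
    obtain ⟨k, hk⟩ := hB b
    exact Odd.of_dvd_nat (hp.out.odd_of_ne_two hp2).pow
      (orderOf_dvd_of_pow_eq_one (by rw [← map_pow, hk, map_one]))
  have hzI : α z ∈ inertia σ := by
    by_contra hne
    obtain ⟨π, hπ1, hπ2⟩ := exists_leftInverse hQ σ τ U.injective_subtype fun _ _ => rfl
    obtain ⟨w, hw⟩ := exists_ne (0 : U)
    have := proj_sub_one_sq hσ (fun _ _ => rfl) hπ1 hπ2 hne (hodd z) (hρ z) w
    rw [h2, LinearMap.zero_apply, map_zero] at this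
    exact hw this.symm
  obtain ⟨h, u, hinj, hh, hxu, hu⟩ := exists_stable_copy hσ (h₀ := U.subtype) (τ := τ)
    (fun h => hU0 (by rw [← U.range_subtype, h, LinearMap.range_zero])) (fun _ _ => rfl) hzI (hρ z)
  have htriv : ¬ ∀ g, σ (α z g) = σ g := fun h1 => by
    have h2 := hgen σ.ker fun g => by
      rw [MonoidHom.mem_ker, map_mul, h1, ← map_mul, mul_inv_cancel, map_one]
    exact hg₀ (h2 ▸ Subgroup.mem_top g₀ : g₀ ∈ σ.ker)
  have hu1 : u ≠ 1 := by
    rintro rfl
    exact htriv fun g => by simpa using (hu g).symm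
  have hu2 : (u - 1) ^ 2 = 0 := by
    ext w
    apply congrArg Subtype.val
    apply hinj
    rw [← sub_one_pow_apply_of_comm hxu, h2, LinearMap.zero_apply, LinearMap.zero_apply, map_zero]
  have hup : u ^ p ^ 1 = 1 := by
    ext w
    apply congrArg Subtype.val
    apply hinj
    rw [← pow_apply_of_comm hxu, ← map_pow, pow_one, hzp, map_one]
    rfl
  have hall : ∀ b, α b ∈ inertia σ := by
    intro b
    by_contra hne
    obtain ⟨π, hπ1, hπ2⟩ := exists_leftInverse hQ σ τ hinj hh
    apply sub_ne_zero.2 hu1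
    ext w
    apply congrArg Subtype.val
    have hc : Commute (ρ z - 1) ((ρ b - 1) ^ 2) := by
      have : Commute (ρ z) (ρ b) := (Commute.symm (Subgroup.mem_center_iff.1 hzZ b)).map ρ
      exact ((this.sub_right (Commute.one_right _)).sub_left (Commute.one_left _)).pow_right 2
    have h4 := LinearMap.congr_fun (hc.eq.symm.trans (h3 b)) (h w)
    have h5 := sub_one_pow_apply_of_comm hxu 1 w
    rw [pow_one, pow_one] at h5
    rw [End.mul_apply, h5] at h4
    rw [← proj_sub_one_sq hσ hh hπ1 hπ2 hne (hodd b) (hρ b) ((u - 1) w), h4]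
    simp
  have hp3 := hp.out.two_le
  have hαz : α z ^ p ^ (0 + 1) = 1 := by rw [← map_pow, zero_add, pow_one, hzp, map_one]
  obtain ⟨-, hd⟩ := critical p hQ hσ hu hαz hup (fun g => by
    rw [or_iff_not_imp_right]
    intro hg
    push Not at hg
    obtain ⟨i, hi0, hi, hg⟩ := hg
    have hZ := hC g (by
      simpa using pow_apply_eq_of_pow_apply_eq (a := 0) hαz (by omega) hi0 hi (by simpa using hg))
    exact hσ.exists_scalar fun k => by
      rw [← map_mul, ← map_mul, Subgroup.mem_center_iff.1 hZ k]) hu1 hu2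
    (by rw [zero_add, pow_one]; omega)
  choose v hv using hall
  have hvu : ∀ b, Commute (v b : End K U) (u - 1) := fun b =>
    (commute_of_intertwiners p hσ (by
      rw [← map_mul, ← map_mul, Subgroup.mem_center_iff.1 hzZ b]) hu hup (hv b)).sub_right
      (Commute.one_right _)
  have hvv : ∀ a b, Commute (v a : End K U) (v b) := fun a b =>
    commute_of_commute_regular (m := 1) (by rw [pow_one]; exact sub_ne_zero.2 hu1) hu2 hd
      (hvu a) (hvu b)
  let T : Subgroup B :=
    { carrier := {b | ∀ g, σ (α b g) = σ g}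
      one_mem' := fun g => by simp
      mul_mem' := fun ha hb g => by rw [map_mul, MulAut.mul_apply, ha, hb]
      inv_mem' := fun {a} ha g => by rw [← ha, map_inv, MulAut.apply_inv_self] }
  have hT : commutator B ≤ T := by
    rw [commutator_def, Subgroup.commutator_le]
    intro a _ b _ g
    have h1 : ∀ a b g, (v a * v b : (End K U)ˣ) * σ g = σ (α (a * b) g) * (v a * v b :) := by
      intro a b g
      rw [Units.val_mul, mul_assoc, hv, ← mul_assoc, hv, mul_assoc, map_mul α, MulAut.mul_apply]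
    obtain ⟨g, rfl⟩ := (α (b * a)).surjective g
    have h4 : v a * v b = v b * v a := Units.ext (hvv a b).eq
    rw [← MulAut.mul_apply, ← map_mul, show ⁅a, b⁆ * (b * a) = a * b by group,
      ← Units.mul_left_inj (v a * v b), ← h1, h4, h1]
  exact htriv (hT hz)

end Rep

section Group

theorem false_of_quadratic_group {H : Type*} [Group H] [Finite H] {F V : Type*} [Field F] (p : ℕ)
    [hp : Fact p.Prime] [CharP F p] [AddCommGroup V] [Module F V] [FiniteDimensional F V]
    (hp2 : p ≠ 2) (ρ : H →* End F V) {N B : Subgroup H} (hN : (Nat.card N).Coprime p)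
    (hρ : ∀ g ∈ N, ρ g = 1 → g = 1) (hB : IsPGroup p B)
    (hBN : B ≤ Subgroup.normalizer (N : Set H)) {z : B} (hz : z ∈ commutator B)
    (hzZ : z ∈ Subgroup.center B) (hzp : z ^ p = 1)
    (hy : ¬ N ≤ Subgroup.centralizer {(z : H)}) (h2 : (ρ z - 1) ^ 2 = 0)
    (h3 : ∀ b ∈ B, (ρ z - 1) * (ρ b - 1) ^ 2 = 0) : False := by
  have hzB : B ≤ Subgroup.centralizer (Subgroup.zpowers (z : H) : Set H) := by
    rw [centralizer_zpowers_eq]
    exact fun b hb => Subgroup.mem_centralizer_singleton_iff.2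
      (congrArg Subtype.val (Subgroup.mem_center_iff.1 hzZ ⟨b, hb⟩))
  obtain ⟨e, he⟩ := IsPGroup.iff_card.1 hB
  obtain ⟨q, Q, hq, hQN, hQ, hBQ, hQY, hcomm, hCQ, -⟩ := exists_minimal hBN
    (Subgroup.zpowers_le.2 z.2) (hzB.trans (Subgroup.centralizer_le_normalizer _))
    (he ▸ hN.symm.pow_left e) (Or.inl (isSolvable_of_isPGroup hB))
    (by rwa [centralizer_zpowers_eq])
  have hQ0 : Q ≠ ⊥ := by
    rintro rfl
    exact hQY bot_le
  obtain ⟨g₀, hg₀⟩ := Subgroup.ne_bot_iff_exists_ne_one.1 hQ0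
  let α : B →* MulAut Q := Q.normalizerMonoidHom.comp (Subgroup.inclusion hBQ)
  have hα : ∀ (b : B) (g : Q), ((α b g : Q) : H) = b * g * (b : H)⁻¹ := fun _ _ => rfl
  refine false_of_quadratic (K := AlgebraicClosure F) p hp2
    (natCast_card_ne_zero _ p (hN.coprime_dvd_left (Subgroup.card_dvd_of_le hQN)))
    (τ := (baseChangeRep ρ).comp Q.subtype)
    ⟨g₀, fun h => hg₀ (Subtype.ext (hρ _ (hQN g₀.2) ((baseChangeRep_eq_one_iff ρ _).1 h)))⟩ hB
    α ((baseChangeRep ρ).comp B.subtype) (fun b g => ?_) hz hzZ hzp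
    (fun g hg => ?_) (fun M hM => ?_) ?_ fun b => ?_
  · change baseChangeRep ρ b * baseChangeRep ρ g =
      baseChangeRep ρ (b * g * (b : H)⁻¹) * baseChangeRep ρ b
    rw [← map_mul, ← map_mul, inv_mul_cancel_right]
  · have h1 := (hα _ g).symm.trans (congrArg Subtype.val hg)
    have h2 : (g : H) ∈ Subgroup.centralizer (Q : Set H) := hCQ ⟨g.2, by
      rw [centralizer_zpowers_eq]
      exact Subgroup.mem_centralizer_singleton_iff.2 (mul_inv_eq_iff_eq_mul.1 h1).symm⟩
    exact Subgroup.mem_center_iff.2 fun k => Subtype.ext (h2 k k.2)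
  · have h1 : ⁅Q, Subgroup.zpowers (z : H)⁆ ≤ M.map Q.subtype := by
      have h2 : ∀ (i : ℕ) (g : Q), α (z ^ i) g * g⁻¹ ∈ M := by
        intro i g
        induction i with
        | zero => simp
        | succ i ih =>
          have := M.mul_mem (hM (α (z ^ i) g)) ih
          rwa [mul_assoc, inv_mul_cancel_left, ← MulAut.mul_apply, ← map_mul, ← pow_succ'] at this
      rw [Subgroup.commutator_comm, Subgroup.commutator_le]
      intro y hy g hg
      obtain ⟨i, rfl⟩ := (mem_powers_iff_mem_zpowers.2 hy)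
      exact ⟨_, h2 i ⟨g, hg⟩, rfl⟩
    rw [hcomm] at h1
    rw [eq_top_iff]
    intro g _
    obtain ⟨g', hg', h⟩ := h1 g.2
    exact (Subtype.ext h : g' = g) ▸ hg'
  · change (baseChangeRep ρ z - 1) ^ 2 = 0
    rw [← baseChangeRep_sub_one, ← map_pow, h2, map_zero]
  · change (baseChangeRep ρ z - 1) * (baseChangeRep ρ b - 1) ^ 2 = 0
    rw [← baseChangeRep_sub_one, ← baseChangeRep_sub_one, ← map_pow, ← map_mul, h3 b b.2, map_zero]

/-- For odd `p`: if `B` is a metabelian `p`-subgroup normalised by the elementary abelian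
self-centralising `O_p(G)`, then `B' ≤ O_p(G)`. -/
theorem commutator_le_pCore {G : Type u} [Group G] [Finite G] {p : ℕ} [hp : Fact p.Prime]
    (hp2 : p ≠ 2) (hG : IsPSolvable p G) [hV : ElemAb p (pCore p G)]
    (hC : Subgroup.centralizer (pCore p G : Set G) ≤ pCore p G) {B : Subgroup G}
    (hB : IsPGroup p B) (hVB : pCore p G ≤ Subgroup.normalizer (B : Set G))
    (hB2 : ⁅⁅B, B⁆, ⁅B, B⁆⁆ = ⊥) : ⁅B, B⁆ ≤ pCore p G := by
  set V := pCore p G with hVdef
  have hVc := ElemAb.isMulCommutative p V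
  have hVV : V ≤ Subgroup.centralizer (V : Set G) :=
    Subgroup.le_centralizer_iff_isMulCommutative.2 inferInstance
  obtain ⟨S⟩ := nonempty_secRep p V ⊥ (Subgroup.commutator_eq_bot_iff_le_centralizer.2 hVV).le
    fun x hx => congrArg Subtype.val (hV.pow_eq_one ⟨x, hx⟩)
  have hker : S.ρ.ker = V := le_antisymm (fun g hg => hC fun v hv =>
    (commutatorElement_eq_one_iff_mul_comm.1 (S.mem_ker_iff.1 hg v hv)).symm) S.le_ker
  let f := QuotientGroup.mk' V
  by_contra hne
  have hB' : IsPGroup p (B.map f) := hB.map f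
  have hA0 : commutator (B.map f) ≠ ⊥ := by
    intro h
    apply hne
    rw [← QuotientGroup.ker_mk' V, ← Subgroup.map_eq_bot_iff, Subgroup.map_commutator,
      ← Subgroup.map_subtype_commutator, h, Subgroup.map_bot]
  obtain ⟨z, hz, hzZ, hzo⟩ := PG.exists_mem_center_orderOf_eq hB' _ hA0
  have hzp : z ^ p = 1 := orderOf_dvd_iff_pow_eq_one.1 hzo.dvd
  have hz1 : (z : G ⧸ V) ≠ 1 := fun h => by
    rw [show z = 1 from Subtype.ext h, orderOf_one] at hzo
    exact hp.out.one_lt.ne hzo
  obtain ⟨z₀, hz₀, hz₀z⟩ : (z : G ⧸ V) ∈ ⁅B, B⁆.map f := by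
    rw [Subgroup.map_commutator, ← Subgroup.map_subtype_commutator]
    exact ⟨z, hz, rfl⟩
  have hAA : ∀ x ∈ ⁅B, B⁆, ⁅z₀, x⁆ = 1 := fun x hx =>
    Subgroup.mem_bot.1 (hB2 ▸ Subgroup.commutator_mem_commutator hz₀ hx)
  have hbv : ∀ b ∈ B, ∀ v ∈ V, ⁅b, v⁆ ∈ B := fun b hb v hv =>
    commutator_le_left_of_le_normalizer hVB (Subgroup.commutator_mem_commutator hb hv)
  have hzlift : S.lift V hker.ge z = S.ρ z₀ := by rw [← hz₀z]; rfl
  refine false_of_quadratic_group p hp2 (S.lift V hker.ge) (coprime_card_pPrimeCore p _)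
    (fun g _ hg => S.lift_injective _ hker (hg.trans (map_one _).symm)) hB'
    Subgroup.le_normalizer_of_normal hz hzZ hzp
    (not_le_centralizer_pPrimeCore (hG.quotient V) (pCore_quotient_pCore p G) hz1 (j := 1)
      (by rw [pow_one]; exact congrArg Subtype.val hzp)) ?_ ?_
  · ext w
    obtain ⟨v, hv, rfl⟩ := S.π_surj w
    rw [hzlift, pow_two, End.mul_apply, S.sub_one_π _ hv,
      S.sub_one_π _ (SecRep.commutator_mem _ hv), hAA, S.π_one, LinearMap.zero_apply]
    exact commutator_le_left_of_le_normalizer (le_normalizer_commutator hVB hVB)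
      (Subgroup.commutator_mem_commutator hz₀ hv)
  · rintro _ ⟨b, hb, rfl⟩
    ext w
    obtain ⟨v, hv, rfl⟩ := S.π_surj w
    rw [hzlift, show S.lift V hker.ge (f b) = S.ρ b from rfl, pow_two, End.mul_apply,
      End.mul_apply, S.sub_one_π _ hv, S.sub_one_π _ (SecRep.commutator_mem _ hv),
      S.sub_one_π _ (SecRep.commutator_mem _ (SecRep.commutator_mem _ hv)), hAA, S.π_one,
      LinearMap.zero_apply]
    exact Subgroup.commutator_mem_commutator hb (hbv b hb v hv)

theorem pLengthLE_succ_of_hom {G G₁ : Type*} [Group G] [Finite G] [Group G₁] {p k : ℕ}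
    [Fact p.Prime] (f : G →* G₁) (hf : Function.Surjective f)
    (h1 : (pCore p G₁).comap f = pPrimePCore p G) (h : PLengthLE p k (G₁ ⧸ pCore p G₁)) :
    PLengthLE p (k + 1) G := by
  have : Finite G₁ := Finite.of_surjective f hf
  rw [pLengthLE_succ_iff]
  refine h.of_injective (QuotientGroup.map _ _ f h1.ge) ?_
  rw [injective_iff_map_eq_one]
  intro x hx
  obtain ⟨x, rfl⟩ := QuotientGroup.mk_surjective x
  rw [QuotientGroup.eq_one_iff, ← h1]
  exact (QuotientGroup.eq_one_iff (f x)).1 hx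

/-- **Hall–Higman**: for odd `p` the `p`-length is at most the derived length of a Sylow
`p`-subgroup. -/
theorem pLengthLE_of_derivedSeries {p : ℕ} [hp : Fact p.Prime] (hp2 : p ≠ 2) (d : ℕ) :
    ∀ (G : Type u) [Group G] [Finite G], IsPSolvable p G →
      (∀ P : Sylow p G, derivedSeries P d = ⊥) → PLengthLE p d G := by
  induction d with
  | zero =>
    intro G _ _ _ h
    refine pLengthLE_zero_iff.2 (SylowExp.coprime fun P x hx => ?_)
    have := derivedSeries_zero_eq_bot_iff.1 (h P)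
    rw [show x = 1 from congrArg Subtype.val (Subsingleton.elim (⟨x, hx⟩ : P) 1), one_pow]
  | succ d ih =>
    intro G _ _ hG h
    obtain ⟨G₁, _, _, f, hf, h1, h2, h3⟩ := exists_reduction_hom (isPConstrained_of_isPSolvable hG)
    have hG₁ := hG.of_surjective f hf
    have h' := sylow_derivedSeries_eq_bot_of_surjective f hf h
    refine pLengthLE_succ_of_hom f hf h1 (ih _ (hG₁.quotient _) fun P' => ?_)
    obtain ⟨P, rfl⟩ := Sylow.mapSurjective_surjective
      (QuotientGroup.mk'_surjective (pCore p G₁)) p P'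
    have key : (derivedSeries P d).map (P : Subgroup G₁).subtype ≤ pCore p G₁ := by
      have h4 := congrArg (Subgroup.map (P : Subgroup G₁).subtype) (h' P)
      rw [map_subtype_derivedSeries_succ, Subgroup.map_bot] at h4
      cases d with
      | zero =>
        refine le_trans ?_ h3
        rw [derivedSeries_zero, ← MonoidHom.range_eq_map, Subgroup.range_subtype] at h4 ⊢
        exact (Subgroup.commutator_eq_bot_iff_le_centralizer.1 h4).trans
          (Subgroup.centralizer_le (pCore_le_sylow P))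
      | succ d =>
        rw [map_subtype_derivedSeries_succ] at h4 ⊢
        exact commutator_le_pCore hp2 hG₁ h3 ((P.isPGroup'.to_subgroup _).map _)
          ((pCore_le_sylow P).trans (le_normalizer_map_subtype _)) h4
    change derivedSeries ((P : Subgroup G₁).map (QuotientGroup.mk' (pCore p G₁))) d = ⊥
    rw [← map_derivedSeries_eq (((QuotientGroup.mk' (pCore p G₁)).subgroupMap_surjective P)),
      Subgroup.map_eq_bot_iff]
    intro x hx
    exact Subtype.ext ((QuotientGroup.eq_one_iff _).2 (key ⟨x, hx, rfl⟩))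

end Group

end Cfsg.Lib.Solv.HH
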