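import Cfsg.Agent.Solv.FitEsp

/-! # Gross's theorem on fixed-point-free automorphisms of order a power of two -/

set_option autoImplicit false

namespace Cfsg.Lib.Solv.FH

open Subgroup Cfsg.Lib.Solv Cfsg.Lib.FT
open scoped Pointwise commutatorElement

universe u v

variable {G : Type u} [Group G] [Finite G]

/-- A minimal pair `P`, `Q` in a tower. -/
theorem Tw.exists_min_pair {s q : ℕ} [Fact q.Prime] {A T P₀ Q₀ M : Subgroup G}
    (h : Tw s q A P₀ Q₀ M) (hT : T ≤ A) (hAT : A ≤ normalizer (T : Set G))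
    (hne : ¬ ⁅P₀, T⁆ ≤ centralizer (Q₀ : Set G)) :
    ∃ P Q : Subgroup G, P ≤ P₀ ∧ Q ≤ Q₀ ∧ Tw s q A P Q M ∧ MinQ q Q P (P ⊔ A) ∧ ⁅P, T⁆ = P ∧
      ∀ R : Subgroup G, R < P → A ≤ normalizer (R : Set G) → ⁅R, T⁆ ≤ centralizer (Q : Set G) := by
  obtain ⟨P, ⟨h1, h2, h3⟩, hmin⟩ := (wellFounded_lt (α := Subgroup G)).has_min
    {P | P ≤ P₀ ∧ A ≤ normalizer (P : Set G) ∧ ¬ ⁅P, T⁆ ≤ centralizer (Q₀ : Set G)}
    ⟨P₀, le_rfl, h.AP, hne⟩
  have hTP := hT.trans h2
  have hc := Coprime.hcop_mono h.cAP hT h1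
  have h4 : ⁅P, T⁆ = P := by
    have := commutator_le_left_of_le_normalizer hTP
    by_contra h5
    exact hmin ⁅P, T⁆ ⟨this.trans h1, le_normalizer_commutator h2 hAT, by
      rwa [Coprime.commutator_commutator hTP hc]⟩ (lt_of_le_of_ne this h5)
  obtain ⟨Q, hQ, hm⟩ := exists_minQ (B := P ⊔ A) (Y := P) h.hQ (sup_le (h1.trans h.PQ) h.AQ)
    le_sup_left (sup_le le_normalizer h2) (by
      rw [Coprime.card_sup h2 (disjoint_iff.2 (inf_eq_bot_of_coprime_card
        (Coprime.hcop_mono h.cAP le_rfl h1).symm))]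
      exact Nat.Coprime.mul_left (Coprime.hcop_mono h.cPQ h1 le_rfl) h.cAQ)
    (fun h5 => h3 (by rw [h4]; exact le_centralizer_iff.1 h5))
  refine ⟨P, Q, h1, hQ, h.mono h1 hQ (le_sup_left.trans hm.norm) h2 (le_sup_right.trans hm.norm),
    hm, h4, fun R hR hAR => ?_⟩
  by_contra h5
  exact hmin R ⟨hR.le.trans h1, hAR, fun h6 => h5 (h6.trans (centralizer_anti hQ))⟩ hR

theorem gross_step_faithful {s q : ℕ} [Fact s.Prime] [hq : Fact q.Prime]
    {A T P₀ Q₀ M : Subgroup G} (h₀ : Tw s q A P₀ Q₀ M) (hf₀ : Q₀ ⊓ centralizer (M : Set G) = ⊥)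
    [IsCyclic A] (hA : IsPGroup 2 A) (hT : T ≤ A) (hreg : ∀ x ∈ A, x ≠ 1 → T ≤ zpowers x) :
    ⁅P₀, T⁆ ≤ centralizer (Q₀ : Set G) := by
  by_contra hne
  have hAT : A ≤ normalizer (T : Set G) := Coprime.le_normalizer_of_le_of_comm hT
  obtain ⟨P, Q, -, hQ₀, h, hm, hPT, hmin⟩ := h₀.exists_min_pair hT hAT hne
  have hf : Q ⊓ centralizer (M : Set G) = ⊥ := le_bot_iff.1 (hf₀ ▸ inf_le_inf_right _ hQ₀)
  have hPQ : ¬ P ≤ centralizer (Q : Set G) := fun h1 => hm.ne (le_centralizer_iff.1 h1)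
  have hTQ := hT.trans h.AQ
  have hTP := hT.trans h.AP
  have cTQ := Coprime.hcop_mono h.cAQ hT le_rfl
  have cTP := Coprime.hcop_mono h.cAP hT le_rfl
  have hD : ⁅Q, T⁆ ≤ Q := commutator_le_left_of_le_normalizer hTQ
  set Z : Subgroup G := ⁅Q, Q⁆ with hZ
  have hcx : ∀ {V : Subgroup G}, T ≤ normalizer (V : Set G) → (Nat.card T).Coprime (Nat.card V) →
      ∀ x ∈ A, x ≠ 1 → ⁅V, T⁆ ⊓ centralizer ({x} : Set G) ≤ ⁅V, V⁆ := fun hV hc x hx hx1 => by
    refine le_trans ?_ (commutator_inf_centralizer_le hV hc)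
    rw [← centralizer_zpowers']
    exact inf_le_inf_left _ (centralizer_anti (hreg x hx hx1))
  by_cases hab : Z = ⊥
  · have := Frobenius_Wielandt_cent_compl (le_normalizer_commutator h.AQ hAT)
      (fun x hx hx1 => le_bot_iff.1 ((hcx hTQ cTQ x hx hx1).trans hab.le)) h.solM (hD.trans h.QM)
      h.AM (Coprime.hcop_mono h.cMQ le_rfl hD) h.cAM.symm h.fM
    have h1 : T ≤ centralizer (Q : Set G) :=
      commutator_eq_bot_iff_le_centralizer'.1 (le_bot_iff.1 (hf ▸ le_inf hD this))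
    exact hPQ (hPT ▸ Coprime.commutator_le_centralizer_of_le_centralizer h.PQ h1)
  have hZQ : Z ≤ Q := hm.der_lt.le
  have hAZ : A ≤ normalizer (Z : Set G) := le_normalizer_commutator h.AQ h.AQ
  have hPZ : P ≤ centralizer (Z : Set G) := hm.y_cent_der
  set X : Subgroup G := ⁅P, P⁆ with hX
  have hXP : X ≤ P := commutator_le_left_of_le_normalizer le_normalizer
  have hAX : A ≤ normalizer (X : Set G) := le_normalizer_commutator h.AP h.AP
  have hP0 : P ≠ ⊥ := by rintro rfl; exact hPQ bot_le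
  have hXlt : X < P :=
    commutator_self_lt_of_isSolvable (Coprime.isSolvable_of_isPGroup h.hP) hP0
  have hXT : ⁅X, T⁆ ≤ centralizer (Q : Set G) := hmin X hXlt hAX
  have hPC : P ≤ normalizer (centralizer (Q : Set G) : Set G) := le_normalizer_centralizer h.PQ
  have hPX : ⁅P, X⁆ ≤ centralizer (Q : Set G) := by
    conv_lhs => rw [← hPT, commutator_comm P T]
    refine three_subgroups_le_of_le_normalizer (le_normalizer_centralizer hTQ) hPC (hXP.trans hPC)
      ((commutator_mono (commutator_le_right_of_le_normalizer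
        (le_normalizer_commutator le_normalizer le_normalizer)) le_rfl).trans hXT) ?_
    exact (commutator_mono hXT le_rfl).trans (commutator_le_left_of_le_normalizer hPC)
  have hXQ : ¬ X ≤ centralizer (Q : Set G) := fun h1 => hPQ (wielandt_mod_cent h.AP h.cAP
    (fun x hx hx1 => le_trans (by
      have := hcx hTP cTP x hx hx1
      rwa [hPT] at this) h1) hm.solvable h.PQ h.AQ h.cPQ.symm h.cAQ.symm h.fQ)
  have hDX : ⁅⁅Q, T⁆, X⁆ ≤ Q :=
    (commutator_mono hD le_rfl).trans (commutator_le_left_of_le_normalizer (hXP.trans h.PQ))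
  have hE : ⁅⁅⁅Q, T⁆, X⁆, Q⁆ = ⊥ := by
    by_contra hE0
    have hEZ : ⁅⁅⁅Q, T⁆, X⁆, Q⁆ ≤ Z := commutator_mono hDX le_rfl
    obtain ⟨B, K, hBA, hEK, hd⟩ := h.exists_ceData hf hZQ hm.cent_der hAZ hEZ hE0
    have : IsCyclic B := isCyclic_of_le hBA.le
    obtain ⟨b, hb, hb1⟩ := (Subgroup.bot_or_exists_ne_one B).resolve_left hd.ne_bot
    have hTB : T ≤ B := (hreg b (hBA.le hb) hb1).trans (zpowers_le.2 hb)
    have cBQ := Coprime.hcop_mono h.cAQ hBA.le le_rfl
    have cBP := Coprime.hcop_mono h.cAP hBA.le le_rfl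
    obtain ⟨d, hd1, hd2⟩ := hd.count (hBA.le.trans h.AQ) cBQ hm.cent_der hZQ le_rfl hTB
      fun x hx => hreg x (hBA.le hx)
    obtain ⟨L, Γ, _, _, f, hQL, hPL, hBL, hker, he, hPZ', hBZ', hY⟩ := exists_hat hm
      (hBA.le.trans h.AQ) (hBA.le.trans h.AP) hd fun h1 => hEK (hEZ.trans h1)
    have hcB : Nat.card (img f B) = Nat.card B := card_img_of_coprime hBL
      (Coprime.hcop_mono cBQ le_rfl hker)
    have : IsCyclic (img f B) := cyclic_img f inferInstance
    have hTL := hTB.trans hBL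
    have hXL := hXP.trans hPL
    have h1 := he.le_centralizer_of_two_config (isPGroup_img f h.hQ) (X := img f X) (B := img f B)
      (T := img f T) (isPGroup_img f (h.hP.to_le hXP)) (isPGroup_img f (hA.to_le hBA.le))
      (img_mono f hTB) (fun y hy hy1 => by
        obtain ⟨x, hxL, hx, rfl⟩ := mem_img'.1 hy
        rw [← img_zpowers hxL]
        exact img_mono f (hreg x (hBA.le hx) fun h => hy1 (by subst h; exact map_one f)))
      (img_norms f (hBA.le.trans hAX)) (img_norms f (hXP.trans h.PQ))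
      (img_norms f (hBA.le.trans h.AQ)) ((img_mono f hXP).trans hPZ') hBZ'
      (coprime_img f (Coprime.hcop_mono h.cPQ hXP le_rfl)) (coprime_img f cBQ)
      (coprime_img f (Coprime.hcop_mono cBP le_rfl hXP))
      (by rw [← img_commutator hXL hXL]
          exact img_cents f ((commutator_mono hXP le_rfl).trans hPX))
      (by rw [← img_commutator hXL hTL]; exact img_cents f hXT) (d := d)
      (by rw [← img_commutator hQL hTL, relIndex_hat hQL hY hD, hd1]) (by rwa [hcB])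
    rw [← img_commutator hQL hTL, img_cents_iff hXL (hD.trans hQL), commutator_comm] at h1
    have h2 : ⁅⁅Q, T⁆, X⁆ ≤ Q ⊓ commLe Q K := hY ▸ le_inf hDX (h1.trans (ker_le_pre f _))
    exact hEK (le_commLe_iff.1 (h2.trans inf_le_right)).2
  have h1 : ⁅⁅Q, T⁆, X⁆ ≤ Z :=
    (le_inf hDX (commutator_eq_bot_iff_le_centralizer.1 hE)).trans (hm.center_eq hab).le
  have hQX : ⁅Q, X⁆ ≤ Q := commutator_le_left_of_le_normalizer (hXP.trans h.PQ)
  have hQZ : Q ≤ normalizer (Z : Set G) := le_normalizer_of_le_centralizer hm.cent_der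
  have hPZ' : P ≤ normalizer (Z : Set G) := le_normalizer_of_le_centralizer hPZ
  have h2 : ⁅Q, X⁆ ⊔ Z = Q := by
    by_contra h3
    have := hm.le_der (lt_of_le_of_ne (sup_le hQX hZQ) h3) (le_normalizer_sup
      (le_normalizer_commutator hm.norm
        (sup_le (le_normalizer_commutator le_normalizer le_normalizer) hAX))
      (sup_le hPZ' hAZ))
    exact hXQ (Coprime.le_centralizer_of_commutator_le
      (Coprime.hcop_mono h.cPQ hXP hZQ) (le_sup_left.trans this) (hXP.trans hPZ))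
  have h3 : ⁅Q, T⁆ ≤ Z := by
    conv_lhs => rw [← h2]
    refine commutator_sup_left_le_of_le_normalizer (hQX.trans hQZ) le_normalizer ?_
      (commutator_le_left_of_le_normalizer (hT.trans hAZ))
    rw [commutator_comm Q X]
    refine three_subgroups_le_of_le_normalizer (hXP.trans hPZ') hQZ (hT.trans hAZ) h1 ?_
    rw [commutator_comm T X]
    exact (commutator_eq_bot_iff_le_centralizer.2 hXT).le.trans bot_le
  refine hm.der_lt.not_ge ?_
  conv_lhs => rw [← hm.comm, commutator_comm, ← hPT, commutator_comm P T]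
  refine three_subgroups_le_of_le_normalizer (hT.trans hAZ) hPZ' hQZ ?_ ?_
  · rw [commutator_comm P Q, hm.comm]; exact h3
  · exact (commutator_mono h3 le_rfl).trans (commutator_le_left_of_le_normalizer hPZ')

theorem gross_step {s q : ℕ} [Fact s.Prime] [Fact q.Prime] {A T P Q M : Subgroup G}
    (h : Tw s q A P Q M) [IsCyclic A] (hA : IsPGroup 2 A) (hT : T ≤ A)
    (hreg : ∀ x ∈ A, x ≠ 1 → T ≤ zpowers x) : ⁅Q, ⁅P, T⁆⁆ ≤ centralizer (M : Set G) := by
  obtain ⟨L, Γ, _, _, f, hAL, hPL, hQL, hker, hC, h', hf⟩ := h.reduce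
  have := cyclic_img f ‹IsCyclic A›
  have hTL := hT.trans hAL
  refine le_trans ((img_cents_iff hQL ((commutator_le_sup P T).trans (sup_le hPL hTL))).1 ?_) hC
  rw [img_commutator hPL hTL]
  refine le_centralizer_iff.1 (gross_step_faithful h' hf (isPGroup_img f hA) (img_mono f hT) ?_)
  intro y hy hy1
  obtain ⟨x, hxL, hx, rfl⟩ := mem_img'.1 hy
  rw [← img_zpowers hxL]
  exact img_mono f (hreg x hx fun h => hy1 (by subst h; exact map_one f))

theorem iter_eq_bot_gross (m : ℕ) :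
    ∀ {G : Type u} [Group G] [Finite G] {K : Subgroup G} [K.Normal] {σ : G},
      Group.IsSolvable K → σ ^ 2 ^ (m + 2) = 1 → (orderOf σ).Coprime (Nat.card K) →
      K ⊓ centralizer ({σ} : Set G) = ⊥ → nilRes^[2 * m + 2] K = ⊥ := by
  induction m with
  | zero => exact iter_eq_bot_cyclic 2 (Or.inr le_rfl)
  | succ n ih =>
    intro G _ _ K _ σ hsol hσ hcop hfix
    set N : Subgroup G := (fittingOf (K.map (QuotientGroup.mk' (fittingOf K)))).comap
      (QuotientGroup.mk' (fittingOf K)) with hN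
    have hNK : N ≤ K := by
      refine (comap_mono (fittingOf_le _)).trans ?_
      rw [comap_map_eq, QuotientGroup.ker_mk', sup_eq_left.2 (fittingOf_le K)]
    have hKT : ⁅K, zpowers (σ ^ 2 ^ (n + 2))⁆ ≤ N := by
      by_cases h1 : σ ^ 2 ^ (n + 2) = 1
      · rw [h1, zpowers_one_eq_bot, commutator_bot_right]; exact bot_le
      have ho : orderOf σ = 2 ^ (n + 2 + 1) := orderOf_eq_prime_pow h1 hσ
      rw [← Nat.card_zpowers] at hcop
      rw [← centralizer_zpowers'] at hfix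
      refine map_le_iff_le_comap.1 (commutator_le_fittingOf_two hsol hcop
        (zpowers_le.2 (pow_mem (mem_zpowers σ) _))
        fun s q _ _ P Q hsq hPK hQK hP hQ hPQ hAP hAQ => ?_)
      exact gross_step (tw_of_fpf hsol hcop hfix hPK hQK hP hQ
        (IsPGroup.coprime_card_of_ne s q hsq P Q hP hQ) hPQ hAP hAQ)
        (IsPGroup.of_card (by rw [Nat.card_zpowers, ho]))
        (zpowers_le.2 (pow_mem (mem_zpowers σ) _)) (zpowers_pow_le ho)
    obtain ⟨L, Γ, _, _, f, hσL, hKL, _, hT, hker⟩ := iter_step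
      (zpowers_le.2 (pow_mem (mem_zpowers σ) _)) hNK hKT hcop
    rw [show 2 * (n + 1) + 2 = 2 + (2 * n + 2) by ring]
    refine iter_add_eq_bot (N := N) ?_ (iter_two_eq_bot_of_le (K := K) (map_comap_le _ _))
    rw [← hker]
    refine iter_le_of_img f hKL (ih (σ := f ⟨σ, hσL⟩) (solvable_img f hsol) ?_ ?_ ?_)
    · rw [← map_pow]
      exact coe_mem_ker.1 (hT (mem_zpowers _))
    · refine (hcop.coprime_dvd_left ?_).coprime_dvd_right (card_img_dvd f K)
      exact (orderOf_map_dvd f _).trans (orderOf_mk σ hσL).dvd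
    · rw [← img_inf_centralizer_singleton f hKL (le_normalizer_of_normal (zpowers σ) K)
        (by rwa [Nat.card_zpowers]) (mem_zpowers σ) hσL, hfix, img_bot]

end Cfsg.Lib.Solv.FH
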