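import Cfsg.Agent.Solv.FitGross

/-! # Fixed-point-free action of a non-cyclic group of order `p r` -/

set_option autoImplicit false

namespace Cfsg.Lib.Solv.FH

open Subgroup Cfsg.Lib.Solv Cfsg.Lib.FT
open scoped Pointwise commutatorElement

universe u v

variable {G : Type u} [Group G] [Finite G]

/-- `A` is non-cyclic and its order is a product of two primes. -/
structure TwoP (A : Subgroup G) : Prop where
  card : ∃ p r : ℕ, p.Prime ∧ r.Prime ∧ Nat.card A = p * r
  nc : ¬ IsCyclic A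

namespace TwoP

variable {A R R' : Subgroup G}

theorem prime (h : TwoP A) (hR : R < A) (h0 : R ≠ ⊥) : (Nat.card R).Prime := by
  obtain ⟨p, r, hp, hr, hc⟩ := h.card
  have h1 := card_lt_of_lt hR
  obtain ⟨a, b, ha, hb, hab⟩ := (Nat.dvd_mul).1 (hc ▸ card_dvd_of_le hR.le)
  rcases (Nat.dvd_prime hp).1 ha with rfl | rfl <;> rcases (Nat.dvd_prime hr).1 hb with rfl | rfl
  · exact (h0 (card_eq_one.1 (by simpa using hab.symm))).elim
  · rw [← hab, one_mul]; exact hr
  · rw [← hab, mul_one]; exact hp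
  · omega

theorem eq_of_le_of_prime (hR : (Nat.card R').Prime) (h : R ≤ R') (h0 : R ≠ ⊥) : R = R' :=
  eq_of_le_of_card_ge h ((Nat.dvd_prime hR).1 (card_dvd_of_le h) |>.resolve_left
    fun h1 => h0 (card_eq_one.1 h1)).ge

theorem eq_of_lt (h : TwoP A) (h0 : R ≠ ⊥) (hRR : R < R') (hR' : R' ≤ A) : R' = A := by
  by_contra h1
  exact hRR.ne (eq_of_le_of_prime (h.prime (lt_of_le_of_ne hR' h1) (ne_bot_of_gt hRR)) hRR.le h0)

omit [Finite G] in
theorem lt_of_prime (h : TwoP A) (hR : R ≤ A) (hp : (Nat.card R).Prime) : R < A := by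
  refine lt_of_le_of_ne hR ?_
  rintro rfl
  have := Fact.mk hp
  exact h.nc (isCyclic_of_prime_card rfl)

theorem sup_eq (h : TwoP A) (hR : R ≤ A) (hR' : R' ≤ A) (hp : (Nat.card R).Prime)
    (hp' : (Nat.card R').Prime) (hne : R' ≠ R) : R ⊔ R' = A :=
  h.eq_of_lt ((one_lt_card_iff_ne_bot R).1 hp.one_lt) (left_lt_sup.2 fun h1 =>
    hne (eq_of_le_of_prime hp h1 ((one_lt_card_iff_ne_bot R').1 hp'.one_lt))) (sup_le hR hR')

theorem exists_ne (h : TwoP A) (hR : R < A) :
    ∃ R' : Subgroup G, R' ≤ A ∧ (Nat.card R').Prime ∧ R' ≠ R := by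
  obtain ⟨a, ha, haR⟩ := SetLike.exists_of_lt hR
  refine ⟨zpowers a, zpowers_le.2 ha, h.prime (lt_of_le_of_ne (zpowers_le.2 ha) fun h1 =>
    h.nc (h1 ▸ inferInstance)) (zpowers_ne_bot.2 (by rintro rfl; exact haR (one_mem _))), ?_⟩
  rintro rfl
  exact haR (mem_zpowers a)

omit [Finite G] in
theorem img (h : TwoP A) {L : Subgroup G} {Γ : Type v} [Group Γ] (f : L →* Γ) (hA : A ≤ L)
    (hker : A ⊓ pre f ⊥ = ⊥) : TwoP (FT.img f A) :=
  ⟨by rw [card_img_of_inf_ker hA hker]; exact h.card, fun hc => h.nc (cyclic_of_img hA hker hc)⟩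

end TwoP

/-- The norm argument for a non-normal subgroup `R`. -/
theorem inf_centralizer_eq_bot_of_conj {W P A R : Subgroup G} [IsMulCommutative W]
    (hAW : A ≤ normalizer (W : Set G)) (hPW : P ≤ normalizer (W : Set G))
    (hAP : A ≤ normalizer (P : Set G)) (fA : W ⊓ centralizer (A : Set G) = ⊥)
    (fP : W ⊓ centralizer (P : Set G) = ⊥) (hPA : ⁅P, A⁆ = P) (hR : R ≤ A)
    (hgen : ∀ a ∈ A, a ∉ R → R ⊔ MulAut.conj a • R = A)
    (cP : (Nat.card P).Coprime (Nat.card W)) (cR : (Nat.card R).Coprime (Nat.card W)) :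
    W ⊓ centralizer ((⁅P, R⁆ ⊔ R : Subgroup G) : Set G) = ⊥ := by
  set N : Subgroup G := ⁅P, R⁆ with hN
  have hNP : N ≤ P := commutator_le_left_of_le_normalizer (hR.trans hAP)
  have cN := Coprime.hcop_mono cP hNP le_rfl
  rw [eq_bot_iff, centralizer_sup']
  rintro w ⟨hw, hwN, hwR⟩
  have h1 := pow_mem_of_norm (K := ⁅W, N⁆) hAW fA hR hw (fun a ha haR => by
    set R' : Subgroup G := MulAut.conj a • R with hR'
    have hR'A : R' ≤ A := (hgen a ha haR) ▸ le_sup_right
    have hN' : ⁅P, R'⁆ ≤ P := commutator_le_left_of_le_normalizer (hR'A.trans hAP)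
    have hL : N ⊔ ⁅P, R'⁆ ≤ P := sup_le hNP hN'
    have hP : P ≤ N ⊔ ⁅P, R'⁆ := by
      conv_lhs => rw [← hPA, ← hgen a ha haR]
      exact commutator_sup_right_le_of_le_normalizer
        (le_normalizer_iff_commutator_le.2 ((commutator_mono hL le_rfl).trans le_sup_left))
        (le_normalizer_iff_commutator_le.2 ((commutator_mono hL le_rfl).trans le_sup_right))
        le_sup_left le_sup_right
    set U : Subgroup G := W ⊓ centralizer ((⁅P, R'⁆ : Subgroup G) : Set G) with hU
    have hNU : N ≤ normalizer (U : Set G) :=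
      hNP.trans (le_normalizer_inf_centralizer hPW (left_le_normalizer_commutator P R'))
    have hUN : U ⊓ centralizer (N : Set G) = ⊥ := by
      rw [eq_bot_iff, ← fP, hU, inf_assoc, inf_comm _ (centralizer _), ← centralizer_sup']
      exact inf_le_inf_left _ (centralizer_anti hP)
    have := isMulCommutative_of_le (inf_le_left : U ≤ W)
    have h2 := Coprime.centralizer_sup_commutator_of_comm hNU
      (Coprime.hcop_mono cN le_rfl inf_le_left)
    rw [hUN, bot_sup_eq] at h2
    refine commutator_mono inf_le_left le_rfl (h2.ge ⟨conj_mem_of_mem_normalizer (hAW ha) hw, ?_⟩)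
    have h3 := conj_mem_conj_smul a hwN
    rwa [conj_smul_centralizer, hN, conj_smul_commutator,
      conj_smul_eq_of_mem_normalizer (hAP ha)] at h3)
    (fun a ha => by rw [hwR a ha]; simp)
  have h2 := Coprime.centralizer_inf_commutator_eq_bot (hNP.trans hPW) cN
  refine mem_of_pow_mem_of_coprime (cR.symm.coprime_dvd_left (W.orderOf_dvd_natCard hw)) ?_
  rw [← h2]
  exact ⟨pow_mem (mem_inf.2 ⟨hw, hwN⟩) _, h1⟩

/-- Lemma K. -/
theorem inf_centralizer_le_der {s q : ℕ} [Fact s.Prime] [Fact q.Prime] {A P Q M R : Subgroup G}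
    (h : Tw s q A P Q M) (hA : TwoP A) (hm : MinQ q Q P (P ⊔ A))
    (hmin : ∀ U : Subgroup G, U < P → A ≤ normalizer (U : Set G) → U ≤ centralizer (Q : Set G))
    (hR : R ≤ A) (hp : (Nat.card R).Prime) :
    Q ⊓ centralizer ((⁅P, R⁆ ⊔ R : Subgroup G) : Set G) ≤ ⁅Q, Q⁆ := by
  have hsP := Coprime.isSolvable_of_isPGroup h.hP
  have hNP : ⁅P, R⁆ ≤ P := commutator_le_left_of_le_normalizer (hR.trans h.AP)
  have hR0 : R ≠ ⊥ := (one_lt_card_iff_ne_bot R).1 hp.one_lt
  by_cases hn : A ≤ normalizer (R : Set G)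
  · rcases hNP.eq_or_lt with h1 | h1
    · rw [h1, ← hm.cent_eq]
      exact inf_le_inf_left _ (centralizer_anti le_sup_left)
    have h2 := hmin _ h1 (le_normalizer_commutator h.AP hn)
    refine (inf_le_inf_left _ (centralizer_anti le_sup_right)).trans ?_
    rcases (inf_le_left : Q ⊓ centralizer (R : Set G) ≤ Q).eq_or_lt with h3 | h3
    swap
    · refine hm.le_der h3 (sup_le ?_ (le_normalizer_inf_centralizer h.AQ hn))
      refine le_normalizer_iff_commutator_le.2 (le_inf ((commutator_mono inf_le_left le_rfl).trans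
        (commutator_le_left_of_le_normalizer h.PQ)) ?_)
      rw [← commutator_eq_bot_iff_le_centralizer]
      refine commutator_commutator_eq_bot_of_rotate
        (commutator_eq_bot_iff_le_centralizer.2 (h2.trans (centralizer_anti inf_le_left))) ?_
      rw [commutator_eq_bot_iff_le_centralizer'.2 inf_le_right, commutator_bot_left]
    exfalso
    obtain ⟨R', hR', hp', hne⟩ := hA.exists_ne (hA.lt_of_prime hR hp)
    have hsup := hA.sup_eq hR hR' hp hp' hne
    set C : Subgroup G := P ⊓ centralizer (Q : Set G) with hC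
    have hAC : A ≤ normalizer (C : Set G) := le_normalizer_inf_centralizer h.AP h.AQ
    refine hm.ne (le_centralizer_iff.1 (wielandt_mod_cent (hR'.trans h.AP)
      (Coprime.hcop_mono h.cAP hR' le_rfl) (fun x hx hx1 => ?_) hm.solvable h.PQ (hR'.trans h.AQ)
      h.cPQ.symm (Coprime.hcop_mono h.cAQ hR' le_rfl).symm ?_))
    · rw [centralizer_singleton_eq_of_prime_card hp' hx hx1]
      have := le_sup_of_commutator_le (K := P) (U := P ⊓ centralizer (R' : Set G)) inf_le_left
        inf_le_left hAC (Coprime.hcop_mono h.cAP le_rfl inf_le_left)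
        (Or.inr (isSolvable_subgroup_of_le inf_le_left hsP)) (by
          rw [← hsup]
          refine commutator_sup_right_le_of_le_normalizer (hR.trans hAC) (hR'.trans hAC)
            ((commutator_mono inf_le_left le_rfl).trans (le_inf hNP h2)) ?_
          exact (commutator_eq_bot_iff_le_centralizer.2 inf_le_right).le.trans bot_le)
      rw [h.fP, sup_bot_eq] at this
      exact this.trans inf_le_right
    · rw [eq_bot_iff, ← h.fQ, ← hsup, centralizer_sup']
      exact le_inf inf_le_left (le_inf (inf_le_left.trans (h3.ge.trans inf_le_right)) inf_le_right)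
  set Z : Subgroup G := ⁅Q, Q⁆ with hZ
  have hL : Q ⊔ (P ⊔ A) ≤ normalizer (Z : Set G) :=
    le_normalizer_commutator (sup_le le_normalizer hm.norm) (sup_le le_normalizer hm.norm)
  have := normal_subgroupOf_of_le hL
  set f := qmk (Q ⊔ (P ⊔ A)) Z with hf
  have hQL : Q ≤ Q ⊔ (P ⊔ A) := le_sup_left
  have hPL : P ≤ Q ⊔ (P ⊔ A) := le_sup_left.trans le_sup_right
  have hAL : A ≤ Q ⊔ (P ⊔ A) := le_sup_right.trans le_sup_right
  have : IsMulCommutative (img f Q) := (img_qmk_abelian_iff hQL).2 le_rfl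
  have cR := Coprime.hcop_mono h.cAQ hR le_rfl
  have key := inf_centralizer_eq_bot_of_conj (W := img f Q) (P := img f P) (A := img f A)
    (R := img f R) (img_norms f h.AQ) (img_norms f h.PQ) (img_norms f h.AP)
    (by rw [← img_inf_centralizer f hQL hAL h.AQ h.cAQ (Or.inr hm.solvable), h.fQ, img_bot])
    (by rw [← img_inf_centralizer f hQL hPL h.PQ h.cPQ (Or.inr hm.solvable), hm.cent_eq,
      img_qmk_eq_bot_iff (hm.der_lt.le.trans hQL)])
    (by rw [← img_commutator hPL hAL, commutator_eq_of_fpf h.AP h.cAP hsP h.fP]) (img_mono f hR)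
    (fun y hy hyR => by
      obtain ⟨a, haL, ha, rfl⟩ := mem_img'.1 hy
      have haR : a ∉ R := fun h1 => hyR (mem_img_of_mem f haL h1)
      have h1 : MulAut.conj a • R ≤ A :=
        (conj_smul_mono a hR).trans (conj_smul_eq_of_mem_normalizer (le_normalizer ha)).le
      rw [← img_conj haL, ← img_sup (hR.trans hAL) (h1.trans hAL),
        hA.sup_eq hR h1 hp (by rwa [card_conj_smul]) fun h2 => hn ?_]
      rw [← hA.eq_of_lt hR0 (R' := A ⊓ normalizer (R : Set G)) (lt_of_le_of_ne
        (le_inf hR le_normalizer) fun h3 => haR (h3 ▸ ⟨ha, mem_normalizer_iff_conj_smul_eq.2 h2⟩))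
        inf_le_left]
      exact inf_le_right)
    (coprime_img f h.cPQ) (coprime_img f cR)
  rw [← img_commutator hPL (hR.trans hAL), ← img_sup (hNP.trans hPL) (hR.trans hAL)] at key
  exact (img_qmk_eq_bot_iff (inf_le_left.trans hQL)).1
    (le_bot_iff.1 ((img_subcent_le f _ _).trans key.le))

theorem ward_step_faithful {s q : ℕ} [Fact s.Prime] [hq : Fact q.Prime]
    {A P₀ Q₀ M : Subgroup G} (h₀ : Tw s q A P₀ Q₀ M) (hf₀ : Q₀ ⊓ centralizer (M : Set G) = ⊥)
    (hA : TwoP A) : ⁅P₀, A⁆ ≤ centralizer (Q₀ : Set G) := by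
  by_contra hne
  obtain ⟨P, Q, -, hQ₀, h, hm, hPT, hmin⟩ := h₀.exists_min_pair le_rfl le_normalizer hne
  have hsP := Coprime.isSolvable_of_isPGroup h.hP
  replace hmin : ∀ U : Subgroup G, U < P → A ≤ normalizer (U : Set G) →
      U ≤ centralizer (Q : Set G) := fun U hU hAU => by
    have := hmin U hU hAU
    rwa [commutator_eq_of_fpf hAU (Coprime.hcop_mono h.cAP le_rfl hU.le)
      (isSolvable_subgroup_of_le hU.le hsP) (le_bot_iff.1 (h.fP ▸ inf_le_inf_right _ hU.le))] at this
  have hf : Q ⊓ centralizer (M : Set G) = ⊥ := le_bot_iff.1 (hf₀ ▸ inf_le_inf_right _ hQ₀)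
  have hPQ : ¬ P ≤ centralizer (Q : Set G) := fun h1 => hm.ne (le_centralizer_iff.1 h1)
  have hcop : ∀ {R : Subgroup G}, R ≤ A →
      (Nat.card (⁅P, R⁆ ⊔ R : Subgroup G)).Coprime (Nat.card Q) := fun {R} hR =>
    Nat.Coprime.coprime_dvd_left (card_sup_dvd_of_le_normalizer (right_le_normalizer_commutator P R))
      (Nat.Coprime.mul_left (Coprime.hcop_mono h.cPQ
        (commutator_le_left_of_le_normalizer (hR.trans h.AP)) le_rfl)
        (Coprime.hcop_mono h.cAQ hR le_rfl))
  by_cases hab : ⁅Q, Q⁆ = ⊥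
  · have hQQ : Q ≤ centralizer (Q : Set G) := commutator_eq_bot_iff_le_centralizer.1 hab
    have : IsMulCommutative Q := le_centralizer_iff_isMulCommutative.1 hQQ
    obtain ⟨W, hWQ, hWi, hW⟩ : ∃ W : Subgroup G, W ≤ Q ∧ W.relIndex Q = q ∧
        ¬ M ⊓ centralizer (W : Set G) ≤ centralizer (Q : Set G) := by
      by_contra hcon
      push Not at hcon
      have := Coprime.le_of_forall_hyperplane (p := q)
        (fun x hx => mem_bot.1 (hab ▸ hm.pow_mem hx)) hm.ne_bot h.QM h.cMQ.symm hcon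
      exact hm.ne_bot (le_bot_iff.1 (hf ▸ le_inf le_rfl (le_centralizer_iff.1 this)))
    have hWne : ¬ Q ≤ W := fun h1 => hq.out.one_lt.ne' (hWi ▸ relIndex_eq_one.2 h1)
    set S : Subgroup G := commLe Q W with hS
    have hall : ∀ g ∈ P, ∃ b ∈ A, b ≠ 1 ∧ g⁻¹ * b * g ∈ S := by
      intro g hg
      have hgQ := conj_smul_eq_of_mem_normalizer (h.PQ hg)
      have hW' : MulAut.conj g • W ≤ Q := (conj_smul_mono g hWQ).trans hgQ.le
      obtain ⟨B, K, hBA, hWK, hQK, hd⟩ := exists_ceData h.AQ h.QM h.AM h.solM h.cMQ h.cAM.symm h.fM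
        le_rfl hQQ h.AQ hW' le_rfl (fun h1 => hW (by
          rw [← conj_smul_centralizer, ← conj_smul_eq_of_mem_normalizer (h.PM hg), ← hgQ,
            ← conj_smul_centralizer, ← smul_inf] at h1
          exact pointwise_smul_le_pointwise_smul_iff.1 h1))
      have hK : K = MulAut.conj g • W := by
        have h1 := relIndex_mul_relIndex _ _ _ hWK hd.le
        rw [← hgQ, relIndex_conj_smul, hWi, hgQ] at h1
        rcases (Nat.dvd_prime hq.out).1 (Dvd.intro _ h1) with h2 | h2
        · exact le_antisymm (relIndex_eq_one.1 h2) hWK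
        · rw [h2] at h1
          exact (hQK (relIndex_eq_one.1 (Nat.eq_of_mul_eq_mul_left hq.out.pos
            (h1.trans (mul_one q).symm)))).elim
      obtain ⟨b, hb, hb1⟩ := (Subgroup.bot_or_exists_ne_one B).resolve_left hd.ne_bot
      refine ⟨b, hBA hb, hb1, ?_⟩
      have h1 := hd.commutator_le le_rfl (hBA.trans h.AQ)
      have h2 := hd.le_normalizer le_rfl (hBA.trans h.AQ) hb
      rw [hK, ← conj_smul_normalizer, mem_conj_smul] at h2
      refine ⟨h2, fun c hc => ?_⟩
      rw [hK, commutator_comm] at h1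
      have h3 := mem_conj_smul.1 (h1 (commutator_mem_commutator hb
        (conj_mem_of_mem_normalizer (h.PQ hg) hc)))
      convert h3 using 1
      simp only [commutatorElement_def]; group
    set R : Subgroup G := A ⊓ (P ⊔ S ⊓ normalizer (P : Set G)) with hR
    have hmem : ∀ g ∈ P, ∀ b ∈ A, g⁻¹ * b * g ∈ S → b ∈ R := fun g hg b hb h1 => by
      refine ⟨hb, ?_⟩
      have h3 : b = g * (g⁻¹ * b * g) * g⁻¹ := by group
      rw [h3]
      have h4 : g ∈ normalizer (P : Set G) := le_normalizer hg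
      exact mul_mem (mul_mem (mem_sup_left hg) (mem_sup_right (mem_inf.2 ⟨h1, mul_mem (mul_mem
        (inv_mem h4) (h.AP hb)) h4⟩))) (mem_sup_left (inv_mem hg))
    have hQS : ∀ {X : Subgroup G}, X ≤ S → ⁅Q, X⁆ ≠ Q := fun hX h1 => hWne (by
      rw [← h1, commutator_comm]; exact (le_commLe_iff.1 hX).2)
    have hRA : R < A := by
      refine lt_of_le_of_ne inf_le_left fun h1 => ?_
      obtain ⟨k, hk, h2⟩ := Coprime.exists_conj_le h.AP h.cAP (Or.inr hsP) (L := S) fun a ha => by
        obtain ⟨n, hn, l, hl, rfl⟩ := (mem_sup_of_le_normalizer inf_le_right).1 (h1.ge ha).2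
        exact ⟨n⁻¹, inv_mem hn, by simpa using hl.1⟩
      refine hQS h2 ?_
      conv_lhs => rw [← conj_smul_eq_of_mem_normalizer (h.PQ hk)]
      rw [← conj_smul_commutator, commutator_eq_of_fpf h.AQ h.cAQ hm.solvable h.fQ,
        conj_smul_eq_of_mem_normalizer (h.PQ hk)]
    obtain ⟨b, hb, hb1, hbS⟩ := hall 1 (one_mem _)
    have hp := hA.prime hRA fun h1 => hb1 (mem_bot.1 (h1 ▸ hmem 1 (one_mem _) b hb hbS))
    have hconj : ∀ g ∈ P, ∀ x ∈ R, g⁻¹ * x * g ∈ S := fun g hg => by
      obtain ⟨b, hb, hb1, hbS⟩ := hall g hg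
      rw [← le_conj_smul_iff, ← zpowers_eq_of_prime_card hp (hmem g hg b hb hbS) hb1, zpowers_le,
        mem_conj_smul]
      exact hbS
    have hRS : R ≤ S := fun x hx => by simpa using hconj 1 (one_mem _) x hx
    have h1 := inf_centralizer_le_der h hA hm hmin hRA.le hp
    refine hQS (X := ⁅P, R⁆ ⊔ R) (sup_le (commutator_le.2 fun g hg x hx => ?_) hRS)
      (commutator_eq_of_fpf (sup_le ((commutator_le_left_of_le_normalizer
        (hRA.le.trans h.AP)).trans h.PQ) (hRA.le.trans h.AQ)) (hcop hRA.le) hm.solvable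
        (le_bot_iff.1 (h1.trans hab.le)))
    have := hconj g⁻¹ (inv_mem hg) x hx
    rw [inv_inv] at this
    exact mul_mem this (inv_mem (hRS hx))
  set Z : Subgroup G := ⁅Q, Q⁆ with hZ
  have hZQ : Z ≤ Q := hm.der_lt.le
  have hAZ : A ≤ normalizer (Z : Set G) := le_normalizer_commutator h.AQ h.AQ
  obtain ⟨B, K, hBA, hEK, hd⟩ := h.exists_ceData hf hZQ hm.cent_der hAZ le_rfl hab
  have hp := hA.prime hBA hd.ne_bot
  have : Fact (Nat.card B).Prime := ⟨hp⟩
  have : IsCyclic B := isCyclic_of_prime_card rfl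
  have cBQ := Coprime.hcop_mono h.cAQ hBA.le le_rfl
  have cBP := Coprime.hcop_mono h.cAP hBA.le le_rfl
  have hBQ := hBA.le.trans h.AQ
  have hBP := hBA.le.trans h.AP
  obtain ⟨d, hd1, hd2⟩ := hd.count hBQ cBQ hm.cent_der hZQ le_rfl le_rfl
    fun x hx hx1 => (zpowers_eq_of_prime_card hp hx hx1).ge
  obtain ⟨L, Γ, _, _, f, hQL, hPL, hBL, hker, he, hPZ', hBZ', hY⟩ := exists_hat hm hBQ hBP hd hEK
  have hcB : Nat.card (img f B) = Nat.card B := card_img_of_coprime hBL
    (Coprime.hcop_mono cBQ le_rfl hker)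
  have hNP : ⁅P, B⁆ ≤ P := commutator_le_left_of_le_normalizer hBP
  have hP0 : P ≠ ⊥ := by rintro rfl; exact hPQ bot_le
  refine he.not_prime_config (solvable_img f hm.solvable) (P := img f P) (R := img f B)
    (isPGroup_img f h.hP) (by rwa [hcB]) (img_norms f hBP) (img_norms f h.PQ) (img_norms f hBQ)
    hPZ' hBZ' (coprime_img f h.cPQ) (coprime_img f cBQ) (coprime_img f cBP) ?_ ?_ ?_ (d := d)
    (by rw [← img_commutator hQL hBL, relIndex_hat hQL hY
      (commutator_le_left_of_le_normalizer hBQ), hd1]) (by rwa [hcB])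
  · rw [← img_commutator hPL hPL]
    exact img_cents f (hmin _ (commutator_self_lt_of_isSolvable hsP hP0)
      (le_normalizer_commutator h.AP h.AP))
  · intro h1
    have h2 := he.prime
    rw [← commutator_eq_bot_iff_le_centralizer', ← img_commutator hQL hPL, hm.comm] at h1
    rw [h1, bot_inf_eq, card_bot] at h2
    exact Nat.not_prime_one h2
  · rw [← img_commutator hPL hBL, ← img_sup (hNP.trans hPL) hBL, ← img_inf_centralizer f hQL
      (sup_le (hNP.trans hPL) hBL) (sup_le (hNP.trans h.PQ) hBQ) (hcop hBA.le) (Or.inr hm.solvable)]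
    exact img_cents f ((inf_centralizer_le_der h hA hm hmin hBA.le hp).trans hm.der_cent)

theorem ward_step {s q : ℕ} [Fact s.Prime] [Fact q.Prime] {A P Q M : Subgroup G}
    (h : Tw s q A P Q M) (hA : TwoP A) : ⁅Q, ⁅P, A⁆⁆ ≤ centralizer (M : Set G) := by
  obtain ⟨L, Γ, _, _, f, hAL, hPL, hQL, hker, hC, h', hf⟩ := h.reduce
  refine le_trans ((img_cents_iff hQL ((commutator_le_sup P A).trans (sup_le hPL hAL))).1 ?_) hC
  rw [img_commutator hPL hAL]
  exact le_centralizer_iff.1 (ward_step_faithful h' hf (hA.img f hAL hker))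

theorem map_le_fittingOf_of_twoP {K A : Subgroup G} [K.Normal] (hsol : Group.IsSolvable K)
    (hA : TwoP A) (hcop : (Nat.card A).Coprime (Nat.card K))
    (hfix : K ⊓ centralizer (A : Set G) = ⊥) :
    K.map (QuotientGroup.mk' (fittingOf K)) ≤
      fittingOf (K.map (QuotientGroup.mk' (fittingOf K))) := by
  have := commutator_le_fittingOf_two hsol hcop le_rfl
    fun s q _ _ P Q hsq hPK hQK hP hQ hPQ hAP hAQ => ward_step (tw_of_fpf hsol hcop hfix hPK hQK hP hQ
      (IsPGroup.coprime_card_of_ne s q hsq P Q hP hQ) hPQ hAP hAQ) hA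
  rwa [commutator_eq_of_fpf (le_normalizer_of_normal _ _) hcop hsol hfix] at this

/-- Transport to an abstract action. -/
theorem iter_two_eq_bot_of_action {X : Type u} {A : Type v} [Group X] [Finite X] [Group A]
    [Finite A] (hX : Group.IsSolvable X) (φ : A →* MulAut X) {p r : ℕ} (hp : p.Prime)
    (hr : r.Prime) (hA : Nat.card A = p * r) (hnc : ¬ IsCyclic A)
    (hcop : (Nat.card A).Coprime (Nat.card X)) (hfpf : ∀ g : X, (∀ a, φ a g = g) → g = 1) :
    nilRes^[2] (⊤ : Subgroup X) = ⊥ := by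
  rw [← iter_map_eq_bot_iff _ (SemidirectProduct.inl_injective (φ := φ))]
  refine iter_two_eq_bot_of_le (map_le_fittingOf_of_twoP (K := Act.L φ ⊤) (A := Act.R φ ⊤)
    (Act.isSolvable_L.2 inferInstance) ⟨⟨p, r, hp, hr, by rw [Act.card_R_top, hA]⟩, fun h => hnc ?_⟩
    (by rwa [Act.card_R_top, Act.card_L_top]) ?_)
  · exact (topEquiv.isCyclic).1 (Act.isCyclic_R.1 h)
  · rw [Act.L_top_inf_centralizer_R, Act.L_eq_bot_iff, eq_bot_iff]
    exact fun x hx => mem_bot.2 (hfpf x (Act.mem_fix_top.1 hx))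

end Cfsg.Lib.Solv.FH
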