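import Mathlib.LinearAlgebra.Matrix.GeneralLinearGroup.Defs
import Mathlib.LinearAlgebra.Matrix.Reindex
import Mathlib.Algebra.Field.ZMod
import Cfsg.Agent.Solv.ExtraSub

/-!
# The Heisenberg group of `ι`-tuples over a commutative ring
-/

set_option autoImplicit false

open scoped commutatorElement
open Subgroup

namespace Cfsg.Lib.Solv.PG

/-- Triples `(a, b, c)` with `(a, b, c) (a', b', c') = (a + a', b + b', c + c' + a ⬝ b')`. -/
@[ext] structure Heis (ι : Type) (F : Type) where
  /-- first vector -/
  a : ι → F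
  /-- second vector -/
  b : ι → F
  /-- central coordinate -/
  c : F

namespace Heis

variable {ι F : Type} [Fintype ι] [CommRing F]

instance instMulHeis : Mul (Heis ι F) := ⟨fun x y => ⟨x.a + y.a, x.b + y.b, x.c + y.c + x.a ⬝ᵥ y.b⟩⟩
instance instOneHeis : One (Heis ι F) := ⟨⟨0, 0, 0⟩⟩
instance instInvHeis : Inv (Heis ι F) := ⟨fun x => ⟨-x.a, -x.b, x.a ⬝ᵥ x.b - x.c⟩⟩

@[simp] theorem mul_a (x y : Heis ι F) : (x * y).a = x.a + y.a := rfl
@[simp] theorem mul_b (x y : Heis ι F) : (x * y).b = x.b + y.b := rfl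
@[simp] theorem mul_c (x y : Heis ι F) : (x * y).c = x.c + y.c + x.a ⬝ᵥ y.b := rfl
omit [Fintype ι] in
@[simp] theorem one_a : (1 : Heis ι F).a = 0 := rfl
omit [Fintype ι] in
@[simp] theorem one_b : (1 : Heis ι F).b = 0 := rfl
omit [Fintype ι] in
@[simp] theorem one_c : (1 : Heis ι F).c = 0 := rfl
@[simp] theorem inv_a (x : Heis ι F) : x⁻¹.a = -x.a := rfl
@[simp] theorem inv_b (x : Heis ι F) : x⁻¹.b = -x.b := rfl
@[simp] theorem inv_c (x : Heis ι F) : x⁻¹.c = x.a ⬝ᵥ x.b - x.c := rfl

instance instGroupHeis : Group (Heis ι F) := Group.ofLeftAxioms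
  (fun x y z => by ext <;> simp [add_assoc, add_dotProduct, dotProduct_add]; ring)
  (fun x => by ext <;> simp) (fun x => by ext <;> simp)

/-- The underlying set is a product. -/
def equivProd : Heis ι F ≃ (ι → F) × (ι → F) × F where
  toFun x := (x.a, x.b, x.c)
  invFun t := ⟨t.1, t.2.1, t.2.2⟩
  left_inv _ := rfl
  right_inv _ := rfl

omit [CommRing F] in
theorem card_eq : Nat.card (Heis ι F) = Nat.card F ^ (1 + 2 * Fintype.card ι) := by
  rw [Nat.card_congr equivProd, Nat.card_prod, Nat.card_prod, Nat.card_fun,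
    Nat.card_eq_fintype_card (α := ι)]
  ring

instance instFiniteHeis [Finite F] : Finite (Heis ι F) := Finite.of_equiv _ equivProd.symm

theorem mem_center_iff' {x : Heis ι F} : x ∈ center (Heis ι F) ↔ x.a = 0 ∧ x.b = 0 := by
  classical
  rw [mem_center_iff]
  refine ⟨fun h => ⟨funext fun i => ?_, funext fun i => ?_⟩, fun h g => ?_⟩
  · simpa using (congrArg Heis.c (h ⟨0, Pi.single i 1, 0⟩)).symm
  · simpa using congrArg Heis.c (h ⟨Pi.single i 1, 0, 0⟩)
  · ext <;> simp [h.1, h.2, add_comm]

theorem card_center : Nat.card (center (Heis ι F)) = Nat.card F := Nat.card_congr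
  { toFun := fun x => x.1.c
    invFun := fun c => ⟨⟨0, 0, c⟩, mem_center_iff'.mpr ⟨rfl, rfl⟩⟩
    left_inv := fun x => Subtype.ext (Heis.ext (mem_center_iff'.mp x.2).1.symm
      (mem_center_iff'.mp x.2).2.symm rfl)
    right_inv := fun _ => rfl }

theorem classTwo : Trans.ES.ClassTwo (Heis ι F) := fun x y =>
  mem_center_iff'.mpr ⟨by simp [commutatorElement_def], by simp [commutatorElement_def]⟩

theorem pow_eq (x : Heis ι F) (k : ℕ) :
    x ^ k = ⟨k • x.a, k • x.b, k • x.c + k.choose 2 • (x.a ⬝ᵥ x.b)⟩ := by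
  induction k with
  | zero => ext <;> simp
  | succ k ih =>
    rw [pow_succ, ih]
    refine Heis.ext (succ_nsmul _ _).symm (succ_nsmul _ _).symm ?_
    simp only [mul_c, smul_dotProduct, Nat.choose_succ_succ, Nat.choose_one_right]
    simp [add_mul]
    ring

theorem isExtraspecial [Nonempty ι] (p : ℕ) [Fact p.Prime] : IsExtraspecial p (Heis ι (ZMod p)) := by
  refine Trans.ES.IsPre.isExtraspecial ⟨by rw [card_center, Nat.card_zmod], classTwo⟩ fun h => ?_
  have h1 : (⟨fun _ => 1, 0, 0⟩ : Heis ι (ZMod p)) ∈ center _ := h ▸ mem_top _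
  exact one_ne_zero (congrFun (mem_center_iff'.mp h1).1 (Classical.arbitrary ι))

theorem pow_prime_eq_one {p : ℕ} [hp : Fact p.Prime] (h2 : p ≠ 2) (x : Heis ι (ZMod p)) :
    x ^ p = 1 := by
  obtain ⟨k, hk⟩ := hp.out.dvd_choose_self two_ne_zero (lt_of_le_of_ne hp.out.two_le h2.symm)
  rw [pow_eq, hk]
  ext <;> simp

variable [DecidableEq ι]

/-- The unitriangular matrix of a Heisenberg triple. -/
def mat (x : Heis ι F) : Matrix (Option (Option ι)) (Option (Option ι)) F
  | none, none => 1
  | none, some none => x.c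
  | none, some (some j) => x.a j
  | some none, some none => 1
  | some none, _ => 0
  | some (some _), none => 0
  | some (some i), some none => x.b i
  | some (some i), some (some j) => if i = j then 1 else 0

/-- The faithful matrix representation of degree `|ι| + 2`. -/
def matHom : Heis ι F →* Matrix (Option (Option ι)) (Option (Option ι)) F where
  toFun := mat
  map_one' := by
    ext i j
    rcases i with _ | _ | i <;> rcases j with _ | _ | j <;> simp [mat, Matrix.one_apply]
  map_mul' x y := by
    ext i j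
    rcases i with _ | _ | i <;> rcases j with _ | _ | j <;>
      simp [mat, Matrix.mul_apply, Fintype.sum_option, dotProduct] <;> ring

theorem matHom_injective : Function.Injective (matHom : Heis ι F →* _) := fun _ _ h =>
  Heis.ext (funext fun j => congrFun (congrFun h none) (some (some j)))
    (funext fun i => congrFun (congrFun h (some (some i))) (some none))
    (congrFun (congrFun h none) (some none))

end Heis

end Cfsg.Lib.Solv.PG
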