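import Cfsg.Agent.Solv.Schur2
import Mathlib.GroupTheory.FreeGroup.NielsenSchreier

/-! Restriction and corestriction (transfer) between the Schur multiplier of a group and of a subgroup. -/

set_option autoImplicit false

open scoped commutatorElement

namespace Cfsg.Lib.Solv

theorem eq_one_of_pow_abelianization_free {F : Type*} [Group F] [IsFreeGroup F] {x : Abelianization F}
    {n : ℕ} (hn : n ≠ 0) (h : x ^ n = 1) : x = 1 := by
  have := free_additive_abelianization_freeGroup (IsFreeGroup.Generators F)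
  let e := (IsFreeGroup.toFreeGroup F).abelianizationCongr
  have h1 : (n : ℤ) • Additive.ofMul (e x) = 0 := by
    rw [natCast_zsmul, ← ofMul_pow, ← map_pow, h, map_one, ofMul_one]
  rcases smul_eq_zero.1 h1 with h2 | h2
  · exact absurd (by exact_mod_cast h2) hn
  · exact e.injective (by rw [map_one]; exact h2)

variable {F Q : Type*} [Group F] [Group Q]

theorem conj_mem_comap_of_ker (π : F →* Q) (U : Subgroup Q) (t : F) (r : π.ker) :
    t⁻¹ * r * t ∈ U.comap π := by
  have : π (t⁻¹ * r * t) = 1 := by simp [(MonoidHom.mem_ker.1 r.2)]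
  rw [Subgroup.mem_comap, this]; exact U.one_mem

theorem hopfConj_mem_ker (π : F →* Q) (U : Subgroup Q) (t : F) (r : π.ker) :
    (((⟨t⁻¹ * r * t, conj_mem_comap_of_ker π U t r⟩ : U.comap π) : HopfE (π.subgroupComap U))) ∈
      (hopfπ (π.subgroupComap U)).ker := by
  rw [MonoidHom.mem_ker, hopfπ_mk]
  apply Subtype.ext
  change π (t⁻¹ * r * t) = 1
  simp [(MonoidHom.mem_ker.1 r.2)]

/-- `r ↦ t⁻¹ r t` modulo `[R, F_U]`. -/
def hopfConj (π : F →* Q) (U : Subgroup Q) (t : F) :
    π.ker →* Subgroup.center (HopfE (π.subgroupComap U)) where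
  toFun r := ⟨((⟨t⁻¹ * r * t, conj_mem_comap_of_ker π U t r⟩ : U.comap π) : HopfE _),
    hopfπ_ker_le_center _ (hopfConj_mem_ker π U t r)⟩
  map_one' := Subtype.ext (by
    change (QuotientGroup.mk _ : HopfE _) = QuotientGroup.mk 1
    congr 1; apply Subtype.ext; simp)
  map_mul' a b := Subtype.ext (by
    change (QuotientGroup.mk _ : HopfE _) = QuotientGroup.mk (_ * _)
    congr 1; apply Subtype.ext; simp [mul_assoc])

theorem hopfConj_mul (π : F →* Q) (U : Subgroup Q) (t : F) (h : U.comap π) (r : π.ker) :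
    hopfConj π U (t * h) r = hopfConj π U t r := by
  apply Subtype.ext
  have hc := Subgroup.mem_center_iff.1 (hopfConj π U t r).2 (h : HopfE (π.subgroupComap U))
  have : ((hopfConj π U (t * h) r : Subgroup.center _) : HopfE (π.subgroupComap U)) =
      (h : HopfE (π.subgroupComap U))⁻¹ * (hopfConj π U t r : Subgroup.center _) * h := by
    change (QuotientGroup.mk _ : HopfE _) = QuotientGroup.mk (h⁻¹ * _ * h)
    congr 1; apply Subtype.ext; simp [mul_assoc]
  rw [this, mul_assoc, ← hc, inv_mul_cancel_left]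

theorem exists_hopf_transfer [IsFreeGroup F] [Finite Q] {π : F →* Q} (hπ : Function.Surjective π)
    (U : Subgroup Q) :
    ∃ (ι : hopfM π →* hopfM (π.subgroupComap U)) (ρ : hopfM (π.subgroupComap U) →* hopfM π),
      ∀ a, ρ (ι a) = a ^ U.index := by
  classical
  have hidx : (U.comap π).index = U.index := U.index_comap_of_surjective hπ
  have : (U.comap π).FiniteIndex := ⟨by rw [hidx]; exact U.index_ne_zero_of_finite⟩
  let _ : Fintype (F ⧸ U.comap π) := Fintype.ofFinite _
  let _ : CommGroup (Subgroup.center (HopfE (π.subgroupComap U))) :=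
    { (inferInstance : Group _) with
      mul_comm := fun a b => Subtype.ext (Subgroup.mem_center_iff.1 b.2 a) }
  let T0 : π.ker →* Subgroup.center (HopfE (π.subgroupComap U)) :=
    ∏ q : F ⧸ U.comap π, hopfConj π U q.out
  have hT0 : ∀ r, T0 r = ∏ q : F ⧸ U.comap π, hopfConj π U q.out r := fun r =>
    MonoidHom.finsetProd_apply _ _ _
  have hconj : ∀ (f : F) (r : π.ker), T0 ⟨f * r * f⁻¹, π.normal_ker.conj_mem _ r.2 f⟩ = T0 r := by
    intro f r
    rw [hT0, hT0]
    refine Fintype.prod_equiv (MulAction.toPerm f⁻¹) _ _ fun q => ?_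
    obtain ⟨h, hh⟩ := QuotientGroup.mk_out_eq_mul (U.comap π) (f⁻¹ * q.out)
    have h1 : MulAction.toPerm f⁻¹ q = (QuotientGroup.mk (f⁻¹ * q.out) : F ⧸ U.comap π) :=
      (MulAction.Quotient.mk_smul_out (U.comap π) f⁻¹ q).symm
    rw [h1, hh, hopfConj_mul]
    apply Subtype.ext
    change (QuotientGroup.mk _ : HopfE _) = QuotientGroup.mk _
    congr 1; apply Subtype.ext; simp [mul_assoc]
  have hkill : ⁅π.ker, (⊤ : Subgroup F)⁆ ≤ T0.ker.map π.ker.subtype := by
    rw [Subgroup.commutator_le]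
    intro r hr f _
    refine ⟨⟨r, hr⟩ * (⟨f * r * f⁻¹, π.normal_ker.conj_mem _ hr f⟩ : π.ker)⁻¹, ?_, ?_⟩
    · change T0 _ = 1
      rw [map_mul, map_inv, hconj f ⟨r, hr⟩, mul_inv_cancel]
    · simp [commutatorElement_def, mul_assoc]
  let m : π.ker →* (hopfπ π).ker :=
    ((QuotientGroup.mk' ⁅π.ker, (⊤ : Subgroup F)⁆).comp π.ker.subtype).codRestrict _ (fun r => r.2)
  have hm : Function.Surjective m := by
    rintro ⟨x, hx⟩
    obtain ⟨x, rfl⟩ := QuotientGroup.mk_surjective x
    exact ⟨⟨x, hx⟩, rfl⟩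
  obtain ⟨T, hT⟩ := exists_comp_eq_of_ker_le m hm T0 (by
    intro r hr
    have h1 : (r : F) ∈ ⁅π.ker, (⊤ : Subgroup F)⁆ :=
      (QuotientGroup.eq_one_iff _).1 (congrArg Subtype.val hr)
    obtain ⟨y, hy, hyr⟩ := hkill h1
    have : y = r := Subtype.ext hyr
    exact this ▸ hy)
  have hTm : ∀ r, T (m r) = T0 r := fun r => DFunLike.congr_fun hT r
  obtain ⟨ν, hν, hν'⟩ := exists_hopf_factor (π.subgroupComap U) (hopfπ π) (hopfπ_ker_le_center π)
    U.subtype ((QuotientGroup.mk' ⁅π.ker, (⊤ : Subgroup F)⁆).comp (U.comap π).subtype)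
    (by ext x; rfl)
  have hind : ∀ (r : π.ker) (s : Finset (F ⧸ U.comap π)),
      ((∏ q ∈ s, hopfConj π U q.out r : Subgroup.center _) : HopfE (π.subgroupComap U)) ∈
        (hopfπ (π.subgroupComap U)).ker ∧
      ν ((∏ q ∈ s, hopfConj π U q.out r : Subgroup.center _) : HopfE (π.subgroupComap U)) =
        ((r : F) : HopfE π) ^ s.card := by
    intro r s
    induction s using Finset.induction_on with
    | empty => exact ⟨Subgroup.one_mem _, by simp⟩
    | insert q s hq ih =>
      rw [Finset.prod_insert hq, Finset.card_insert_of_notMem hq]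
      refine ⟨Subgroup.mul_mem _ (hopfConj_mem_ker π U _ r) ih.1, ?_⟩
      rw [Subgroup.coe_mul, map_mul, ih.2, pow_succ']
      congr 1
      refine (hν _).trans ?_
      have hc := Subgroup.mem_center_iff.1 (hopfπ_ker_le_center π (m r).2) (q.out : HopfE π)
      change ((q.out : F) : HopfE π)⁻¹ * ((r : F) : HopfE π) * (q.out : F) = _
      change _ * ((r : F) : HopfE π) = ((r : F) : HopfE π) * _ at hc
      rw [mul_assoc, ← hc, inv_mul_cancel_left]
  let j : hopfM π →* (hopfπ π).ker := Subgroup.inclusion inf_le_left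
  let ι0 : hopfM π →* HopfE (π.subgroupComap U) := (Subgroup.subtype _).comp (T.comp j)
  have hι0 : ∀ a, ι0 a ∈ hopfM (π.subgroupComap U) := by
    intro a
    constructor
    · obtain ⟨r, hr⟩ := hm (j a)
      change (T (j a)).1 ∈ (hopfπ (π.subgroupComap U)).ker
      rw [← hr, hTm, hT0]
      exact (hind r _).1
    · change ι0 a ∈ commutator _
      rw [← hopfAb_ker, MonoidHom.mem_ker]
      apply eq_one_of_pow_abelianization_free (orderOf_pos a).ne'
      rw [← map_pow, ← map_pow, pow_orderOf_eq_one, map_one, map_one]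
  have hρ0 : ∀ b : hopfM (π.subgroupComap U), ν b ∈ hopfM π := by
    intro b
    refine ⟨?_, map_mem_commutator ν b.2.2⟩
    change hopfπ π (ν b) = 1
    have h1 := DFunLike.congr_fun hν' (b : HopfE _)
    have h2 : hopfπ (π.subgroupComap U) b = 1 := b.2.1
    rw [MonoidHom.comp_apply, MonoidHom.comp_apply, h2, map_one] at h1
    exact h1
  refine ⟨ι0.codRestrict _ hι0, (ν.comp (Subgroup.subtype _)).codRestrict _ hρ0, fun a => ?_⟩
  apply Subtype.ext
  obtain ⟨r, hr⟩ := hm (j a)
  change ν (T (j a)).1 = (a : HopfE π) ^ U.index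
  have ha : (a : HopfE π) = ((r : F) : HopfE π) := (congrArg Subtype.val hr).symm
  rw [← hr, hTm, hT0, (hind r _).2, ha, Finset.card_univ, ← hidx, Subgroup.index,
    Nat.card_eq_fintype_card]

/-- Restriction and corestriction for Schur multipliers: the composite is the index power map. -/
theorem exists_multiplier_transfer {G : Type*} [Group G] [Finite G] (U : Subgroup G) {A B : Type*}
    [CommGroup A] [CommGroup B] (hA : HasSchurMultiplier G A) (hB : HasSchurMultiplier U B) :
    ∃ (ι : A →* B) (ρ : B →* A), ∀ a, ρ (ι a) = a ^ U.index := by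
  obtain ⟨ι, ρ, h⟩ := exists_hopf_transfer (freePres_surjective G) U
  obtain ⟨eA⟩ := (hasSchurMultiplier_iff_hopfM (freePres_surjective G)).1 hA
  obtain ⟨eB⟩ := (hasSchurMultiplier_iff_hopfM
    ((freePres G).subgroupComap_surjective_of_surjective U (freePres_surjective G))).1 hB
  refine ⟨(eB : _ →* B).comp (ι.comp (eA.symm : A →* _)),
    (eA : _ →* A).comp (ρ.comp (eB.symm : B →* _)), fun a => ?_⟩
  simp [h]

end Cfsg.Lib.Solv
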