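import Cfsg.Agent.Solv.Kulakoff

/-!
# Miller's theorem on the number of cyclic subgroups of order `p ^ s` for odd `p`
-/

set_option autoImplicit false

namespace Cfsg.Lib.Solv.Count

open Subgroup Finset
open scoped Pointwise

variable {G : Type*} [Group G] [Finite G] {p : ℕ} [hp : Fact p.Prime]

omit hp in
/-- Elements of order `n` are the generators of the cyclic subgroups of order `n`. -/
theorem cnt_orderOf_eq (n : ℕ) : cnt (fun x : G => orderOf x = n) =
    cnt (fun H : Subgroup G => Nat.card H = n ∧ IsCyclic H) * n.totient := by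
  classical
  have := cnt_mul_eq_cnt_mul (fun x : G => orderOf x = n)
    (fun H : Subgroup G => Nat.card H = n ∧ IsCyclic H) (fun x H => zpowers x = H)
    (c := 1) (d := n.totient)
    (fun x hx => cnt_eq_one (a := zpowers x) ⟨⟨by rw [Nat.card_zpowers, hx], inferInstance⟩, rfl⟩
      fun H hH => hH.2.symm) ?_
  · rwa [mul_one] at this
  · rintro H ⟨h1, h2⟩
    have := Fintype.ofFinite H
    have h3 := IsCyclic.card_orderOf_eq_totient (α := H) (d := n)
      (by rw [← Nat.card_eq_fintype_card, h1])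
    rw [← h3, ← cnt_eq_card_filter]
    symm
    refine cnt_congr_inj Subtype.val Subtype.val_injective (fun x => ?_) ?_
    · rw [orderOf_coe]
      refine ⟨fun h => ⟨h, ?_⟩, fun h => h.1⟩
      exact eq_of_le_of_card_ge (zpowers_le.mpr x.2) (by rw [Nat.card_zpowers, orderOf_coe, h, h1])
    · rintro x ⟨-, hx⟩
      exact ⟨⟨x, hx ▸ mem_zpowers x⟩, rfl⟩

universe u in
theorem miller_aux (hp2 : p ≠ 2) {s : ℕ} (hs : 1 < s) (n : ℕ) :
    ∀ (G : Type u) [Group G] [Finite G], Nat.card G = p ^ n → ¬ IsCyclic G →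
      p ∣ cnt (fun H : Subgroup G => Nat.card H = p ^ s ∧ IsCyclic H) := by
  induction n with
  | zero =>
    intro G _ _ hG hnc
    have := (Nat.card_eq_one_iff_unique.mp hG).1
    exact absurd isCyclic_of_subsingleton hnc
  | succ n ih =>
    intro G _ _ hG hnc
    classical
    have := Fintype.ofFinite (Subgroup G)
    have hP : IsPGroup p G := IsPGroup.of_card hG
    have hM : ∀ M : Subgroup G, M.index = p → Nat.card M = p ^ n := fun M hM =>
      (card_eq_iff_index_eq (hG.trans (pow_succ p _)) _).mpr hM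
    by_cases hsn : s ≤ n
    swap
    · rw [cnt_eq_zero]
      · exact dvd_zero p
      · rintro H ⟨h1, h2⟩
        have : H = ⊤ := eq_top_of_le_card H (by
          rw [hG, h1]; exact Nat.pow_le_pow_right hp.out.pos (by omega))
        subst this
        exact hnc (isCyclic_of_surjective _ topEquiv.surjective)
    have h1 := sum_cnt_comm (fun M : Subgroup G => M.index = p)
      (fun H : Subgroup G => Nat.card H = p ^ s ∧ IsCyclic H) (fun M H => H ≤ M)
    have h2 := sum_modEq_cnt_mul (fun H : Subgroup G => Nat.card H = p ^ s ∧ IsCyclic H)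
      (fun H => cnt (fun M : Subgroup G => M.index = p ∧ H ≤ M)) (c := 1) (n := p)
      (fun H hH => cnt_max_above_modEq_one hP (by
        rintro rfl
        have := hH.2
        exact hnc (isCyclic_of_surjective _ topEquiv.surjective)))
    rw [mul_one, ← h1, sum_filter_split _ (fun M : Subgroup G => IsCyclic M)] at h2
    refine (h2.dvd_iff dvd_rfl).mp (dvd_add ?_ (dvd_sum fun M hM' => ?_))
    · rw [sum_eq_cnt_mul _ _ (c := 1), mul_one]
      · exact dvd_cnt_cyclic_max_of_odd hp2 (m := n - 2) (hG.trans (by congr 1; omega)) hnc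
      · rintro M ⟨h3, h4⟩
        rw [← cnt_card_eq_one_of_isCyclic M (k := s) (hM M h3 ▸ pow_dvd_pow p hsn)]
        exact cnt_congr fun H => ⟨fun h => ⟨h.1.1, h.2⟩, fun h =>
          ⟨⟨h.1, isCyclic_of_injective _ (inclusion_injective h.2)⟩, h.2⟩⟩
    · obtain ⟨h3, h4⟩ := (mem_filter.mp hM').2
      rw [← cnt_subgroup M (P := fun H => Nat.card H = p ^ s ∧ IsCyclic H)]
      · exact ih M (hM M h3) h4
      · intro H
        rw [card_map_subtype]
        exact and_congr_right fun _ => (H.equivMapOfInjective _ M.subtype_injective).isCyclic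

/-- **Miller**: in a group with non-cyclic Sylow `p`-subgroups, `p` odd, the number of cyclic
subgroups of order `p ^ s`, `s ≥ 2`, is divisible by `p`. -/
theorem miller (hp2 : p ≠ 2) (P : Sylow p G) (hP : ¬ IsCyclic P) {s : ℕ} (hs : 1 < s) :
    p ∣ cnt (fun H : Subgroup G => Nat.card H = p ^ s ∧ IsCyclic H) := by
  have hinv : ∀ (g : G) (H : Subgroup G), (Nat.card H = p ^ s ∧ IsCyclic H) →
      (Nat.card (MulAut.conj g • H : Subgroup G) = p ^ s ∧
        IsCyclic (MulAut.conj g • H : Subgroup G)) := by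
    rintro g H ⟨h1, h2⟩
    have e := H.equivSMul (MulAut.conj g)
    exact ⟨by rw [← Nat.card_congr e.toEquiv, h1], isCyclic_of_surjective _ e.surjective⟩
  have h1 := cnt_modEq_cnt_le_normalizer P.isPGroup'
    (fun H : Subgroup G => Nat.card H = p ^ s ∧ IsCyclic H) fun g _ H hH => hinv g H hH
  have h2 := cnt_modEq_cnt_le_normalizer P.isPGroup'
    (fun H : Subgroup G => (Nat.card H = p ^ s ∧ IsCyclic H) ∧ H ≤ P)
    fun g hg H hH => ⟨hinv g H hH.1, (conj_smul_le_iff_of_mem_normalizer (le_normalizer hg)).mpr hH.2⟩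
  have h3 : cnt (fun H : Subgroup G => (Nat.card H = p ^ s ∧ IsCyclic H) ∧
      (P : Subgroup G) ≤ normalizer (H : Set G)) = cnt (fun H : Subgroup G =>
        ((Nat.card H = p ^ s ∧ IsCyclic H) ∧ H ≤ P) ∧ (P : Subgroup G) ≤ normalizer (H : Set G)) := by
    refine cnt_congr fun H => ⟨fun h => ⟨⟨h.1, ?_⟩, h.2⟩, fun h => ⟨h.1.1, h.2⟩⟩
    have h4 := P.is_maximal' (IsPGroup.to_sup_of_normal_right' P.isPGroup'
      (IsPGroup.of_card h.1.1) h.2) le_sup_left
    exact h4 ▸ le_sup_right
  rw [h1.dvd_iff dvd_rfl, h3, ← h2.dvd_iff dvd_rfl,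
    ← cnt_subgroup (P : Subgroup G) (P := fun H => Nat.card H = p ^ s ∧ IsCyclic H)]
  · obtain ⟨n, hn⟩ := IsPGroup.iff_card.mp P.isPGroup'
    exact miller_aux hp2 hs n P hn hP
  · intro H
    rw [card_map_subtype]
    exact and_congr_right fun _ => (H.equivMapOfInjective _ (subtype_injective _)).isCyclic

theorem pow_dvd_cnt_orderOf (hp2 : p ≠ 2) (P : Sylow p G) (hP : ¬ IsCyclic P) {s : ℕ}
    (hs : 1 < s) : p ^ s ∣ cnt (fun x : G => orderOf x = p ^ s) := by
  have h := miller hp2 P hP hs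
  obtain ⟨t, rfl⟩ : ∃ t, s = t + 1 := ⟨s - 1, by omega⟩
  rw [cnt_orderOf_eq, Nat.totient_prime_pow_succ hp.out]
  conv_lhs => rw [pow_succ']
  exact Nat.mul_dvd_mul h (dvd_mul_right _ _)

end Cfsg.Lib.Solv.Count
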