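import Cfsg.Agent.Solv.TwoFrob
import Cfsg.Agent.Solv.Quaternion
import Cfsg.Agent.Rank2.Fpf3
import Cfsg.Agent.Char.Burnside
import Mathlib.GroupTheory.FixedPointFree

/-! # Finite groups whose element orders are at most four -/

set_option autoImplicit false

namespace Cfsg.Lib.Solv.SmallOrd

open Subgroup Cfsg.Lib.Solv Cfsg.Lib.Solv.TwoFrob Cfsg.Lib.Rank2
open scoped commutatorElement

universe u

theorem elem_of_s3 {P : Type*} [Group P] [Finite P] {a τ : MulAut P} (h : Fpf3 a)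
    (haτ : ∀ x, a (τ (a x)) = τ x) (h1 : ∀ x, x * τ x * (x * τ x) = 1)
    (h2 : ∀ x, x * a (τ x) * (x * a (τ x)) = 1) :
    (∀ x y : P, Commute x y) ∧ ∀ x : P, x * x = 1 := by
  have hz : ∀ z ∈ center P, z * z = 1 := fun z hz => by
    have key : ∀ w : P, z * w * (z * w) = 1 → w * w = (z * z)⁻¹ := fun w hw => by
      have c : Commute z w := (mem_center_iff.1 hz w).symm
      rw [eq_inv_iff_mul_eq_one, ← hw, ← pow_two (z * w), c.mul_pow, (c.pow_pow 2 2).eq, pow_two,
        pow_two]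
    have e1 := key _ (h1 z)
    have e2 := key _ (h2 z)
    rw [← map_mul, e1] at e2
    exact inv_eq_one.1 (h.fpf _ e2)
  have hc : ∀ n m : P, Commute (n * τ n) (m * τ m) := fun n m => by
    have e : n * τ n * (m * τ m) = ⁅τ n, m⁆ * (n * m * τ (n * m)) := by
      rw [← mul_assoc _ (n * m), ← mul_assoc _ n, ← mem_center_iff.1 (h.cls (τ n) m) n, map_mul,
        commutatorElement_def]
      group
    have e2 : n * τ n * (m * τ m) * (n * τ n * (m * τ m)) = 1 := by
      rw [e, mul_assoc, ← mul_assoc (n * m * _), mem_center_iff.1 (h.cls (τ n) m), mul_assoc,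
        h1, mul_one, hz _ (h.cls _ _)]
    have i1 := eq_inv_of_mul_eq_one_left (h1 n)
    have i2 := eq_inv_of_mul_eq_one_left (h1 m)
    have i3 := eq_inv_of_mul_eq_one_left e2
    rw [mul_inv_rev, ← i1, ← i2] at i3
    exact i3
  have hs : ∀ y : P, ∃ n m : P, y = n * τ n * (a (m * τ m))⁻¹ := fun y => by
    obtain ⟨x, rfl⟩ := MonoidHom.FixedPointFree.commutatorMap_surjective (φ := a * a)
      (fun x hx => h.fpf x (by simpa [h.cube] using (congrArg a hx).symm)) y
    refine ⟨x, a x, ?_⟩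
    rw [map_mul, haτ, MonoidHom.commutatorMap_apply, div_eq_mul_inv, MulAut.mul_apply]
    group
  refine ⟨fun x y => ?_, fun x => ?_⟩
  · obtain ⟨n, m, rfl⟩ := hs x
    obtain ⟨n', m', rfl⟩ := hs y
    exact ((hc n n').mul_right (h.commute_right (hc n m')).inv_right).mul_left
      ((h.commute_left (hc m n')).mul_right ((hc m m').map a).inv_right).inv_left
  · obtain ⟨n, m, rfl⟩ := hs x
    rw [← pow_two, (h.commute_right (hc n m)).inv_right.mul_pow, pow_two, h1, inv_pow, pow_two,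
      ← map_mul, h1, map_one, inv_one, one_mul]

variable {G : Type u} [Group G] [Finite G]

omit [Finite G] in
theorem fpf3 {N : Subgroup G} [N.Normal] (hN : IsPGroup 2 N) {ρ : G} (hρ : ρ ^ 3 = 1)
    (h : N ⊓ centralizer {ρ} = ⊥) : Fpf3 (MulAut.conjNormal ρ : MulAut N) where
  pg := hN
  cube x := Subtype.ext (by
    simp only [MulAut.conjNormal_apply]
    calc ρ * (ρ * (ρ * x * ρ⁻¹) * ρ⁻¹) * ρ⁻¹ = ρ ^ 3 * x * (ρ ^ 3)⁻¹ := by
          simp only [pow_succ, pow_zero]; group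
      _ = x := by rw [hρ]; group)
  fpf x hx := Subtype.ext (Fpf.eq_one_of_conj_eq h x.2 (congrArg Subtype.val hx))

theorem orderOf_cases (h4 : ∀ g : G, orderOf g ≤ 4) (g : G) :
    orderOf g = 1 ∨ orderOf g = 2 ∨ orderOf g = 3 ∨ orderOf g = 4 := by
  have := h4 g
  have := orderOf_pos g
  omega

theorem pow_three (h4 : ∀ g : G, orderOf g ≤ 4) {g : G} (hg : IsPiNum {2}ᶜ (orderOf g)) :
    g ^ 3 = 1 := by
  rw [← orderOf_dvd_iff_pow_eq_one]
  rcases orderOf_cases h4 g with h | h | h | h <;> rw [h] at hg ⊢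
  · norm_num
  · exact absurd rfl (hg 2 Nat.prime_two dvd_rfl)
  · exact absurd rfl (hg 2 Nat.prime_two (by norm_num))

theorem pow_four (h4 : ∀ g : G, orderOf g ≤ 4) {g : G} (hg : orderOf g ≠ 3) : g ^ 4 = 1 := by
  rw [← orderOf_dvd_iff_pow_eq_one]
  rcases orderOf_cases h4 g with h | h | h | h <;> rw [h] at hg ⊢
  · norm_num
  · norm_num
  · exact absurd rfl hg

theorem cases (h4 : ∀ g : G, orderOf g ≤ 4) (h2 : ∃ g : G, orderOf g = 2)
    (h3 : ∃ g : G, orderOf g = 3) : ∃ N : Subgroup G, N.Normal ∧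
      ((IsPGroup 2 N ∧ N.index = 3 ∧ ∃ ρ : G, ρ ^ 3 = 1 ∧ N ⊓ centralizer {ρ} = ⊥) ∨
      (IsPGroup 2 N ∧ ∃ C D, TF N C D ∧ Nat.card C = 3 ∧ Nat.card D = 2) ∨
      (IsElementaryAbelian 3 N ∧ ∃ C : Subgroup G, IsComplement' N C ∧ C ≠ ⊥ ∧ IsPGroup 2 C ∧
        (IsCyclic C ∨ ∃ n : ℕ, Nonempty (C ≃* QuaternionGroup (2 ^ n))))) := by
  have := Fact.mk Nat.prime_two
  have := Fact.mk Nat.prime_three
  have hs : Group.IsSolvable G := Char.isSolvable_of_prime_dvd_card Nat.prime_two Nat.prime_three G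
    fun r hr h => by
      have := Fact.mk hr
      obtain ⟨g, hg⟩ := exists_prime_orderOf_dvd_card' r h
      rcases orderOf_cases h4 g with h | h | h | h <;> rw [hg] at h <;> subst h
      · exact absurd hr Nat.not_prime_one
      · exact Or.inl rfl
      · exact Or.inr rfl
      · exact absurd hr (by norm_num)
  have hsep : PSep {2} G := by
    rintro a rfl b hb - hbp ⟨g, hg⟩
    have := h4 g
    have := hbp.two_le
    exact hb (show b = 2 by omega)
  obtain ⟨s, hs⟩ := h2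
  obtain ⟨r, hr⟩ := h3
  have : Nontrivial G := ⟨⟨s, 1, by rintro rfl; simp at hs⟩⟩
  rcases exists_piCore_ne_bot (G := G) {2} with h0 | h0
  · obtain ⟨C, hC, hCπ, fH, hcase⟩ := hsep.structure h0 fun h =>
      absurd (h 3 Nat.prime_three (hr ▸ orderOf_dvd_natCard r)) (by norm_num)
    have hN : IsPGroup 2 (piCore {2} G) := isPGroup_iff_isPiNum.2 (isPiNum_card_piCore _ _)
    have hC3 : ∀ c ∈ C, c ^ 3 = 1 := fun c hc => pow_three h4 (hCπ.orderOf_of_mem hc)
    have hcyc : IsCyclic C := Fpf.isCyclic_of_odd_prime (Fpf.le_normalizer_of_normal' _ C) h0 fH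
      (p := 3) (by norm_num) le_rfl fun c => ⟨1, Subtype.ext (by simpa using hC3 c c.2)⟩
    have hcard : Nat.card C = 3 := by
      obtain ⟨c, hc⟩ := IsCyclic.exists_ofOrder_eq_natCard (α := C)
      refine (Nat.prime_three.eq_one_or_self_of_dvd _ ?_).resolve_left (by simpa using hC)
      rw [← hc, orderOf_dvd_iff_pow_eq_one]
      exact Subtype.ext (hC3 c c.2)
    refine ⟨piCore {2} G, inferInstance, ?_⟩
    rcases hcase with ht | ⟨D, hD, -⟩
    · obtain ⟨c, hc, hc1⟩ := (C.bot_or_exists_ne_one).resolve_left hC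
      exact Or.inl ⟨hN, by
        rw [(Fpf.isComplement'_of_normal (Fpf.inf_eq_bot fH) ht).symm.index_eq_card, hcard],
        c, hC3 c hc, fH c hc hc1⟩
    · refine Or.inr (Or.inl ⟨hN, C, D, hD, hcard, ?_⟩)
      have := Fpf.card_dvd_card_sub_one hD.norm hD.fC
      rw [hcard] at this
      exact (Nat.prime_two.eq_one_or_self_of_dvd _ this).resolve_left (by simpa using hD.Dne)
  · obtain ⟨C, hC, hCπ, fH, hcase⟩ := hsep.compl.structure h0 fun h =>
      h 2 Nat.prime_two (hs ▸ orderOf_dvd_natCard s) rfl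
    rw [compl_compl] at hCπ
    have hC2 : IsPGroup 2 C := isPGroup_iff_isPiNum.2 hCπ
    have heven : 2 ∣ Nat.card C := (hC2.card_eq_or_dvd).resolve_left (by simpa using hC)
    rcases hcase with ht | ⟨D, hD, -⟩
    · obtain ⟨t, ht2⟩ := exists_prime_orderOf_dvd_card' 2 heven
      have ht1 : (t : G) ≠ 1 := fun h => by
        rw [show t = 1 from Subtype.ext h, orderOf_one] at ht2; omega
      refine ⟨_, inferInstance, Or.inr (Or.inr ⟨⟨Fpf.isMulCommutative_of_involution
        (Fpf.mem_normalizer_of_normal _ (t : G)) (fH t t.2 ht1) ?_, fun x hx =>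
        pow_three h4 ((isPiNum_card_piCore _ _).orderOf_of_mem hx)⟩, C,
        Fpf.isComplement'_of_normal (Fpf.inf_eq_bot fH) ht, hC, hC2,
        (Fpf.isCyclic_or_quaternion (Fpf.le_normalizer_of_normal' _ C) h0 fH le_rfl hC2).imp_right
          And.right⟩)⟩
      rw [← pow_two, ← ht2]; exact congrArg Subtype.val (pow_orderOf_eq_one t)
    · exact absurd hD.odd_cyclic.1 (Nat.not_odd_iff_even.2 (even_iff_two_dvd.2 heven))

theorem orderOf_ne_three {H C D : Subgroup G} (h : TF H C D) (hD : Nat.card D = 2) {g : G}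
    (hg : g ∉ H ⊔ C) : orderOf g ≠ 3 := fun h3 =>
  have := h.normalK
  hg (mem_of_coprime_orderOf_index_of_normal (by rw [h3, h.index_K, hD]; norm_num))

end Cfsg.Lib.Solv.SmallOrd
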