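import Mathlib

/-! Krull–Remak–Schmidt theorem for finite groups. -/

set_option autoImplicit false

namespace Cfsg.Lib.Solv.KRS

/-- directly indecomposable -/
def Indec (A : Type*) [Group A] : Prop :=
  ∀ H K : Subgroup A, H.Normal → K.Normal → H ⊓ K = ⊥ → H ⊔ K = ⊤ → H = ⊥ ∨ K = ⊥

/-- Fitting's lemma: an endomorphism commuting with inner automorphisms of a finite
indecomposable group is bijective or nilpotent. -/
theorem bijective_or_nilpotent {A : Type*} [Group A] [Finite A] (hA : Indec A) (φ : Monoid.End A)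
    (hφ : ∀ a x : A, φ (a * x * a⁻¹) = a * φ x * a⁻¹) :
    Function.Bijective φ ∨ ∃ N : ℕ, ∀ a, (φ ^ N) a = 1 := by
  classical
  have hpow : ∀ (N : ℕ) (a x : A), (φ ^ N) (a * x * a⁻¹) = a * (φ ^ N) x * a⁻¹ := by
    intro N
    induction N with
    | zero => intro a x; simp
    | succ N ih => intro a x; rw [pow_succ', Monoid.End.coe_mul]; simp only [Function.comp]; rw [ih, hφ]
  -- the ranges stabilise
  have hanti : Antitone (fun N : ℕ => MonoidHom.range (φ ^ N : Monoid.End A)) := by
    refine antitone_nat_of_succ_le (fun N => ?_)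
    rintro _ ⟨a, rfl⟩
    exact ⟨φ a, by rw [pow_succ]; rfl⟩
  obtain ⟨N, hN⟩ : ∃ N : ℕ, ∀ M, N ≤ M → MonoidHom.range (φ ^ N : Monoid.End A) =
      MonoidHom.range (φ ^ M : Monoid.End A) := by
    obtain ⟨N, hN⟩ := WellFoundedLT.antitone_chain_condition hanti
    exact ⟨N, hN⟩
  set ψ : Monoid.End A := φ ^ N with hψ
  have hsurj : ∀ a, ∃ b, ψ (ψ b) = ψ a := by
    intro a
    have h1 : ψ a ∈ MonoidHom.range (φ ^ (N + N) : Monoid.End A) := by
      rw [← hN (N + N) (by omega)]; exact ⟨a, rfl⟩
    obtain ⟨b, hb⟩ := h1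
    exact ⟨b, by rw [← hb, pow_add]; rfl⟩
  have hsup : MonoidHom.ker (ψ : A →* A) ⊔ MonoidHom.range (ψ : A →* A) = ⊤ := by
    rw [eq_top_iff]
    intro a _
    obtain ⟨b, hb⟩ := hsurj a
    have : a = (a * (ψ b)⁻¹) * ψ b := by group
    rw [this]
    refine Subgroup.mul_mem_sup ?_ ⟨b, rfl⟩
    change ψ (a * (ψ b)⁻¹) = 1
    rw [map_mul, map_inv, hb, mul_inv_cancel]
  have hinf : MonoidHom.ker (ψ : A →* A) ⊓ MonoidHom.range (ψ : A →* A) = ⊥ := by
    -- ψ restricted to its range is surjective, hence injective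
    let f : MonoidHom.range (ψ : A →* A) → MonoidHom.range (ψ : A →* A) :=
      fun x => ⟨ψ x, ⟨x, rfl⟩⟩
    have hf : Function.Surjective f := by
      rintro ⟨_, a, rfl⟩
      obtain ⟨b, hb⟩ := hsurj a
      exact ⟨⟨ψ b, b, rfl⟩, Subtype.ext hb⟩
    have hf' := Finite.injective_iff_surjective.2 hf
    rw [eq_bot_iff]
    rintro x ⟨hx1, hx2⟩
    have : f ⟨x, hx2⟩ = f 1 := Subtype.ext (by
      change ψ x = ψ 1
      rw [map_one]; exact hx1)
    exact congrArg Subtype.val (hf' this)
  have hnorm : (MonoidHom.range (ψ : A →* A)).Normal := ⟨by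
    rintro _ ⟨x, rfl⟩ a
    exact ⟨a * x * a⁻¹, hpow N a x⟩⟩
  rcases hA _ _ inferInstance hnorm hinf hsup with h | h
  · left
    by_cases hN0 : N = 0
    · have h1 := hN 1 (by omega)
      rw [hψ, hN0] at h1
      refine (Finite.surjective_iff_bijective).1 (fun a => ?_)
      have : a ∈ MonoidHom.range (φ ^ 1 : Monoid.End A) := by
        rw [← h1]; exact ⟨a, rfl⟩
      obtain ⟨b, hb⟩ := this
      exact ⟨b, by rw [pow_one] at hb; exact hb⟩
    · obtain ⟨M, rfl⟩ := Nat.exists_eq_succ_of_ne_zero hN0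
      refine (Finite.injective_iff_bijective).1 ?_
      have hinj : Function.Injective ψ := (MonoidHom.ker_eq_bot_iff _).1 h
      intro a b hab
      apply hinj
      rw [hψ, pow_succ]
      change (φ ^ M) (φ a) = (φ ^ M) (φ b)
      rw [hab]
  · right
    refine ⟨N, fun a => ?_⟩
    have : ψ a ∈ MonoidHom.range (ψ : A →* A) := ⟨a, rfl⟩
    rw [h] at this
    exact this

theorem bijective_or_of_id {A : Type*} [Group A] [Finite A] (hA : Indec A) (φ ψ : A →* A)
    (h : ∀ a, φ a * ψ a = a) (hc : ∀ a b, Commute (φ a) (ψ b)) :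
    Function.Bijective φ ∨ Function.Bijective ψ := by
  have hφ : ∀ a x : A, φ (a * x * a⁻¹) = a * φ x * a⁻¹ := by
    intro a x
    rw [map_mul, map_mul, map_inv]
    conv_rhs => rw [← h a]
    have := (hc x a).eq
    calc φ a * φ x * (φ a)⁻¹ = φ a * (φ x * ψ a) * (φ a * ψ a)⁻¹ := by group
      _ = _ := by rw [this]; group
  rcases bijective_or_nilpotent hA (φ : Monoid.End A) hφ with h1 | ⟨N, hN⟩
  · exact Or.inl h1
  · right
    refine (Finite.injective_iff_bijective).1 ((injective_iff_map_eq_one ψ).2 (fun a ha => ?_))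
    have h2 : φ a = a := by have := h a; rwa [ha, mul_one] at this
    have h3 : ∀ M : ℕ, ((show Monoid.End A from φ) ^ M) a = a := by
      intro M
      induction M with
      | zero => rfl
      | succ M ih =>
        rw [pow_succ]
        change ((show Monoid.End A from φ) ^ M) (φ a) = a
        rw [h2, ih]
    rw [← h3 N]; exact hN a

theorem bijective_or {A : Type*} [Group A] [Finite A] (hA : Indec A) (φ ψ θ : A →* A)
    (hθ : Function.Bijective θ)
    (h : ∀ a, φ a * ψ a = θ a) (hc : ∀ a b, Commute (φ a) (ψ b)) :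
    Function.Bijective φ ∨ Function.Bijective ψ := by
  let e := MulEquiv.ofBijective θ hθ
  have := bijective_or_of_id hA (e.symm.toMonoidHom.comp φ) (e.symm.toMonoidHom.comp ψ)
    (fun a => by
      change e.symm (φ a) * e.symm (ψ a) = a
      rw [← map_mul, h]; exact e.symm_apply_apply a)
    (fun a b => (hc a b).map e.symm)
  rcases this with h1 | h1
  · exact Or.inl ((e.symm.bijective.of_comp_iff' φ).1 h1)
  · exact Or.inr ((e.symm.bijective.of_comp_iff' ψ).1 h1)

/-- restriction of a tuple to a set of coordinates -/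
def restr {κ : Type*} [DecidableEq κ] (B : κ → Type*) [∀ j, Group (B j)] (S : Finset κ) :
    (∀ j, B j) →* (∀ j, B j) where
  toFun g := fun j => if j ∈ S then g j else 1
  map_one' := by ext j; simp
  map_mul' g h := by ext j; by_cases hj : j ∈ S <;> simp [hj]

theorem exists_bijective {A : Type*} [Group A] [Finite A] [Nontrivial A] (hA : Indec A)
    {κ : Type*} [DecidableEq κ] [Fintype κ] {B : κ → Type*} [∀ j, Group (B j)]
    (ι : A →* ∀ j, B j) (π : (∀ j, B j) →* A) (h : ∀ a, π (ι a) = a) :
    ∃ j, Function.Bijective (fun a => π (Pi.mulSingle j (ι a j))) := by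
  have key : ∀ S : Finset κ, Function.Bijective (π.comp ((restr B S).comp ι)) →
      ∃ j, Function.Bijective (π.comp ((restr B {j}).comp ι)) := by
    intro S
    induction S using Finset.induction_on with
    | empty =>
      intro hb
      exfalso
      obtain ⟨a, ha⟩ := exists_ne (1 : A)
      apply ha
      apply hb.1
      have : ∀ g, restr B ∅ g = 1 := fun g => by ext j; simp [restr]
      simp [this]
    | insert j S hj ih =>
      intro hb
      rcases bijective_or hA (π.comp ((restr B {j}).comp ι)) (π.comp ((restr B S).comp ι)) _ hb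
        (fun a => by
          simp only [MonoidHom.comp_apply]
          rw [← map_mul]
          congr 1
          ext k
          by_cases hk : k = j
          · subst hk; simp [restr, hj]
          · simp [restr, hk])
        (fun a b => by
          simp only [MonoidHom.comp_apply]
          refine Commute.map ?_ π
          ext k
          by_cases hk : k = j
          · subst hk; simp [restr, hj]
          · simp [restr, hk]) with h1 | h1
      · exact ⟨j, h1⟩
      · exact ih h1
  obtain ⟨j, hj⟩ := key Finset.univ (by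
    have : (π.comp ((restr B Finset.univ).comp ι)) = MonoidHom.id A := by
      ext a
      have : ∀ g, restr B Finset.univ g = g := fun g => by ext j; simp [restr]
      simp [this, h]
    rw [this]; exact Function.bijective_id)
  refine ⟨j, ?_⟩
  convert hj using 2 with a
  simp only [MonoidHom.comp_apply]
  congr 1
  ext k
  by_cases hk : k = j
  · subst hk; simp [restr]
  · simp [restr, hk]

/-- the tuple without one coordinate -/
def dropHom {κ : Type*} (B : κ → Type*) [∀ j, Group (B j)] (j : κ) :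
    (∀ k, B k) →* (∀ k : {k // k ≠ j}, B k) where
  toFun g := fun k => g k
  map_one' := rfl
  map_mul' _ _ := rfl

/-- extension by one at a coordinate -/
def extHom {κ : Type*} [DecidableEq κ] (B : κ → Type*) [∀ j, Group (B j)] (j : κ) :
    (∀ k : {k // k ≠ j}, B k) →* (∀ k, B k) where
  toFun g := fun k => if h : k = j then 1 else g ⟨k, h⟩
  map_one' := by ext k; by_cases h : k = j <;> simp [h]
  map_mul' g g' := by ext k; by_cases h : k = j <;> simp [h]

theorem card_pi_split {κ : Type*} [DecidableEq κ] (B : κ → Type*) (j : κ) :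
    Nat.card (∀ k, B k) = Nat.card (B j) * Nat.card (∀ k : {k // k ≠ j}, B k) := by
  rw [← Nat.card_prod]; exact Nat.card_congr (Equiv.piSplitAt j B)

theorem exchange {ι κ : Type*} [DecidableEq ι] [DecidableEq κ] [Fintype ι] [Fintype κ]
    {A : ι → Type*} {B : κ → Type*} [∀ i, Group (A i)] [∀ j, Group (B j)]
    [∀ i, Finite (A i)] [∀ j, Finite (B j)] (i : ι) [Nontrivial (A i)] (hA : Indec (A i))
    (hB : ∀ j, Indec (B j)) (e : (∀ i, A i) ≃* (∀ j, B j)) :
    ∃ j, Nonempty (A i ≃* B j) ∧
      Nonempty ((∀ k : {k // k ≠ i}, A k) ≃* (∀ k : {k // k ≠ j}, B k)) := by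
  obtain ⟨j, hj⟩ := exists_bijective hA (e.toMonoidHom.comp (MonoidHom.mulSingle A i))
    ((Pi.evalMonoidHom A i).comp e.symm.toMonoidHom) (fun a => by simp)
  let α : A i →* B j := (Pi.evalMonoidHom B j).comp (e.toMonoidHom.comp (MonoidHom.mulSingle A i))
  let β : B j →* A i :=
    (Pi.evalMonoidHom A i).comp (e.symm.toMonoidHom.comp (MonoidHom.mulSingle B j))
  have hβα : Function.Bijective (fun a => β (α a)) := hj
  have hnorm : (MonoidHom.range α).Normal := ⟨by
    rintro _ ⟨a, rfl⟩ b
    let g := e.symm (Pi.mulSingle j b)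
    refine ⟨g i * a * (g i)⁻¹, ?_⟩
    have h1 : (Pi.mulSingle i (g i * a * (g i)⁻¹) : ∀ k, A k) = g * Pi.mulSingle i a * g⁻¹ := by
      ext k
      by_cases hk : k = i
      · subst hk; simp
      · simp [hk]
    change e (Pi.mulSingle i (g i * a * (g i)⁻¹)) j = b * e (Pi.mulSingle i a) j * b⁻¹
    rw [h1, map_mul, map_mul, map_inv]
    simp [g]⟩
  have hinf : MonoidHom.range α ⊓ MonoidHom.ker β = ⊥ := by
    rw [eq_bot_iff]
    rintro _ ⟨⟨a, rfl⟩, h2⟩
    have : a = 1 := hβα.1 (by simpa using h2)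
    simp [this]
  have hsup : MonoidHom.range α ⊔ MonoidHom.ker β = ⊤ := by
    rw [eq_top_iff]
    intro b _
    obtain ⟨a, ha⟩ := hβα.2 (β b)
    have : b = α a * ((α a)⁻¹ * b) := by group
    rw [this]
    refine Subgroup.mul_mem_sup ⟨a, rfl⟩ ?_
    rw [MonoidHom.mem_ker, map_mul, map_inv]
    simp only at ha
    rw [ha, inv_mul_cancel]
  have hβ : Function.Bijective β := by
    refine ⟨?_, fun a => ?_⟩
    · rcases hB j _ _ hnorm inferInstance hinf hsup with h | h
      · exfalso
        obtain ⟨a, ha⟩ := exists_ne (1 : A i)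
        apply ha
        apply hβα.1
        have : α a ∈ MonoidHom.range α := ⟨a, rfl⟩
        rw [h, Subgroup.mem_bot] at this
        simp [this]
      · exact (MonoidHom.ker_eq_bot_iff _).1 h
    · obtain ⟨b, hb⟩ := hβα.2 a
      exact ⟨_, hb⟩
  refine ⟨j, ⟨(MulEquiv.ofBijective β hβ).symm⟩, ?_⟩
  let γ := (dropHom B j).comp (e.toMonoidHom.comp (extHom A i))
  have hγ : Function.Injective γ := by
    refine (injective_iff_map_eq_one γ).2 (fun x hx => ?_)
    have h1 : e (extHom A i x) = Pi.mulSingle j (e (extHom A i x) j) := by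
      ext k
      by_cases hk : k = j
      · subst hk; simp
      · rw [Pi.mulSingle_eq_of_ne hk]; exact congrFun hx ⟨k, hk⟩
    have h2 : β (e (extHom A i x) j) = 1 := by
      change e.symm (Pi.mulSingle j (e (extHom A i x) j)) i = 1
      rw [← h1, e.symm_apply_apply]
      simp [extHom]
    have h3 : e (extHom A i x) j = 1 := hβ.1 (by rw [h2, map_one])
    rw [h3, Pi.mulSingle_one, MulEquiv.map_eq_one_iff] at h1
    ext k
    have := congrFun h1 k.1
    simpa [extHom, k.2] using this
  have hcard : Nat.card (∀ k : {k // k ≠ i}, A k) = Nat.card (∀ k : {k // k ≠ j}, B k) := by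
    have h1 := Nat.card_congr e.toEquiv
    rw [card_pi_split A i, card_pi_split B j, Nat.card_eq_of_bijective β hβ] at h1
    exact Nat.eq_of_mul_eq_mul_left Nat.card_pos h1
  exact ⟨MulEquiv.ofBijective γ (hγ.bijective_of_nat_card_le hcard.ge)⟩

universe u v

/-- Krull–Remak–Schmidt -/
theorem krull_schmidt (n : ℕ) : ∀ {ι κ : Type} [Fintype ι] [Fintype κ]
    {A : ι → Type u} {B : κ → Type v} [∀ i, Group (A i)] [∀ j, Group (B j)]
    [∀ i, Finite (A i)] [∀ j, Finite (B j)], Fintype.card ι = n →
    (∀ i, Nontrivial (A i) ∧ Indec (A i)) → (∀ j, Nontrivial (B j) ∧ Indec (B j)) →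
    ((∀ i, A i) ≃* (∀ j, B j)) → ∃ σ : ι ≃ κ, ∀ i, Nonempty (A i ≃* B (σ i)) := by
  classical
  induction n with
  | zero =>
    intro ι κ _ _ A B _ _ _ _ hn hA hB e
    haveI : IsEmpty ι := Fintype.card_eq_zero_iff.1 hn
    haveI : IsEmpty κ := ⟨fun j => by
      haveI := (hB j).1
      obtain ⟨b, hb⟩ := exists_ne (1 : B j)
      apply hb
      have : (Pi.mulSingle j b : ∀ k, B k) = 1 :=
        e.symm.injective (Subsingleton.elim _ _)
      simpa using congrFun this j⟩
    exact ⟨Equiv.equivOfIsEmpty ι κ, fun i => isEmptyElim i⟩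
  | succ n ih =>
    intro ι κ _ _ A B _ _ _ _ hn hA hB e
    obtain ⟨i⟩ : Nonempty ι := Fintype.card_pos_iff.1 (by omega)
    haveI := (hA i).1
    obtain ⟨j, h1, ⟨e'⟩⟩ := exchange i (hA i).2 (fun j => (hB j).2) e
    obtain ⟨σ, hσ⟩ := ih (ι := {k // k ≠ i}) (κ := {k // k ≠ j}) (A := fun k => A k)
      (B := fun k => B k) (by simp [hn]) (fun k => hA k) (fun k => hB k) e'
    refine ⟨(Equiv.optionSubtypeNe i).symm.trans (σ.optionCongr.trans (Equiv.optionSubtypeNe j)),
      fun k => ?_⟩
    by_cases hk : k = i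
    · subst hk
      have : ((Equiv.optionSubtypeNe k).symm.trans
        (σ.optionCongr.trans (Equiv.optionSubtypeNe j))) k = j := by simp
      rw [this]; exact h1
    · have : ((Equiv.optionSubtypeNe i).symm.trans
        (σ.optionCongr.trans (Equiv.optionSubtypeNe j))) k = σ ⟨k, hk⟩ := by
        simp [Equiv.optionSubtypeNe_symm_of_ne hk]
      rw [this]; exact hσ ⟨k, hk⟩

end Cfsg.Lib.Solv.KRS
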