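import Mathlib

/-!
# Automorphisms of odd order of doubly transitive groups

The incidence matrix of an orbit of the image of a point stabiliser is a symmetric design; its square
is again a multiple of a design matrix, which forces the square of the automorphism to be induced by
a permutation of the points.
-/

set_option autoImplicit false

open Matrix MulAction

namespace Cfsg.Lib.Solv.TTA

variable {G Ω : Type*} [Group G] [MulAction G Ω] [Fintype Ω] [DecidableEq Ω]

attribute [-simp] zsmul_eq_mul zsmul_one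

/-- Matrices intertwining two twisted actions. -/
def Inv (β γ : MulAut G) (X : Matrix Ω Ω ℤ) : Prop := ∀ g x y, X (β g • x) (γ g • y) = X x y

/-- The all-one matrix. -/
def J (Ω : Type*) : Matrix Ω Ω ℤ := Matrix.of fun _ _ => 1

omit [DecidableEq Ω] in
theorem Inv.mul {β γ δ : MulAut G} {X Y : Matrix Ω Ω ℤ} (hX : Inv β γ X) (hY : Inv γ δ Y) :
    Inv β δ (X * Y) := fun g x y => by
  rw [mul_apply, mul_apply, ← Equiv.sum_comp (MulAction.toPerm (γ g))]
  exact Finset.sum_congr rfl fun z _ => by rw [toPerm_apply, hX, hY]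

omit [Fintype Ω] [DecidableEq Ω] in
theorem Inv.transpose {β γ : MulAut G} {X : Matrix Ω Ω ℤ} (hX : Inv β γ X) : Inv γ β Xᵀ :=
  fun g x y => hX g y x

theorem Inv.eq_of_two (h2 : ∀ a b c d : Ω, a ≠ b → c ≠ d → ∃ g : G, g • a = c ∧ g • b = d)
    [Nontrivial Ω] {β : MulAut G} {X : Matrix Ω Ω ℤ} (hX : Inv β β X) :
    ∃ a b : ℤ, X = a • 1 + b • J Ω := by
  obtain ⟨u, v, huv⟩ := exists_pair_ne Ω
  refine ⟨X u u - X u v, X u v, Matrix.ext fun x y => ?_⟩
  by_cases h : x = y
  · subst h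
    obtain ⟨z, hz⟩ := exists_ne x
    obtain ⟨g, rfl, -⟩ := h2 u v x z huv hz.symm
    simpa [J] using hX (β.symm g) u u
  · obtain ⟨g, rfl, rfl⟩ := h2 u v x y huv h
    simpa [J, h] using hX (β.symm g) u v

omit [Fintype Ω] in
theorem eq_of_smul_add [Nontrivial Ω] {a b c d : ℤ} (h : a • 1 + b • J Ω = c • 1 + d • J Ω) :
    a = c := by
  obtain ⟨u, v, huv⟩ := exists_pair_ne Ω
  have h1 := congrFun (congrFun h u) u
  have h2 := congrFun (congrFun h u) v
  simp [J, huv] at h1 h2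
  omega

omit [DecidableEq Ω] in
theorem J_mul_J : J Ω * J Ω = (Fintype.card Ω : ℤ) • J Ω := by
  ext x y; simp [J, mul_apply]

omit [DecidableEq Ω] in
theorem Inv.exists_mul_J (h2 : ∀ a b c d : Ω, a ≠ b → c ≠ d → ∃ g : G, g • a = c ∧ g • b = d)
    [Nontrivial Ω] {β γ : MulAut G} {X : Matrix Ω Ω ℤ} (hX : Inv β γ X) :
    ∃ k : ℤ, X * J Ω = k • J Ω := by
  obtain ⟨u, v, huv⟩ := exists_pair_ne Ω
  refine ⟨(X * J Ω) u u, Matrix.ext fun x y => ?_⟩
  obtain ⟨z, hz⟩ := exists_ne x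
  obtain ⟨g, rfl, -⟩ := h2 u v x z huv hz.symm
  have := hX.mul (Y := J Ω) (δ := β) (fun _ _ _ => rfl) (β.symm g) u u
  simpa [J, mul_apply] using this

omit [DecidableEq Ω] in
theorem Inv.exists_sums (h2 : ∀ a b c d : Ω, a ≠ b → c ≠ d → ∃ g : G, g • a = c ∧ g • b = d)
    [Nontrivial Ω] {β γ : MulAut G} {X : Matrix Ω Ω ℤ} (hX : Inv β γ X) :
    ∃ k : ℤ, X * J Ω = k • J Ω ∧ J Ω * X = k • J Ω ∧ Xᵀ * J Ω = k • J Ω := by
  obtain ⟨k, hk⟩ := hX.exists_mul_J h2
  obtain ⟨l, hl⟩ := hX.transpose.exists_mul_J h2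
  have hl' : J Ω * X = l • J Ω := by
    have := congrArg Matrix.transpose hl
    rwa [transpose_mul, transpose_smul] at this
  obtain ⟨u⟩ : Nonempty Ω := inferInstance
  have h := Matrix.mul_assoc (J Ω) X (J Ω)
  rw [hl', hk, smul_mul, Matrix.mul_smul, J_mul_J] at h
  have h1 := congrFun (congrFun h u) u
  simp [J] at h1
  exact ⟨k, hk, h1 ▸ hl', h1 ▸ hl⟩

/-- An invariant zero-one matrix is the incidence matrix of a symmetric design. -/
theorem Inv.design (h2 : ∀ a b c d : Ω, a ≠ b → c ≠ d → ∃ g : G, g • a = c ∧ g • b = d)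
    [Nontrivial Ω] {β γ : MulAut G} {X : Matrix Ω Ω ℤ} (hX : Inv β γ X)
    (h01 : ∀ x y, X x y = 0 ∨ X x y = 1) :
    ∃ k N l : ℤ, X * J Ω = k • J Ω ∧ J Ω * X = k • J Ω ∧ Xᵀ * J Ω = k • J Ω ∧
      Xᵀ * X = N • 1 + l • J Ω ∧ k = N + l ∧ k ^ 2 = N + l * Fintype.card Ω ∧ 0 ≤ l := by
  obtain ⟨k, h1, h3, h4⟩ := hX.exists_sums h2
  obtain ⟨N, l, h5⟩ := (hX.transpose.mul hX).eq_of_two h2
  obtain ⟨u, v, huv⟩ := exists_pair_ne Ω
  refine ⟨k, N, l, h1, h3, h4, h5, ?_, ?_, ?_⟩
  · have h6 := congrFun (congrFun h5 u) u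
    have h7 := congrFun (congrFun h3 u) u
    simp only [J, mul_apply, transpose_apply, of_apply, one_mul, Matrix.smul_apply, smul_eq_mul,
      mul_one, Matrix.add_apply, one_apply_eq] at h6 h7
    rw [← h6, ← h7]
    exact Finset.sum_congr rfl fun z _ => by rcases h01 z u with h | h <;> simp [h]
  · have h6 := Matrix.mul_assoc Xᵀ X (J Ω)
    rw [h5, h1, Matrix.mul_smul, h4, Matrix.add_mul, smul_mul, smul_mul, J_mul_J,
      Matrix.one_mul] at h6
    have h7 := congrFun (congrFun h6 u) u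
    simp [J] at h7
    linarith
  · have h6 := congrFun (congrFun h5 u) v
    simp only [J, mul_apply, transpose_apply, of_apply, Matrix.smul_apply, smul_eq_mul, mul_one,
      Matrix.add_apply, one_apply_ne huv, mul_zero, zero_add] at h6
    rw [← h6]
    exact Finset.sum_nonneg fun z _ => by
      rcases h01 z u with h | h <;> rcases h01 z v with h' | h' <;> simp [h, h']

omit [DecidableEq Ω] in
theorem Inv.exists_map {γ : MulAut G} {X : Matrix Ω Ω ℤ} (hX : Inv 1 γ X)
    (h01 : ∀ x y, X x y = 0 ∨ X x y = 1) (h1 : X * J Ω = J Ω) :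
    ∃ σ : Ω → Ω, ∀ g x, σ (g • x) = γ g • σ x := by
  classical
  have key : ∀ x, ∃! y, X x y = 1 := fun x => by
    have h := congrFun (congrFun h1 x) x
    simp only [J, mul_apply, of_apply, mul_one] at h
    rw [Finset.sum_congr rfl (g := fun y => if X x y = 1 then 1 else 0) fun y _ => by
      rcases h01 x y with h | h <;> simp [h], Finset.sum_boole, Nat.cast_eq_one,
      Finset.card_eq_one] at h
    obtain ⟨y, hy⟩ := h
    exact ⟨y, by simpa using hy.ge (Finset.mem_singleton_self y),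
      fun z hz => by simpa using hy.le (by simpa using hz)⟩
  choose σ hσ hu using key
  exact ⟨σ, fun g x => (hu _ _ ((hX g x (σ x)).trans (hσ x))).symm⟩

theorem Inv.exists_map_sq (h2 : ∀ a b c d : Ω, a ≠ b → c ≠ d → ∃ g : G, g • a = c ∧ g • b = d)
    [Nontrivial Ω] {α : MulAut G} {A : Matrix Ω Ω ℤ} (hA : Inv 1 α A)
    (h01 : ∀ x y, A x y = 0 ∨ A x y = 1) {k : ℤ} (hk : A * J Ω = k • J Ω)
    (hkn : IsCoprime k (Fintype.card Ω)) :
    ∃ σ : Ω → Ω, ∀ g x, σ (g • x) = (α * α) g • σ x := by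
  obtain ⟨o⟩ : Nonempty Ω := inferInstance
  have hn : (2 : ℤ) ≤ Fintype.card Ω := by exact_mod_cast Fintype.one_lt_card
  obtain ⟨k', N, l, a1, a2, a3, a4, -, a6, -⟩ := hA.design h2 h01
  obtain rfl : k = k' := by simpa [J] using congrFun (congrFun (hk.symm.trans a1) o) o
  have hN : IsCoprime N (Fintype.card Ω) := by
    have := hkn.pow_left (m := 2)
    rwa [a6, IsCoprime.add_mul_right_left_iff] at this
  have hN0 : N ≠ 0 := by
    rintro rfl
    have := Int.isUnit_iff.1 (isCoprime_zero_left.1 hN)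
    omega
  have hC : Inv 1 (α * α) (A * A) := hA.mul fun g => hA (α g)
  have hCC : ∃ μ : ℤ, (A * A)ᵀ * (A * A) = (N * N) • 1 + μ • J Ω := ⟨N * l + l * (k * k), by
    rw [transpose_mul, Matrix.mul_assoc, ← Matrix.mul_assoc Aᵀ A A, a4, Matrix.add_mul, smul_mul,
      smul_mul, a2, Matrix.one_mul, Matrix.mul_add, Matrix.mul_smul, Matrix.mul_smul,
      Matrix.mul_smul, a3, a4]
    module⟩
  obtain ⟨μ, hCC⟩ := hCC
  have hCJ : A * A * J Ω = (k * k) • J Ω := by
    rw [Matrix.mul_assoc, a1, Matrix.mul_smul, a1, smul_smul]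
  generalize A * A = C at hC hCC hCJ
  obtain ⟨B, hB⟩ : ∃ B : Matrix Ω Ω ℤ, ∀ x y, B x y = if C x y = C o o then 1 else 0 :=
    ⟨Matrix.of fun x y => _, fun _ _ => rfl⟩
  have hBi : Inv 1 (α * α) B := fun g x y => by rw [hB, hB, hC]
  have hB01 : ∀ x y, B x y = 0 ∨ B x y = 1 := fun x y => by rw [hB]; split_ifs <;> simp
  obtain ⟨r, M, m, b1, b2, b3, b4, b5, b6, b7⟩ := hBi.design h2 hB01
  obtain ⟨x, y, hxy⟩ : ∃ x y, C x y ≠ C o o := by
    by_contra! h
    have : C = C o o • J Ω := Matrix.ext fun x y => by simp [h, J]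
    rw [this, transpose_smul, smul_mul, Matrix.mul_smul, show (J Ω)ᵀ = J Ω from rfl, J_mul_J,
      smul_smul, smul_smul, ← zero_add (_ • J Ω), ← zero_smul ℤ (1 : Matrix Ω Ω ℤ)] at hCC
    exact mul_self_ne_zero.2 hN0 (eq_of_smul_add hCC).symm
  have hr : ∀ z, ∑ w, B z w = r := fun z => by
    simpa [J, mul_apply] using congrFun (congrFun b1 z) z
  have hr1 : 1 ≤ r := by
    rw [← hr o]
    refine le_trans (by simp [hB]) (Finset.single_le_sum (f := B o)
      (fun w _ => by rcases hB01 o w with h | h <;> simp [h]) (Finset.mem_univ o))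
  have hr2 : r < Fintype.card Ω := by
    rw [← hr x, ← Finset.card_univ, Finset.card_eq_sum_ones, Nat.cast_sum]
    exact Finset.sum_lt_sum (fun w _ => by rcases hB01 x w with h | h <;> simp [h])
      ⟨y, Finset.mem_univ y, by simp [hB, hxy]⟩
  have hM : M ≠ 0 := by
    rintro rfl
    nlinarith
  obtain ⟨u, v, huv⟩ := (hC.mul hBi.transpose).eq_of_two h2
  have h1 : M • C = u • B + (v * r - m * (k * k)) • J Ω := by
    have := Matrix.mul_assoc C Bᵀ B
    rw [huv, b4, Matrix.add_mul, smul_mul, smul_mul, b2, Matrix.one_mul, Matrix.mul_add,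
      Matrix.mul_smul, Matrix.mul_smul, hCJ, Matrix.mul_one] at this
    linear_combination (norm := module) -this
  have e1 := congrFun (congrFun h1 o) o
  have e2 := congrFun (congrFun h1 x) y
  simp [hB, hxy, J] at e1 e2
  obtain ⟨a, ha⟩ : ∃ a, a = C o o - C x y := ⟨_, rfl⟩
  have h3 : C = a • B + C x y • J Ω := smul_right_injective _ hM (by
    simp only [h1, smul_add, smul_smul]
    rw [e2, ha, mul_sub, e1, e2, add_sub_cancel_right])
  generalize C x y = c at h3
  have h4 : N * N = a * a * M := by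
    refine (eq_of_smul_add (Ω := Ω) (b := a * a * m + 2 * a * c * r + c * c * Fintype.card Ω)
      (Eq.trans ?_ hCC)).symm
    rw [h3, transpose_add, transpose_smul, transpose_smul, show (J Ω)ᵀ = J Ω from rfl]
    simp only [Matrix.add_mul, Matrix.mul_add, smul_mul, Matrix.mul_smul, b2, b3, b4, J_mul_J]
    module
  have h5 : k * k = a * r + c * Fintype.card Ω := by
    rw [h3, Matrix.add_mul, smul_mul, smul_mul, b1, J_mul_J] at hCJ
    simpa [J] using (congrFun (congrFun hCJ o) o).symm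
  obtain ⟨t, rfl⟩ : a ∣ N := (Int.pow_dvd_pow_iff two_ne_zero).1 ⟨M, by rw [sq, sq, h4]⟩
  obtain rfl : t * t = M := mul_left_cancel₀ (mul_self_ne_zero.2 (left_ne_zero_of_mul hN0))
    (by linear_combination h4)
  obtain ⟨s, hs⟩ : (Fintype.card Ω : ℤ) ∣ r - t := hN.of_mul_left_left.symm.dvd_of_dvd_mul_left
    ⟨l - c, by linear_combination a6 - h5⟩
  have hs0 : 0 ≤ s := by nlinarith [mul_self_nonneg (2 * t - 1)]
  have hs2 : s < 2 := by nlinarith [mul_self_nonneg (2 * t + 1)]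
  interval_cases s
  · refine hBi.exists_map hB01 ?_
    rw [b1, show r = 1 by nlinarith, one_smul]
  · refine Inv.exists_map (X := J Ω - B) (fun g x y => congrArg (1 - ·) (hBi g x y)) (fun x y => by
      rcases hB01 x y with h | h <;> simp [J, h]) ?_
    have h6 : m = 2 * t + Fintype.card Ω := mul_right_cancel₀ (b := (Fintype.card Ω : ℤ))
      (by omega) (by linear_combination (r + t + Fintype.card Ω) * hs - b6)
    have h7 : t * (t + 1) = 0 := by linear_combination hs - b5 - h6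
    rw [Matrix.sub_mul, b1, J_mul_J, ← sub_smul, show (Fintype.card Ω : ℤ) - r = 1 by
      rcases mul_eq_zero.1 h7 with h | h <;> omega, one_smul]

omit [DecidableEq Ω] in
/-- An automorphism of odd order of a doubly transitive group is induced by a permutation of the points
as soon as the image of a point stabiliser has an orbit of length prime to the degree. -/
theorem exists_perm (h2 : ∀ a b c d : Ω, a ≠ b → c ≠ d → ∃ g : G, g • a = c ∧ g • b = d)
    (o : Ω) {α : MulAut G} (hα : Odd (orderOf α)) (ω : Ω)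
    (hk : (Nat.card (orbit ((stabilizer G o).map α.toMonoidHom) ω)).Coprime (Fintype.card Ω)) :
    ∃ σ : Equiv.Perm Ω, ∀ g x, α g • σ x = σ (g • x) := by
  classical
  rcases subsingleton_or_nontrivial Ω with _ | _
  · exact ⟨1, fun _ _ => Subsingleton.elim _ _⟩
  obtain ⟨A, hA⟩ : ∃ A : Matrix Ω Ω ℤ, ∀ x y,
      A x y = if ∃ g : G, g • o = x ∧ α g • ω = y then 1 else 0 :=
    ⟨Matrix.of fun x y => _, fun _ _ => rfl⟩
  have hAi : Inv 1 α A := fun g x y => by
    rw [hA, hA]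
    refine if_congr ⟨?_, ?_⟩ rfl rfl
    · rintro ⟨h, h1, h2⟩
      exact ⟨g⁻¹ * h, by simp [mul_smul, h1], by simp [mul_smul, h2]⟩
    · rintro ⟨h, rfl, rfl⟩
      exact ⟨g * h, by simp [mul_smul], by simp [mul_smul]⟩
  obtain ⟨k, hk1⟩ := hAi.exists_mul_J h2
  obtain ⟨τ, hτ⟩ := hAi.exists_map_sq h2 (fun x y => by rw [hA]; split_ifs <;> simp) hk1 (by
    have h := congrFun (congrFun hk1 o) o
    simp only [J, mul_apply, of_apply, mul_one, hA, Finset.sum_boole, Matrix.smul_apply,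
      smul_eq_mul] at h
    rw [← h, Nat.isCoprime_iff_coprime]
    convert hk
    rw [Nat.card_eq_fintype_card, Fintype.card_subtype]
    congr 1
    ext y
    simp only [Finset.mem_filter, Finset.mem_univ, true_and]
    exact ⟨fun ⟨g, h1, h2⟩ => ⟨⟨α g, g, h1, rfl⟩, h2⟩, fun ⟨⟨_, g, h1, rfl⟩, h2⟩ => ⟨g, h1, h2⟩⟩)
  have hs : Function.Surjective τ := fun y => by
    obtain ⟨u, hu⟩ := exists_ne (τ o)
    obtain ⟨v, hv⟩ := exists_ne y
    obtain ⟨g, hg, -⟩ := h2 _ _ _ _ hu.symm hv.symm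
    exact ⟨(α * α).symm g • o, by rw [hτ, MulEquiv.apply_symm_apply, hg]⟩
  obtain ⟨σ, rfl⟩ : ∃ σ : Equiv.Perm Ω, σ = τ :=
    ⟨Equiv.ofBijective τ (Finite.surjective_iff_bijective.1 hs), rfl⟩
  have key : ∀ (j : ℕ) g x, ((α * α) ^ j) g • (σ ^ j) x = (σ ^ j) (g • x) := fun j => by
    induction j with
    | zero => simp
    | succ j ih => intro g x; rw [pow_succ', pow_succ', MulAut.mul_apply, Equiv.Perm.mul_apply,
        ← hτ, ih, Equiv.Perm.mul_apply]
  obtain ⟨m, hm⟩ := hα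
  refine ⟨σ ^ (m + 1), fun g x => ?_⟩
  rw [← key, ← sq, ← pow_mul, mul_add, mul_one, ← one_add_one_eq_two, ← add_assoc,
    one_add_one_eq_two, ← hm, pow_succ α, pow_orderOf_eq_one, one_mul]

omit [Fintype Ω] [DecidableEq Ω] in
theorem exists_pair (h : IsMultiplyPretransitive G Ω 2) (a b c d : Ω) (hab : a ≠ b) (hcd : c ≠ d) :
    ∃ g : G, g • a = c ∧ g • b = d :=
  (is_two_pretransitive_iff.1 h) hab hcd

end Cfsg.Lib.Solv.TTA
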