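import Cfsg.Agent.Solv.FitWard
import Cfsg.Agent.Solv.FixedPointFree

/-! # Fixed-point-free action of the symmetric group of degree three -/

set_option autoImplicit false

namespace Cfsg.Lib.Solv.FH

open Subgroup Cfsg.Lib.Solv Cfsg.Lib.FT
open scoped Pointwise commutatorElement

universe u v

variable {G : Type u} [Group G]

/-- `A` is generated by `h` and `t` subject to the relations of the symmetric group. -/
structure S3Gen (A : Subgroup G) (h t : G) : Prop where
  hh : h * h = 1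
  tt : t ^ 3 = 1
  ht : h * t * h⁻¹ = t ^ 2
  gen : zpowers h ⊔ zpowers t = A

theorem S3Gen.h_mem {A : Subgroup G} {h t : G} (H : S3Gen A h t) : h ∈ A :=
  H.gen ▸ mem_sup_left (mem_zpowers h)

theorem S3Gen.t_mem {A : Subgroup G} {h t : G} (H : S3Gen A h t) : t ∈ A :=
  H.gen ▸ mem_sup_right (mem_zpowers t)

theorem S3Gen.img {A L : Subgroup G} {h t : G} (H : S3Gen A h t) {Γ : Type v} [Group Γ]
    (f : L →* Γ) (hA : A ≤ L) : S3Gen (img f A) (f ⟨h, hA H.h_mem⟩) (f ⟨t, hA H.t_mem⟩) where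
  hh := by rw [← map_mul, ← map_one f]; exact congrArg f (Subtype.ext H.hh)
  tt := by rw [← map_pow, ← map_one f]; exact congrArg f (Subtype.ext H.tt)
  ht := by
    rw [← map_inv, ← map_mul, ← map_mul, ← map_pow]; exact congrArg f (Subtype.ext H.ht)
  gen := by
    rw [← img_zpowers, ← img_zpowers, ← img_sup (zpowers_le.2 (hA H.h_mem))
      (zpowers_le.2 (hA H.t_mem)), H.gen]

theorem S3Gen.mem_centralizer {A : Subgroup G} {h t y : G} (H : S3Gen A h t)
    (h1 : h * y * h⁻¹ = y) (h2 : t * y * t⁻¹ = y) : y ∈ centralizer (A : Set G) := by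
  rw [← H.gen, centralizer_sup', centralizer_zpowers', centralizer_zpowers', mem_inf,
    mem_centralizer_singleton_iff, mem_centralizer_singleton_iff]
  exact ⟨(mul_inv_eq_iff_eq_mul.1 h1).symm, (mul_inv_eq_iff_eq_mul.1 h2).symm⟩

theorem S3Gen.prod_mem_centralizer {A : Subgroup G} {h t u : G} (H : S3Gen A h t)
    (hu : h * u * h⁻¹ = u) (hc : Commute u (t * u * t⁻¹)) :
    u * (t * u * t⁻¹) * (t ^ 2 * u * (t ^ 2)⁻¹) ∈ centralizer (A : Set G) := by
  set v := t * u * t⁻¹ with hv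
  set w := t ^ 2 * u * (t ^ 2)⁻¹ with hw
  have e1 : t * v * t⁻¹ = w := by rw [hv, hw, pow_two]; group
  have e2 : t * w * t⁻¹ = u := by
    calc t * w * t⁻¹ = t ^ 3 * u * (t ^ 3)⁻¹ := by rw [hw]; group
      _ = u := by rw [H.tt]; group
  have conj : ∀ {a b : G}, Commute a b → Commute (t * a * t⁻¹) (t * b * t⁻¹) := fun hab =>
    hab.map (MulAut.conj t)
  have c2 : Commute v w := e1 ▸ conj hc
  have c3 : Commute w u := by
    have := conj c2
    rwa [e1, e2] at this
  have e3 : h * v * h⁻¹ = w := by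
    calc h * v * h⁻¹ = (h * t * h⁻¹) * (h * u * h⁻¹) * (h * t * h⁻¹)⁻¹ := by rw [hv]; group
      _ = w := by rw [H.ht, hu]
  have e4 : h * w * h⁻¹ = v := by
    calc h * w * h⁻¹ = (h * h) * v * (h * h)⁻¹ := by rw [← e3]; group
      _ = v := by rw [H.hh]; group
  refine H.mem_centralizer ?_ ?_
  · calc h * (u * v * w) * h⁻¹ = (h * u * h⁻¹) * (h * v * h⁻¹) * (h * w * h⁻¹) := by group
      _ = u * v * w := by rw [hu, e3, e4, mul_assoc u w v, ← c2.eq, mul_assoc u v w]
  · calc t * (u * v * w) * t⁻¹ = (t * u * t⁻¹) * (t * v * t⁻¹) * (t * w * t⁻¹) := by group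
      _ = u * v * w := by rw [e1, e2, ← hv, mul_assoc v w u, c3.eq, ← mul_assoc v u w, ← hc.eq]

variable [Finite G]

theorem S3Gen.der_le_left {A Q : Subgroup G} {h t : G} (H : S3Gen A h t)
    (hAQ : A ≤ normalizer (Q : Set G)) (hcop : (Nat.card A).Coprime (Nat.card Q))
    (hs : Group.IsSolvable Q) (hf : Q ⊓ centralizer (A : Set G) = ⊥) :
    ⁅Q, Q⁆ ≤ ⁅Q, zpowers h⁆ := by
  have hh : h⁻¹ = h := inv_eq_of_mul_eq_one_right H.hh
  set K₁ : Subgroup G := ⁅Q, zpowers h⁆ with hK₁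
  have hconj : ∀ a ∈ A, MulAut.conj a • K₁ = ⁅Q, zpowers (a * h * a⁻¹)⁆ := fun a ha => by
    rw [hK₁, conj_smul_commutator, conj_smul_eq_of_mem_normalizer (hAQ ha), conj_smul_zpowers]
  have hle : ∀ a ∈ A, ⁅Q, zpowers a⁆ ≤ Q := fun a ha =>
    commutator_le_left_of_le_normalizer ((zpowers_le.2 ha).trans hAQ)
  have hK₁Q : K₁ ≤ Q := hle h H.h_mem
  have hcm : ∀ a ∈ A, a * h * a⁻¹ ∈ A := fun a ha => mul_mem (mul_mem ha H.h_mem) (inv_mem ha)
  have hsup : ∀ a ∈ A, t ∈ zpowers h ⊔ zpowers (a * h * a⁻¹) → Q ≤ K₁ ⊔ MulAut.conj a • K₁ := by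
    intro a ha h1
    rw [hconj a ha]
    have hL : K₁ ⊔ ⁅Q, zpowers (a * h * a⁻¹)⁆ ≤ Q := sup_le hK₁Q (hle _ (hcm a ha))
    conv_lhs => rw [← commutator_eq_of_fpf hAQ hcop hs hf]
    refine (commutator_mono le_rfl (H.gen.ge.trans (sup_le le_sup_left (zpowers_le.2 h1)))).trans ?_
    exact commutator_sup_right_le_of_le_normalizer
      (le_normalizer_iff_commutator_le.2 ((commutator_mono hL le_rfl).trans le_sup_left))
      (le_normalizer_iff_commutator_le.2 ((commutator_mono hL le_rfl).trans le_sup_right))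
      le_sup_left le_sup_right
  have ht2 : t ^ 2 ∈ A := pow_mem H.t_mem 2
  set K₂ : Subgroup G := MulAut.conj t • K₁ with hK₂
  set K₃ : Subgroup G := MulAut.conj (t ^ 2) • K₁ with hK₃
  have s2 : Q ≤ K₁ ⊔ K₂ := hsup t H.t_mem (by
    have : t = h * (t * h * t⁻¹) := by
      calc t = t ^ 2 * t⁻¹ := by group
        _ = h * (t * h * t⁻¹) := by rw [← H.ht, hh]; group
    rw [this]
    exact mul_mem_sup (mem_zpowers _) (by rw [← this]; exact mem_zpowers _))
  have s3 : Q ≤ K₁ ⊔ K₃ := hsup (t ^ 2) ht2 (by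
    have : t = (h * (t ^ 2 * h * (t ^ 2)⁻¹)) ^ 2 := by
      calc t = t ^ 3 * t := by rw [H.tt, one_mul]
        _ = ((t ^ 2) ^ 2 * (t ^ 2)⁻¹) ^ 2 := by group
        _ = (h * (t ^ 2 * h * (t ^ 2)⁻¹)) ^ 2 := by
          congr 1
          nth_rewrite 1 [← H.ht]
          rw [conj_pow, hh]; group
    have h2 : (h * (t ^ 2 * h * (t ^ 2)⁻¹)) ^ 2 ∈ zpowers h ⊔ zpowers (t ^ 2 * h * (t ^ 2)⁻¹) :=
      pow_mem (mul_mem_sup (mem_zpowers _) (mem_zpowers _)) 2
    rwa [← this] at h2)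
  have hK₂Q : K₂ ≤ Q := by rw [hK₂, hconj t H.t_mem]; exact hle _ (hcm t H.t_mem)
  have hK₃Q : K₃ ≤ Q := by rw [hK₃, hconj _ ht2]; exact hle _ (hcm _ ht2)
  have n1 : Q ≤ normalizer (K₁ : Set G) := left_le_normalizer_commutator _ _
  have n2 : Q ≤ normalizer (K₂ : Set G) := by
    rw [hK₂, hconj t H.t_mem]; exact left_le_normalizer_commutator _ _
  have n3 : Q ≤ normalizer (K₃ : Set G) := by
    rw [hK₃, hconj _ ht2]; exact left_le_normalizer_commutator _ _
  have t2 : MulAut.conj t • K₂ = K₃ := by rw [hK₂, ← conj_mul_smul, ← pow_two]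
  have t3 : MulAut.conj t • K₃ = K₁ := by
    rw [hK₃, ← conj_mul_smul, ← pow_succ', H.tt, conj_one_smul]
  have u1 : MulAut.conj h • K₁ = K₁ :=
    conj_smul_eq_of_mem_normalizer (right_le_normalizer_commutator _ _ (mem_zpowers h))
  have u2 : MulAut.conj h • K₂ = K₃ := by
    rw [hK₂, ← conj_mul_smul, mul_inv_eq_iff_eq_mul.1 H.ht, conj_mul_smul, u1]
  have u3 : MulAut.conj h • K₃ = K₂ := by rw [← u2, ← conj_mul_smul, H.hh, conj_one_smul]
  set K₀ : Subgroup G := K₁ ⊓ (K₂ ⊓ K₃) with hK₀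
  have hL : Q ⊔ A ≤ normalizer (K₀ : Set G) := by
    refine sup_le (le_normalizer_inf n1 (le_normalizer_inf n2 n3)) ?_
    rw [← H.gen]
    refine sup_le (zpowers_le.2 ?_) (zpowers_le.2 ?_) <;>
      rw [mem_normalizer_iff_conj_smul_eq, hK₀, smul_inf, smul_inf]
    · rw [u1, u2, u3, inf_comm K₃]
    · rw [t2, t3, ← hK₂, ← inf_assoc, inf_comm]
  have key : K₂ ⊓ K₃ ≤ K₁ := by
    intro x hx
    have := normal_subgroupOf_of_le hL
    set f := qmk (Q ⊔ A) K₀ with hf'
    have hxQ : x ∈ Q := hK₂Q hx.1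
    have hxL : x ∈ Q ⊔ A := mem_sup_left hxQ
    have H' := H.img f le_sup_right
    have v1 : t * x * t⁻¹ ∈ K₁ := t3 ▸ conj_mem_conj_smul t hx.2
    have w1 : t ^ 2 * x * (t ^ 2)⁻¹ ∈ K₁ := by
      have h1 := conj_mem_conj_smul t (t2 ▸ conj_mem_conj_smul t hx.1)
      rw [t3] at h1
      convert h1 using 1
      rw [pow_two]; group
    have hn : ∀ {a : G}, a ∈ normalizer ((K₂ ⊓ K₃ : Subgroup G) : Set G) → ⁅a, x⁆ ∈ K₁ →
        ∀ ha : a ∈ Q ⊔ A, ⁅f ⟨a, ha⟩, f ⟨x, hxL⟩⁆ = 1 := fun {a} h1 h2 ha => by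
      rw [← map_commutatorElement, qmk_eq_one]
      exact mem_inf.2 ⟨h2, mul_mem (conj_mem_of_mem_normalizer h1 hx) (inv_mem hx)⟩
    have h1 := H'.prod_mem_centralizer (u := f ⟨x, hxL⟩) (by
      rw [← mul_inv_eq_one, ← commutatorElement_def]
      refine hn ?_ ?_ _
      · rw [mem_normalizer_iff_conj_smul_eq, smul_inf, u2, u3, inf_comm]
      · rw [hK₁, commutator_comm]; exact commutator_mem_commutator (mem_zpowers h) hxQ) (by
      rw [← map_inv, ← map_mul, ← map_mul]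
      refine (commutatorElement_eq_one_iff_commute.1 (hn ?_ ?_ _)).symm
      · exact le_normalizer_inf n2 n3 (hK₁Q v1)
      · exact commutator_le_left_of_le_normalizer n1 (commutator_mem_commutator v1 hxQ))
    simp only [← map_inv, ← map_mul, ← map_pow] at h1
    have h2 := img_inf_centralizer f le_sup_left le_sup_right hAQ hcop (Or.inr hs)
    rw [hf, img_bot] at h2
    have h3 := h2.ge ⟨coe_mem_img f (mul_mem (mul_mem hxQ (hK₁Q v1)) (hK₁Q w1)), h1⟩
    rw [mem_bot, qmk_eq_one] at h3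
    have h4 : x * (t * x * t⁻¹) * (t ^ 2 * x * (t ^ 2)⁻¹) ∈ K₁ := h3.1
    exact (K₁.mul_mem_cancel_right v1).1 ((K₁.mul_mem_cancel_right w1).1 h4)
  refine (commutator_mono s2 s3).trans (commutator_sup_left_le_of_le_normalizer le_normalizer
    (hK₂Q.trans n1) (commutator_le_left_of_le_normalizer ((sup_le hK₁Q hK₃Q).trans n1)) ?_)
  exact commutator_sup_right_le_of_le_normalizer le_normalizer (hK₃Q.trans n1)
    (commutator_le_right_of_le_normalizer (hK₂Q.trans n1))
    ((le_inf (commutator_le_left_of_le_normalizer (hK₃Q.trans n2))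
      (commutator_le_right_of_le_normalizer (hK₂Q.trans n3))).trans key)

theorem S3Gen.der_le_right {A Q : Subgroup G} {h t : G} (H : S3Gen A h t)
    (hAQ : A ≤ normalizer (Q : Set G)) (hcop : (Nat.card A).Coprime (Nat.card Q))
    (hs : Group.IsSolvable Q) (hf : Q ⊓ centralizer (A : Set G) = ⊥) :
    ⁅Q, Q⁆ ≤ ⁅Q, zpowers t⁆ := by
  have hAt : A ≤ normalizer ((zpowers t : Subgroup G) : Set G) := by
    rw [← H.gen]
    refine sup_le (zpowers_le.2 (mem_normalizer_of_conj_mem ?_)) le_normalizer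
    rw [← conj_smul_le_iff, conj_smul_zpowers, H.ht, zpowers_le]
    exact pow_mem (mem_zpowers t) 2
  have hL : Q ⊔ A ≤ normalizer ((⁅Q, zpowers t⁆ : Subgroup G) : Set G) :=
    sup_le (left_le_normalizer_commutator _ _) (le_normalizer_commutator hAQ hAt)
  have := normal_subgroupOf_of_le hL
  set f := qmk (Q ⊔ A) ⁅Q, zpowers t⁆ with hf'
  have H' := H.img f le_sup_right
  refine (img_qmk_abelian_iff (L := Q ⊔ A) le_sup_left).1 (Fpf.isMulCommutative_of_involution
    (img_norms f hAQ H'.h_mem) ?_ H'.hh)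
  have h2 := img_inf_centralizer f le_sup_left le_sup_right hAQ hcop (Or.inr hs)
  rw [hf, img_bot] at h2
  rw [eq_bot_iff, h2, ← H'.gen, centralizer_sup', centralizer_zpowers', ← img_zpowers]
  exact le_inf inf_le_left (le_inf inf_le_right (inf_le_left.trans
    ((img_qmk_cents_iff le_sup_left (zpowers_le.2 (mem_sup_right H.t_mem))).2 le_rfl)))

/-- `A` behaves like the symmetric group of degree three. -/
structure IsS3 (A : Subgroup G) : Prop where
  two : TwoP A
  card : Nat.card A = 6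
  gen : ∀ b ∈ A, b ≠ 1 → (∃ t, S3Gen A b t) ∨ ∃ h, S3Gen A h b

omit [Finite G] in
theorem IsS3.img {A L : Subgroup G} (h : IsS3 A) {Γ : Type v} [Group Γ] (f : L →* Γ) (hA : A ≤ L)
    (hker : A ⊓ pre f ⊥ = ⊥) : IsS3 (img f A) where
  two := h.two.img f hA hker
  card := by rw [card_img_of_inf_ker hA hker, h.card]
  gen y hy hy1 := by
    obtain ⟨b, hbL, hb, rfl⟩ := mem_img'.1 hy
    exact (h.gen b hb fun h1 => hy1 (by subst h1; exact map_one f)).imp
      (fun ⟨_, H⟩ => ⟨_, H.img f hA⟩) fun ⟨_, H⟩ => ⟨_, H.img f hA⟩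

theorem s3_step {s q : ℕ} [Fact s.Prime] [hq : Fact q.Prime] {A P Q M : Subgroup G}
    (h₀ : Tw s q A P Q M) (hA₀ : IsS3 A) : ⁅Q, Q⁆ ≤ centralizer (M : Set G) := by
  obtain ⟨L, Γ, _, _, f, hAL, -, hQL, hker, hC, h, hf⟩ := h₀.reduce
  have hA := hA₀.img f hAL hker
  refine le_trans ((img_cents_iff hQL hQL).1 ?_) hC
  generalize img f Q = Q, img f A = A, img f P = P, img f M = M at h hf hA
  have hs := Coprime.isSolvable_of_isPGroup h.hQ
  rw [← commutator_eq_bot_iff_le_centralizer]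
  by_contra hne
  have hQ' : ⁅Q, Q⁆ ≤ Q := commutator_le_left_of_le_normalizer le_normalizer
  have hE := PG.inf_centralizer_ne_bot h.hQ (h.hQ.to_le hQ') (left_le_normalizer_commutator Q Q) hne
  obtain ⟨B, K, hBA, hEK, hd⟩ := h.exists_ceData hf (Z := Q ⊓ centralizer (Q : Set Γ)) inf_le_left
    (le_centralizer_iff.1 inf_le_right) (le_normalizer_inf_centralizer h.AQ h.AQ)
    (inf_le_inf_right _ hQ') hE
  have hp := hA.two.prime hBA hd.ne_bot
  have h1 := hd.prime hs (hBA.le.trans h.AQ) (Coprime.hcop_mono h.cAQ hBA.le le_rfl) hp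
    fun d hd1 hd2 hd3 => by
      have h1 : d + 1 ∣ 6 := by rw [hd2, ← hA.card]; exact card_dvd_of_le hBA.le
      rw [← hd2] at hp
      have h2 := Nat.le_of_dvd (by norm_num) h1
      have h3 := h.cAQ
      rw [hA.card] at h3
      have : d ≤ 5 := by omega
      interval_cases d
      · exact absurd (Nat.Coprime.coprime_dvd_right hd3 h3) (by norm_num)
      · norm_num at h1
      · norm_num at h1
      · norm_num at hp
  refine hEK (le_trans (le_inf (inf_le_inf_right _ hQ') (inf_le_left.trans ?_)) h1)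
  obtain ⟨b, hb, hb1⟩ := (Subgroup.bot_or_exists_ne_one B).resolve_left hd.ne_bot
  refine le_trans ?_ (commutator_mono le_rfl (zpowers_le.2 hb))
  rcases hA.gen b (hBA.le hb) hb1 with ⟨t, H⟩ | ⟨t, H⟩
  · exact H.der_le_left h.AQ h.cAQ hs h.fQ
  · exact H.der_le_right h.AQ h.cAQ hs h.fQ

theorem der_le_fittingOf_of_isS3 {K A : Subgroup G} [K.Normal] (hsol : Group.IsSolvable K)
    (hA : IsS3 A) (hcop : (Nat.card A).Coprime (Nat.card K))
    (hfix : K ⊓ centralizer (A : Set G) = ⊥) : ⁅K, K⁆ ≤ fittingOf K := by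
  have h0 := map_le_fittingOf_of_twoP hsol hA.two hcop hfix
  set π := QuotientGroup.mk' (fittingOf K) with hπ
  have hs : Function.Surjective π := QuotientGroup.mk'_surjective _
  have : (K.map π).Normal := Subgroup.Normal.map inferInstance π hs
  have hnil : Group.IsNilpotent (K.map π) := by
    rw [le_antisymm h0 (fittingOf_le _)]; exact fittingOf_isNilpotent _
  rw [commutator_le_iff_map_le_centralizer]
  refine le_of_forall_pCore_le_of_isNilpotent hnil fun p _ => ?_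
  rw [le_centralizer_iff]
  refine le_of_forall_pCore_le_of_isNilpotent hnil fun q _ => ?_
  set P' := (pCore p (K.map π)).map (K.map π).subtype with hP'
  set Q' := (pCore q (K.map π)).map (K.map π).subtype with hQ'
  have : P'.Normal := normal_map_subtype_of_char _
  have : Q'.Normal := normal_map_subtype_of_char _
  have hP'p : IsPGroup p P' := isPGroup_map_pCore p _
  have hQ'p : IsPGroup q Q' := isPGroup_map_pCore q _
  by_cases hpq : q = p
  swap
  · exact le_centralizer_of_disjoint (le_normalizer_of_normal _ _) (le_normalizer_of_normal _ _)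
      (inf_eq_bot_of_coprime_card (IsPGroup.coprime_card_of_ne q p hpq _ _ hQ'p hP'p))
  subst hpq
  obtain ⟨P, Q, hPK, hQK, hP, hQ, hPQ, hAP, hAQ, hPm, hQm⟩ :=
    exists_lift_tower (fittingOf_le K) hsol hcop (s := q) (P' := ⊥) IsPGroup.of_bot hQ'p bot_le
      (map_subtype_le _) bot_le (le_normalizer_of_normal _ _) (le_normalizer_of_normal _ _)
  have hle : ⁅Q, Q⁆ ≤ Q := commutator_le_left_of_le_normalizer le_normalizer
  have h1 := le_fittingOf_of_le_centralizer_opF (hQ.to_le hle) (hle.trans hQK)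
    ((map_mono (hle.trans hQK)).trans h0)
    (s3_step (tw_of_fpf hsol hcop hfix (s := q) bot_le hQK IsPGroup.of_bot hQ (by simp) bot_le
      (le_normalizer_of_normal _ _) hAQ) hA)
  rw [← commutator_le_iff_map_le_centralizer.symm.eq, hQm] at h1
  exact h1

set_option synthInstance.maxSize 2000 in
theorem isS3_map {A : Type v} [Group A] (e : Equiv.Perm (Fin 3) →* A) (he : Function.Injective e) :
    IsS3 ((⊤ : Subgroup (Equiv.Perm (Fin 3))).map e) := by
  have hc : Nat.card ((⊤ : Subgroup (Equiv.Perm (Fin 3))).map e) = 6 := by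
    rw [card_map_of_injective he, card_top, Nat.card_perm, Nat.card_fin]; rfl
  have hgen : ∀ h t : Equiv.Perm (Fin 3), h * h = 1 → t ^ 3 = 1 → h * t * h⁻¹ = t ^ 2 →
      (∀ g, g = 1 ∨ g = t ∨ g = t ^ 2 ∨ g = h ∨ g = h * t ∨ g = h * t ^ 2) →
      S3Gen ((⊤ : Subgroup (Equiv.Perm (Fin 3))).map e) (e h) (e t) := fun h t h1 h2 h3 h4 =>
    ⟨by rw [← map_mul, h1, map_one], by rw [← map_pow, h2, map_one],
      by rw [← map_inv, ← map_mul, ← map_mul, h3, map_pow], by
        rw [← MonoidHom.map_zpowers, ← MonoidHom.map_zpowers, ← Subgroup.map_sup]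
        congr 1
        rw [eq_top_iff]
        intro g _
        have m1 : h ∈ zpowers h ⊔ zpowers t := mem_sup_left (mem_zpowers h)
        have m2 : t ∈ zpowers h ⊔ zpowers t := mem_sup_right (mem_zpowers t)
        rcases h4 g with rfl | rfl | rfl | rfl | rfl | rfl
        exacts [one_mem _, m2, pow_mem m2 2, m1, mul_mem m1 m2, mul_mem m1 (pow_mem m2 2)]⟩
  refine ⟨⟨⟨2, 3, Nat.prime_two, Nat.prime_three, hc⟩, fun h => ?_⟩, hc, ?_⟩
  · have h1 : IsCyclic (Equiv.Perm (Fin 3)) :=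
      (topEquiv.isCyclic).1 ((equivMapOfInjective _ e he).isCyclic.2 h)
    have h2 := (IsMulCommutative.is_comm (M := Equiv.Perm (Fin 3))).comm
    revert h2
    decide
  · rintro _ ⟨b, -, rfl⟩ hb
    have h1 : b ≠ 1 := by rintro rfl; exact hb (map_one e)
    have key : ∀ b : Equiv.Perm (Fin 3), b ≠ 1 →
        (∃ t, b * b = 1 ∧ t ^ 3 = 1 ∧ b * t * b⁻¹ = t ^ 2 ∧
          ∀ g, g = 1 ∨ g = t ∨ g = t ^ 2 ∨ g = b ∨ g = b * t ∨ g = b * t ^ 2) ∨
        ∃ h, h * h = 1 ∧ b ^ 3 = 1 ∧ h * b * h⁻¹ = b ^ 2 ∧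
          ∀ g, g = 1 ∨ g = b ∨ g = b ^ 2 ∨ g = h ∨ g = h * b ∨ g = h * b ^ 2 := by decide
    exact (key b h1).imp (fun ⟨t, a1, a2, a3, a4⟩ => ⟨_, hgen b t a1 a2 a3 a4⟩)
      fun ⟨t, a1, a2, a3, a4⟩ => ⟨_, hgen t b a1 a2 a3 a4⟩

theorem isNilpotent_commutator_of_s3 {X : Type u} [Group X] [Finite X] (hX : Group.IsSolvable X)
    (φ : Equiv.Perm (Fin 3) →* MulAut X) (hcop : (Nat.card X).Coprime 6)
    (hfpf : ∀ g : X, (∀ a, φ a g = g) → g = 1) : Group.IsNilpotent (commutator X) := by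
  have hA := isS3_map _ (SemidirectProduct.inr_injective (φ := φ))
  have h := der_le_fittingOf_of_isS3 (K := Act.L φ ⊤) (A := Act.R φ ⊤)
    (Act.isSolvable_L.2 inferInstance) hA (by rw [hA.card, Act.card_L_top]; exact hcop.symm) (by
      rw [Act.L_top_inf_centralizer_R, Act.L_eq_bot_iff, eq_bot_iff]
      exact fun x hx => mem_bot.2 (hfpf x (Act.mem_fix_top.1 hx)))
  rw [Act.commutator_L_L] at h
  exact Act.isNilpotent_L.1 (isNilpotent_of_le h (fittingOf_isNilpotent _))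

end Cfsg.Lib.Solv.FH
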