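import Cfsg.Agent.Solv.CoprimeGen

/-! Index of an invariant subgroup under a coprime action of a non-cyclic abelian group. -/

set_option autoImplicit false

namespace Cfsg.Lib.Solv.Coprime

open Subgroup
open scoped Pointwise commutatorElement

variable {G : Type*} [Group G] [Finite G]

theorem le_normalizer_inf_centralizer_singleton {B K : Subgroup G} [IsMulCommutative B]
    (hBK : B ≤ normalizer (K : Set G)) {a : G} (ha : a ∈ B) :
    B ≤ normalizer ((K ⊓ centralizer ({a} : Set G) : Subgroup G) : Set G) := by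
  intro b hb
  apply mem_normalizer_fintype
  rintro x ⟨hx, hxa⟩
  refine ⟨conj_mem hBK hb hx, ?_⟩
  have hxa' : x * a = a * x := mem_centralizer_singleton_iff.1 hxa
  have hba : b * a = a * b := congrArg Subtype.val (IsMulCommutative.is_comm.comm (⟨b, hb⟩ : B) ⟨a, ha⟩)
  show b * x * b⁻¹ ∈ centralizer ({a} : Set G)
  rw [mem_centralizer_singleton_iff]
  calc b * x * b⁻¹ * a = b * x * b⁻¹ * (a * b) * b⁻¹ := by group
    _ = b * (x * a) * b⁻¹ := by rw [← hba]; group
    _ = (b * a) * x * b⁻¹ := by rw [hxa']; group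
    _ = a * (b * x * b⁻¹) := by rw [hba]; group

theorem relIndex_dvd_prod_of_nilpotent {B : Subgroup G} [IsMulCommutative B] (hB : ¬ IsCyclic B)
    (T : Finset G) (hT : ∀ a, a ∈ T ↔ a ∈ B ∧ a ≠ 1) {H : Subgroup G}
    (hBH : B ≤ normalizer (H : Set G)) (n : ℕ) : ∀ P : Subgroup G, Nat.card P = n →
      Group.IsNilpotent P → B ≤ normalizer (P : Set G) → (Nat.card B).Coprime (Nat.card P) →
      H ≤ P → H.relIndex P ∣ ∏ a ∈ T, H.relIndex (P ⊓ centralizer ({a} : Set G)) := by
  induction n using Nat.strong_induction_on with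
  | _ n ih =>
    intro P hn hP hBP hcop hHP
    rcases hHP.eq_or_lt with rfl | hlt
    · simp
    obtain ⟨M, hHM, hMP, hBM, hPM, hmax⟩ := exists_maximal_invariant hP hBP hlt hBH
    have hPN : P ≤ normalizer (M : Set G) := by
      intro g hg
      apply mem_normalizer_fintype
      intro x hx
      have : g * x * g⁻¹ = ⁅g, x⁆ * x := by rw [commutatorElement_def]; group
      rw [this]
      exact M.mul_mem (hPM (commutator_mem_commutator hg (hMP.le hx))) hx
    have hMnil : Group.IsNilpotent M :=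
      Group.nilpotent_of_mulEquiv (subgroupOfEquivOfLe hMP.le)
    have h1 := ih (Nat.card M) (by
      rw [← hn]
      exact lt_of_le_of_ne (card_le_of_le hMP.le) fun h => hMP.ne (eq_of_le_of_card_ge hMP.le h.ge))
      M rfl hMnil hBM (hcop.coprime_dvd_right (card_dvd_of_le hMP.le)) hHM
    have h2 : ∃ a ∈ B, a ≠ 1 ∧ ¬ P ⊓ centralizer ({a} : Set G) ≤ M := by
      by_contra hcon
      push Not at hcon
      exact hMP.not_ge (le_of_forall_centralizer_singleton hB hBP hcop hcon)
    obtain ⟨a, ha, ha1, hna⟩ := h2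
    have hsup : M ⊔ P ⊓ centralizer ({a} : Set G) = P := by
      refine (hmax _ le_sup_left (sup_le hMP.le inf_le_left) ?_).resolve_left ?_
      · intro b hb
        rw [mem_normalizer_iff_conj_smul, smul_sup, mem_normalizer_iff_conj_smul.1 (hBM hb),
          mem_normalizer_iff_conj_smul.1 (le_normalizer_inf_centralizer_singleton hBP ha hb)]
      · intro h; exact hna (h ▸ le_sup_right)
    have h3 : M.relIndex P = M.relIndex (P ⊓ centralizer ({a} : Set G)) := by
      rw [← relIndex_sup_of_le_normalizer (inf_le_left.trans hPN), hsup]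
    have h4 : ∀ b : G, H.relIndex (P ⊓ centralizer ({b} : Set G)) =
        H.relIndex (M ⊓ centralizer ({b} : Set G)) * M.relIndex (P ⊓ centralizer ({b} : Set G)) := by
      intro b
      have := relIndex_inf_mul_relIndex H M (P ⊓ centralizer ({b} : Set G))
      rw [← inf_assoc, inf_of_le_left hMP.le, inf_of_le_left hHM] at this
      exact this.symm
    rw [← relIndex_mul_relIndex H M P hHM hMP.le, Finset.prod_congr rfl fun b _ => h4 b,
      Finset.prod_mul_distrib]
    refine mul_dvd_mul h1 ?_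
    rw [h3]
    exact Finset.dvd_prod_of_mem (fun b => M.relIndex (P ⊓ centralizer ({b} : Set G)))
      ((hT a).2 ⟨ha, ha1⟩)

/-- If the non-cyclic abelian group `B` acts coprimely on `K` and `L ≤ K` is `B`-invariant then
`|K : L|` divides the product of the `|C_K(a) : C_L(a)|`, `a ∈ B^#`. -/
theorem relIndex_dvd_prod {B K L : Subgroup G} [IsMulCommutative B] (hB : ¬ IsCyclic B)
    (T : Finset G) (hT : ∀ a, a ∈ T ↔ a ∈ B ∧ a ≠ 1) (hBK : B ≤ normalizer (K : Set G))
    (hBL : B ≤ normalizer (L : Set G)) (hcop : (Nat.card B).Coprime (Nat.card K)) (hLK : L ≤ K) :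
    L.relIndex K ∣ ∏ a ∈ T, L.relIndex (K ⊓ centralizer ({a} : Set G)) := by
  rw [Nat.dvd_iff_prime_pow_dvd_dvd]
  intro p k hp hk
  have := Fact.mk hp
  have hs : ∀ X : Subgroup G, Group.IsSolvable B ∨ Group.IsSolvable X :=
    fun _ => Or.inl (isSolvable_of_isMulCommutative B)
  have hcopL : (Nat.card B).Coprime (Nat.card L) := hcop.coprime_dvd_right (card_dvd_of_le hLK)
  obtain ⟨Q, hQL, hQ, hQi, hBQ⟩ := exists_invariant_sylow' hBL hcopL (hs L) p
  obtain ⟨P, hQP, hPK, hP, hPi, hBP⟩ := exists_le_invariant_sylow' hBK hcop (hs K) (hQL.trans hLK) hQ hBQ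
  have h1 : p ^ k ∣ Q.relIndex P := by
    have e1 := relIndex_mul_relIndex Q L K hQL hLK
    have e2 := relIndex_mul_relIndex Q P K hQP hPK
    have : p ^ k ∣ Q.relIndex P * P.relIndex K := by rw [e2, ← e1]; exact hk.mul_left _
    exact (Nat.Coprime.pow_left k ((Nat.Prime.coprime_iff_not_dvd hp).2 hPi)).dvd_of_dvd_mul_right this
  refine h1.trans ((relIndex_dvd_prod_of_nilpotent hB T hT hBQ _ P rfl hP.isNilpotent hBP
    (hcop.coprime_dvd_right (card_dvd_of_le hPK)) hQP).trans (Finset.prod_dvd_prod_of_dvd _ _ ?_))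
  intro a haT
  have ha := ((hT a).1 haT).1
  have hz : zpowers a ≤ B := zpowers_le.2 ha
  have hnd := not_dvd_relIndex_centralizer (A := zpowers a) (hz.trans hBL)
    (hcopL.coprime_dvd_left (card_dvd_of_le hz)) (Or.inl (isSolvable_zpowers a)) hQL hQ hQi
    (hz.trans hBQ)
  have hcz : centralizer (zpowers a : Set G) = centralizer ({a} : Set G) := by
    rw [zpowers_eq_closure, centralizer_closure]
  rw [hcz] at hnd
  set C := centralizer ({a} : Set G)
  obtain ⟨j, hj⟩ : ∃ j, Q.relIndex (P ⊓ C) = p ^ j :=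
    (hP.to_le (inf_le_left : P ⊓ C ≤ P)).index (Q.subgroupOf (P ⊓ C))
  have e1 := relIndex_inf_mul_relIndex Q P (K ⊓ C)
  have e2 := relIndex_inf_mul_relIndex Q L (K ⊓ C)
  rw [← inf_assoc, inf_of_le_left hPK, inf_of_le_left hQP] at e1
  rw [← inf_assoc, inf_of_le_left hLK, inf_of_le_left hQL] at e2
  have : p ^ j ∣ Q.relIndex (L ⊓ C) * L.relIndex (K ⊓ C) := by
    rw [e2, ← e1, hj]; exact dvd_mul_right _ _
  rw [hj]
  exact (Nat.Coprime.pow_left j ((Nat.Prime.coprime_iff_not_dvd hp).2 hnd)).dvd_of_dvd_mul_left this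

end Cfsg.Lib.Solv.Coprime
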