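import Cfsg.Agent.Solv.AbCent
import Cfsg.Agent.Solv.ThompsonWrap
import Cfsg.Agent.Solv.HallConverse
import Cfsg.Agent.Local.ProdCard
import Cfsg.Agent.Inst.S0108

/-!
A finite group with a coprime non-cyclic operator group of order `r ^ 2` all of whose non-identity
elements have abelian fixed point subgroups is solvable.
-/

set_option autoImplicit false

open Pointwise Cfsg Cfsg.Lib.Solv Cfsg.Lib.FT Cfsg.Lib.Trans Subgroup

namespace Cfsg.Lib.Solv.AbCent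

universe u

variable {Γ : Type u} [Group Γ] {A G H K L P Q T X Y : Subgroup Γ} {a b : Γ} {p q : ℕ} {π : Set ℕ}

/-- A minimal counterexample. -/
structure MC (r : ℕ) (A G : Subgroup Γ) : Prop extends Ctx r A G where
  fpf : G ⊓ 𝐂 A = ⊥
  nsol : ¬ Group.IsSolvable G
  sol : ∀ H, Inv A G H → H ≠ G → Group.IsSolvable H
  simple : ∀ N, Inv A G N → G ≤ 𝐍 N → N = ⊥ ∨ N = G

/-- A maximal invariant `π`-subgroup. -/
def MaxPi (A G : Subgroup Γ) (π : Set ℕ) (H : Subgroup Γ) : Prop :=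
  Maximal (fun K => Inv A G K ∧ IsPiSubgroup π K) H

variable [Finite Γ] {r : ℕ} [hr : Fact r.Prime] [hp : Fact p.Prime] [hq : Fact q.Prime]

namespace MC

variable (h : MC r A G)
include h

omit [Finite Γ] hr in
theorem solN (hT : Inv A G T) (h1 : T ≠ ⊥) (hs : Group.IsSolvable T) :
    Group.IsSolvable ↥(G ⊓ 𝐍 T) := h.sol _ (h.inv.nor hT) fun e =>
  (h.simple T hT (e.ge.trans inf_le_right)).elim h1 fun e => h.nsol (e ▸ hs)

omit hr in
theorem not_npc (hd : p ∣ Nat.card G) : ¬ IsPiHallOf {p}ᶜ (piCoreOf {p}ᶜ G) G := fun e => by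
  rcases h.simple _ (h.inv.pcore {p}ᶜ) (pcore_normal _ G).2 with h1 | h1
  · exact h.nsol (pgroup_sol (p := p) (pgroup_iff.1 (by simpa using (Hall_eq_bot_iff e).1 h1)))
  · exact (p'groupE hp.out).1 (h1 ▸ pcore_pgroup {p}ᶜ G) hd

theorem not_le (hd : p ∣ Nat.card G) (hP : IsSylowOf p P G) (hA : A ≤ 𝐍 P) (ha : a ∈ A)
    (h1 : a ≠ 1) : ¬ P ≤ 𝐂₁ a := fun e => h.not_npc hd
  ((Burnside_normal_complement hp.out hP (h.nf0 ha h1 ⟨hP.1, hA⟩ (h.inv.nor ⟨hP.1, hA⟩)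
    inf_le_right e)).compl_p'Hall.2 hP)

theorem exists_odd (h2 : p ≠ 2) (hd : p ∣ Nat.card G) (hP : IsSylowOf p P G) (hA : A ≤ 𝐍 P) :
    ∃ a ∈ A, a ≠ 1 ∧ ∀ b ∈ A, b ∉ zpowers a → P ⊓ 𝐂₁ b ≠ ⊥ := by
  by_contra! hc
  obtain ⟨S, rfl⟩ := exists_sylow_of hP
  refine h.not_npc hd (normal_p_compl_iff.1 (hasNormalPComplement_of_forall_invariant h2 S
    fun W hW hW1 hα => ?_))
  have hWi : Inv A G W := ⟨hW.trans hP.1, hA.trans (normalizer_le_normalizer_of_invariant hα)⟩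
  refine normal_p_compl_iff.2 (h.hall_of (h.inv.nor hWi) (h.solN hWi hW1
    (pgroup_sol (isPGroupS hW (Sylow_pgroup hP)))) fun V K hV hK hVp _ hKH hKV hKp _ =>
      h.gen hK fun a ha ha1 => ?_)
  obtain ⟨b, hb, hab, e⟩ := hc a ha ha1
  have hT := h.cent1 hK ha
  exact centsC.1 (commG1P.1 (le_bot_iff.1 (h.comm_le hb (fun e => hab (e ▸ one_mem _)) hV hT
    (norms1 _) (inf_le_left.trans hKV) (norms1 _) (norms1 _)
    (pgroup_coprime_p'group hVp (pgroupS inf_le_left hKp)) (pgroup_sol hVp)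
    (abelian_sol (abelianS (inf_le_inf_right _ hK.1) (h.ab a ha ha1))) bot_le
    (e ▸ inf_le_inf_right _ (h.le_syl h.fpf hP hA hV hVp))
    (h.ti h.fpf ha ha1 hb hab (inf_le_left.trans hT.1) (inf_le_left.trans inf_le_right)
      inf_le_right))))

theorem max_norm (hH : MaxPi A G π H) (hT : Inv A G T) (h1 : T ≠ ⊥) (hs : Group.IsSolvable T)
    (hn : H ≤ 𝐍 T) (hX : Inv A G X) (hπ : IsPiSubgroup π X) (h2 : X ≤ 𝐍 T) : X ≤ H :=
  le_sup_right.trans (hH.2 ⟨hH.1.1.sup hX, h.join h.fpf (h.inv.nor hT) (h.solN hT h1 hs)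
    (le_inf hH.1.1.1 hn) (le_inf hX.1 h2) hH.1.1.2 hX.2 hH.1.2 hπ⟩ le_sup_left)

theorem max_normZ (hH : MaxPi A G π H) (h1 : piCoreOf {p} H ≠ ⊥) (hX : Inv A G X)
    (hπ : IsPiSubgroup π X) (h2 : X ≤ 𝐍 (centerOf (piCoreOf {p} H))) : X ≤ H :=
  h.max_norm hH ((hH.1.1.pcore _).cent (hH.1.1.pcore _))
    ((center_nil_eq1 (pgroup_nil (pcore_isPGroup p H))).not.2 h1) (abelian_sol (abelian_center _))
    (norms_center (pcore_normal _ H).2) hX hπ h2

theorem bender1 (hG : ¬ IsPiSubgroup π G) (hpq : p ≠ q) (hπ : π = {p, q}) (hH : MaxPi A G π H)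
    (hK : MaxPi A G π K) (h1 : piCoreOf {q} H ≠ ⊥) (h2 : centerOf (piCoreOf {q} H) ≤ K) :
    piCoreOf {p} H ⊓ K ≤ piCoreOf {p} K := by
  have h3 := h.max_normZ hH h1 (hK.1.1.nor ((hH.1.1.pcore _).cent (hH.1.1.pcore _)))
    (pgroupS inf_le_left hK.1.2) inf_le_right
  refine le_trans (pcore_max (pgroup_p'group_of_ne (isPGroupS inf_le_left (pcore_isPGroup p H)) hpq)
    ⟨le_inf inf_le_right (inf_le_left.trans (cents_norm ((pcore_cent (by simpa using hpq) H).trans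
      (centS inf_le_left)))), normsI (h3.trans (pcore_normal _ H).2) (normsG inf_le_left)⟩)
    ((p'core_norm_pgroup hq.out h2 (pgroupS inf_le_left (pcore_pgroup _ H))
      (h.sol K hK.1.1 fun e => hG (e ▸ hK.1.2))).trans (pcore_max' (pgroup_of_pair (hπ ▸ hK.1.2)
        (pcore_sub _ K) (pcore_pgroup _ K)) (pcore_normal _ K)))

theorem bender2 (hG : ¬ IsPiSubgroup π G) (hpq : p ≠ q) (hπ : π = {p, q}) (hH : MaxPi A G π H)
    (hK : MaxPi A G π K) (h1 : piCoreOf {p} H ≠ ⊥) (h2 : piCoreOf {q} H ≠ ⊥)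
    (h3 : centerOf (piCoreOf {p} H) ≤ K) (h4 : centerOf (piCoreOf {q} H) ≤ K) :
    piCoreOf {p} K ≠ ⊥ ∧ piCoreOf {q} K ≤ H :=
  have h5 := (le_inf inf_le_left h3).trans (h.bender1 hG hpq hπ hH hK h2 h4)
  ⟨subG1_contra h5 ((center_nil_eq1 (pgroup_nil (pcore_isPGroup p H))).not.2 h1),
    h.max_normZ hH h1 (hK.1.1.pcore _) (pgroupS (pcore_sub _ K) hK.1.2)
      (cents_norm ((pcore_cent (by simpa using hpq.symm) K).trans (centS h5)))⟩

theorem bender (hG : ¬ IsPiSubgroup π G) (hpq : p ≠ q) (hπ : π = {p, q}) (hH : MaxPi A G π H)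
    (hK : MaxPi A G π K) (h1 : piCoreOf {p} H ≠ ⊥) (h2 : piCoreOf {q} H ≠ ⊥)
    (h3 : centerOf (piCoreOf {p} H) ≤ K) (h4 : centerOf (piCoreOf {q} H) ≤ K) : K ≤ H := by
  have hπ' := hπ.trans (Set.pair_comm p q)
  obtain ⟨h5, h6⟩ := h.bender2 hG hpq hπ hH hK h1 h2 h3 h4
  obtain ⟨h7, h8⟩ := h.bender2 hG hpq.symm hπ' hH hK h2 h1 h4 h3
  have h9 := (h.bender2 hG hpq.symm hπ' hK hH h7 h5 (inf_le_left.trans h6) (inf_le_left.trans h8)).2
  have e := le_antisymm ((le_inf le_rfl h9).trans (h.bender1 hG hpq hπ hH hK h2 h4))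
    ((le_inf le_rfl h8).trans (h.bender1 hG hpq hπ hK hH h7 (inf_le_left.trans h6)))
  exact h.max_norm hH (hH.1.1.pcore _) h1 (pgroup_sol (pcore_isPGroup p H)) (pcore_normal _ H).2
    hK.1.1 hK.1.2 (e ▸ (pcore_normal _ K).2)

theorem inf_syl (hP : IsSylowOf p P G) (hA : A ≤ 𝐍 P) (hH : Inv A G H) : IsSylowOf p (P ⊓ H) H :=
  Sig.sylow_inf_of_cent_norm h.pg h.norm h.cop hP hA hH.1 hH.2 (h.fpf.trans_le bot_le)

theorem syl_le (hG : ¬ IsPiSubgroup π G) (hpq : p ≠ q) (hπ : π = {p, q}) (hH : MaxPi A G π H)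
    (h1 : piCoreOf {p} H ≠ ⊥) (h2 : piCoreOf {q} H ≠ ⊥) (hP : IsSylowOf p P G) (hA : A ≤ 𝐍 P) :
    P ≤ H := by
  have hPi : Inv A G P := ⟨hP.1, hA⟩
  have hD := hPi.inf hH.1.1.2
  have hPπ : IsPiSubgroup π P := pi_pgroup (Sylow_pgroup hP) (by simp [hπ])
  refine inf_eq_left.1 (nilpotent_sub_norm (pgroup_nil (Sylow_pgroup hP)) inf_le_left
    (le_inf inf_le_left (h.gen (hPi.nor hD) fun a ha ha1 => ?_)))
  have hU := h.cent1 (hPi.nor hD) ha
  have hUπ : IsPiSubgroup π (P ⊓ 𝐍 (P ⊓ H) ⊓ 𝐂₁ a) := pgroupS (inf_le_left.trans inf_le_left) hPπ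
  by_contra hc
  have hZ := fun s => (hH.1.1.pcore {s}).cent (hH.1.1.pcore {s})
  have key : ∀ T, Inv A G T → T ≤ 𝐂₁ a → centerOf (piCoreOf {p} H) ≤ 𝐂 T →
      centerOf (piCoreOf {q} H) ≤ 𝐂 T → T = ⊥ := fun T hT h3 h4 h5 => by
    by_contra h6
    have h7 := (hZ p).sup (hZ q)
    obtain ⟨K, hK, hK'⟩ := Finite.exists_le_maximal (p := fun K => Inv A G K ∧ IsPiSubgroup π K)
      ⟨h7.sup hU, h.join h.fpf (h.inv.nor hT) (h.solN hT h6 (abelian_sol (abelianS (le_inf hT.1 h3)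
        (h.ab a ha ha1)))) (le_inf h7.1 (cents_norm (sup_le h4 h5))) (le_inf hU.1 (cents_norm
          (h.cc ha ha1 hU.1 hT.1 inf_le_right h3))) h7.2 hU.2 (pgroupS (sup_le (inf_le_left.trans
            (pcore_sub _ H)) (inf_le_left.trans (pcore_sub _ H))) hH.1.2) hUπ⟩
    exact hc ((le_sup_right.trans hK).trans (h.bender hG hpq hπ hH hK' h1 h2
      ((le_sup_left.trans le_sup_left).trans hK) ((le_sup_right.trans le_sup_left).trans hK)))
  have h3 := key _ (h.cent1 (hH.1.1.pcore {p}) ha) inf_le_right (inf_le_right.trans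
    (centS inf_le_left)) (centSS inf_le_left inf_le_left (pcore_cent (by simpa using hpq.symm) H))
  have h4 := key _ (h.cent1 (hH.1.1.pcore {q}) ha) inf_le_right (centSS inf_le_left inf_le_left
    (pcore_cent (by simpa using hpq) H)) (inf_le_right.trans (centS inf_le_left))
  have hB := zpowers_le.2 ha
  have h5 := h.comm_zp_le ha hD (inf_le_right.trans (pcore_normal {p} H).2) fun b hb hab => by
    have hT := h.cent1 hD hb
    have hTp := isPGroupS (inf_le_left.trans inf_le_left : P ⊓ H ⊓ 𝐂₁ b ≤ P) (Sylow_pgroup hP)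
    have hTH : P ⊓ H ⊓ 𝐂₁ b ≤ H := inf_le_left.trans inf_le_right
    exact h.le_core h.fpf hpq hH.1.1 (h.sol H hH.1.1 fun e => hG (e ▸ hH.1.2)) (hπ ▸ hH.1.2) hTH hTp
      (centsC.1 (commG1P.1 (le_bot_iff.1 (h.comm_le ha ha1 (hH.1.1.pcore _) hT (norms1 _)
        (hTH.trans (pcore_normal _ H).2) (norms1 _) (norms1 _)
        (pgroup_coprime_of_ne (pcore_isPGroup q H) hTp hpq.symm) (pgroup_sol (pcore_isPGroup q H))
        (pgroup_sol hTp) bot_le h4.le (h.ti h.fpf ha ha1 hb hab (inf_le_left.trans hT.1)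
          inf_le_right (inf_le_left.trans inf_le_right))))))
  have h6 := coprime_cent_prod (hB.trans (hH.1.1.pcore {p}).2) (h.cop' (hH.1.1.pcore {p}).1 hB)
    (.inl (abelian_sol (abelian_zpowers a)))
  rw [cent_zpowers, h3, sup_bot_eq] at h6
  refine hc (h.max_norm hH (hH.1.1.pcore _) h1 (pgroup_sol (pcore_isPGroup p H))
    (pcore_normal _ H).2 hU hUπ ?_)
  rw [← le_antisymm h5 (h6.ge.trans (commgSS (pcore_sub_Hall (h.inf_syl hP hA hH.1.1)) le_rfl))]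
  exact normsR (inf_le_left.trans inf_le_right) (inf_le_right.trans (cent1_le_norm_zpowers a))

theorem norm_syl (hG : ¬ IsPiSubgroup π G) (hpq : p ≠ q) (hπ : π = {p, q}) (hH : MaxPi A G π H)
    (h2 : piCoreOf {q} H = ⊥) (hP : IsSylowOf p P G) (hA : A ≤ 𝐍 P) : H ≤ 𝐍 P := by
  have hPi : Inv A G P := ⟨hP.1, hA⟩
  have hD := hPi.inf hH.1.1.2
  have hS := h.inf_syl hP hA hH.1.1
  have h3 : H ≤ 𝐍 (P ⊓ H) := by
    rw [le_antisymm (h.le_core h.fpf hpq hH.1.1 (h.sol H hH.1.1 fun e => hG (e ▸ hH.1.2))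
      (hπ ▸ hH.1.2) inf_le_right (Sylow_pgroup hS) (by rw [h2, cent_bot]; exact le_top)) (pcore_sub_Hall hS)]
    exact (pcore_normal _ H).2
  by_cases h4 : P ⊓ H = ⊥
  · rw [← pcore_pgroup_id (pgroup_iff.2 (pgroup_of_pair ((hπ.trans (Set.pair_comm p q)) ▸ hH.1.2)
      le_rfl ((Hall_eq_bot_iff hS).1 h4))), h2]
    exact bot_le
  · rwa [nilpotent_sub_norm (pgroup_nil (Sylow_pgroup hP)) inf_le_left (le_inf inf_le_left
      (h.max_norm hH hD h4 (pgroup_sol (Sylow_pgroup hS)) h3 (hPi.nor hD) (pgroupS inf_le_left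
        (pi_pgroup (Sylow_pgroup hP) (by simp [hπ]))) inf_le_right))] at h3

theorem dichotomy (hpq : p ≠ q) (hP : IsSylowOf p P G) (hA : A ≤ 𝐍 P) (hQ : IsSylowOf q Q G)
    (hA' : A ≤ 𝐍 Q) (hc : ¬ IsPiSubgroup {p, q} (P ⊔ Q)) (hL : Inv A G L) (hs : Group.IsSolvable L)
    (hX : X ≤ L) (hY : Y ≤ L) (hAX : A ≤ 𝐍 X) (hAY : A ≤ 𝐍 Y) (h1 : X ≤ P) (h2 : Y ≤ Q) :
    X ≤ 𝐍 Q ∨ Y ≤ 𝐍 P := by
  have hG : ¬ IsPiSubgroup {p, q} G := fun e => hc (pgroupS (sup_le hP.1 hQ.1) e)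
  obtain ⟨H, hH, hH'⟩ := Finite.exists_le_maximal
    (p := fun K => Inv A G K ∧ IsPiSubgroup {p, q} K) ⟨⟨(sup_le hX hY).trans hL.1, normsY hAX hAY⟩,
      h.join h.fpf hL hs hX hY hAX hAY (pi_pgroup (isPGroupS h1 (Sylow_pgroup hP)) (by simp))
        (pi_pgroup (isPGroupS h2 (Sylow_pgroup hQ)) (by simp))⟩
  by_cases h3 : piCoreOf {q} H = ⊥
  · exact .inr ((le_sup_right.trans hH).trans (h.norm_syl hG hpq rfl hH' h3 hP hA))
  by_cases h4 : piCoreOf {p} H = ⊥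
  · exact .inl ((le_sup_left.trans hH).trans
      (h.norm_syl hG hpq.symm (Set.pair_comm p q) hH' h4 hQ hA'))
  exact absurd (pgroupS (sup_le (h.syl_le hG hpq rfl hH' h4 h3 hP hA)
    (h.syl_le hG hpq.symm (Set.pair_comm p q) hH' h3 h4 hQ hA')) hH'.1.2) hc

theorem inf_norm_eq_bot (hpq : p ≠ q) (hP : IsSylowOf p P G) (hA : A ≤ 𝐍 P) (hQ : IsSylowOf q Q G)
    (hA' : A ≤ 𝐍 Q) (hc : ¬ IsPiSubgroup {p, q} (P ⊔ Q)) : Q ⊓ 𝐍 P = ⊥ := by
  by_contra hne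
  have hPp := Sylow_pgroup hP
  have hQq := Sylow_pgroup hQ
  have hPi : Inv A G P := ⟨hP.1, hA⟩
  have hQi : Inv A G Q := ⟨hQ.1, hA'⟩
  have hPπ : IsPiSubgroup {p, q} P := pi_pgroup hPp (by simp)
  have hQπ : IsPiSubgroup {p, q} Q := pi_pgroup hQq (by simp)
  have hX := hPi.nor hQi
  have hY := hQi.nor hPi
  have h1 : ¬ P ⊓ 𝐍 (P ⊓ 𝐍 Q) ≤ 𝐍 Q := fun e => hc (pgroupY' (inf_eq_left.1 (nilpotent_sub_norm
    (pgroup_nil hPp) inf_le_left (le_inf inf_le_left e))) hPπ hQπ)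
  have h2 : ¬ Q ⊓ 𝐍 (Q ⊓ 𝐍 P) ≤ Q ⊓ 𝐍 P := fun e => hc (pgroupY (inf_eq_left.1 (nilpotent_sub_norm
    (pgroup_nil hQq) inf_le_left e)) hPπ hQπ)
  have hXY : Q ⊓ 𝐍 P ≤ 𝐂 (P ⊓ 𝐍 Q) := commG1P.1 (le_bot_iff.1 ((le_inf
    ((commgSS le_rfl inf_le_left).trans (commg_subr.2 inf_le_right))
    ((commgSS inf_le_left le_rfl).trans (commg_subl.2 inf_le_right))).trans
      (coprime_TIg (pgroup_coprime_of_ne hPp hQq hpq)).le))
  have hP' := hPi.nor hX
  have hQ' := hQi.nor hY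
  have hYP : Q ⊓ 𝐍 P ≤ 𝐍 (P ⊓ 𝐍 (P ⊓ 𝐍 Q)) := normsI inf_le_right (norms_norm (cents_norm hXY))
  have key : ∀ a ∈ A, a ≠ 1 → ¬ Q ⊓ 𝐍 (Q ⊓ 𝐍 P) ⊓ 𝐂₁ a ≤ Q ⊓ 𝐍 P → Q ⊓ 𝐍 P ≤ 𝐂₁ a := by
    intro a ha ha1 hU
    have hUi := h.cent1 hQ' ha
    have hU' : ¬ Q ⊓ 𝐍 (Q ⊓ 𝐍 P) ⊓ 𝐂₁ a ≤ 𝐍 P := fun e =>
      hU (le_inf (inf_le_left.trans inf_le_left) e)
    have h3 := (h.dichotomy hpq hP hA hQ hA' hc (h.cent1 h.inv ha) (abelian_sol (h.ab a ha ha1))
      (inf_le_inf_right _ hP.1) (inf_le_inf_right _ hQ'.1) (h.cent1 hPi ha).2 hUi.2 inf_le_left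
      (inf_le_left.trans inf_le_left)).resolve_right hU'
    have h4 := h.comm_zp_le ha hY (norms_subcent (normG _) hYP) fun b hb hab => by
      have hT := h.cent1 hY hb
      have hTq := isPGroupS (inf_le_left.trans inf_le_left : Q ⊓ 𝐍 P ⊓ 𝐂₁ b ≤ Q) hQq
      exact le_inf inf_le_left (stable_factor_cent (inf_le_left.trans hXY) (h.comm_le ha ha1 hP' hT
        hX.2 (inf_le_left.trans hYP) inf_le_right (inf_le_left.trans (cents_norm hXY))
        (pgroup_coprime_of_ne (isPGroupS inf_le_left hPp) hTq hpq)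
        (pgroup_sol (isPGroupS inf_le_left hPp)) (pgroup_sol hTq) (le_inf inf_le_left (normG _))
        (le_inf (inf_le_left.trans inf_le_left) ((inf_le_inf_right _ inf_le_left).trans h3))
        (h.ti h.fpf ha ha1 hb hab (inf_le_left.trans hT.1) inf_le_right
          (inf_le_left.trans inf_le_right))) (pgroup_coprime_of_ne (isPGroupS inf_le_left hPp) hTq hpq))
    have hR : Inv A G ⁅Q ⊓ 𝐍 P, zpowers a⁆ := ⟨(h4.trans inf_le_left).trans hY.1,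
      normsR hY.2 (sub_abelian_norm h.comm (zpowers_le.2 ha))⟩
    rw [← cent_zpowers, ← commG1P]
    by_contra h5
    exact (h.dichotomy hpq hP hA hQ hA' hc (h.inv.nor hR) (h.solN hR h5 (pgroup_sol (isPGroupS
      (h4.trans (inf_le_left.trans inf_le_left)) hQq))) (le_inf hP'.1 (cents_norm (centsC.1
        (h4.trans inf_le_right)))) (le_inf hUi.1 (normsR (inf_le_left.trans inf_le_right)
          (inf_le_right.trans (cent1_le_norm_zpowers a)))) hP'.2 hUi.2 inf_le_left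
      (inf_le_left.trans inf_le_left)).elim h1 hU'
  obtain ⟨a, ha, ha1, hU⟩ : ∃ a ∈ A, a ≠ 1 ∧ ¬ Q ⊓ 𝐍 (Q ⊓ 𝐍 P) ⊓ 𝐂₁ a ≤ Q ⊓ 𝐍 P := by
    by_contra! e
    exact h2 (h.gen hQ' e)
  have h3 := key a ha ha1 hU
  have h4 := h.gen2 hQ' ha inf_le_right fun b hb hab => (em _).elim (·.trans h3) fun e => absurd
    (h.ti h.fpf ha ha1 hb hab hY.1 h3 (key b hb (fun e => hab (e ▸ one_mem _)) e)) hne
  refine h.not_le ((pgroup_dvd_card hQq (subG1_contra inf_le_left hne)).trans (cardSg hQ.1)) hQ hA'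
    ha ha1 ?_
  rwa [nilpotent_sub_norm (pgroup_nil hQq) inf_le_left (le_inf inf_le_left (cents_norm
    ((h.nf0 ha ha1 hQ' (hQi.nor hQ') inf_le_right h4).trans
      (centS (le_inf inf_le_left (normG _))))))] at h4

theorem pair_odd (h2 : p ≠ 2) (hpq : p ≠ q) (hP : IsSylowOf p P G) (hA : A ≤ 𝐍 P)
    (hQ : IsSylowOf q Q G) (hA' : A ≤ 𝐍 Q) : IsPiSubgroup {p, q} (P ⊔ Q) := by
  by_contra hc
  have h3 := h.inf_norm_eq_bot hpq hP hA hQ hA' hc
  have h4 := h.inf_norm_eq_bot hpq.symm hQ hA' hP hA (by rwa [sup_comm, Set.pair_comm])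
  have h5 : p ∣ Nat.card G := by_contra fun e => hc (by
    rw [(Sylow_eq_bot_iff hP).2 e, bot_sup_eq]; exact pi_pgroup (Sylow_pgroup hQ) (by simp))
  have h6 : q ∣ Nat.card G := by_contra fun e => hc (by
    rw [(Sylow_eq_bot_iff hQ).2 e, sup_bot_eq]; exact pi_pgroup (Sylow_pgroup hP) (by simp))
  obtain ⟨a, ha, ha1, h7⟩ := h.exists_odd h2 h5 hP hA
  refine h.not_le h6 hQ hA' ha ha1 (h.gen2 ⟨hQ.1, hA'⟩ ha inf_le_right fun b hb hab => ?_)
  refine (h.dichotomy hpq hP hA hQ hA' hc (h.cent1 h.inv hb) (abelian_sol (h.ab b hb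
    fun e => hab (e ▸ one_mem _))) (inf_le_inf_right _ hP.1) (inf_le_inf_right _ hQ.1)
    (h.cent1 ⟨hP.1, hA⟩ hb).2 (h.cent1 ⟨hQ.1, hA'⟩ hb).2 inf_le_left inf_le_left).elim
    (fun e => absurd (le_bot_iff.1 (h4 ▸ le_inf inf_le_left e)) (h7 b hb hab))
    fun e => (le_inf inf_le_left e).trans (h3.trans_le bot_le)

theorem false : False := by
  have h1 : ∀ p : Nat.Primes, ∃ S : Sylow p G, IsSylowOf p ((S : Subgroup G).map G.subtype) G ∧
      A ≤ 𝐍 ((S : Subgroup G).map G.subtype) := fun p => by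
    have : Fact (p : ℕ).Prime := ⟨p.2⟩
    obtain ⟨P, hP, hA⟩ := Sig.exists_inv_sylow p h.pg h.norm h.cop
    obtain ⟨S, rfl⟩ := exists_sylow_of hP
    exact ⟨S, hP, hA⟩
  choose S hS hA using h1
  have h2 : ∀ p q : Nat.Primes, p ≠ q → (((S p : Subgroup G) ⊔ S q : Subgroup G) : Set G) =
      (S p : Subgroup G) * (S q : Subgroup G) := fun p q hpq => by
    have : Fact (p : ℕ).Prime := ⟨p.2⟩
    have : Fact (q : ℕ).Prime := ⟨q.2⟩
    have hpq' : (p : ℕ) ≠ q := fun e => hpq (Subtype.ext e)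
    have h3 : IsPiSubgroup {(p : ℕ), (q : ℕ)} ((S p : Subgroup G) ⊔ S q) := by
      rw [← pgroup_map_iff G.subtype_injective, Subgroup.map_sup]
      by_cases e : (p : ℕ) = 2
      · rw [sup_comm, Set.pair_comm]
        exact h.pair_odd (e ▸ hpq'.symm) hpq'.symm (hS q) (hA q) (hS p) (hA p)
      · exact h.pair_odd e hpq' (hS p) (hA p) (hS q) (hA q)
    have h4 := Hall_isComplIn (pHall_subl le_sup_left le_top (Sylow_top (S p))) (eq_in_pHall
      (fun s h1 h2 => ⟨fun e e' => hpq' (e'.symm.trans e), (pgroupP.1 h3 s h1 h2).resolve_left⟩)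
      (pHall_subl le_sup_right le_top (Sylow_top (S q))))
    refine Local.CD.coe_sup_eq_mul_of_card_le ?_
    rw [coprime_TIg (pgroup_coprime_of_ne (S p).isPGroup' (S q).isPGroup' hpq'), card_bot, mul_one,
      isComplIn_card h4]
  refine h.nsol (isSolvable_of_sylowSystem S fun p q => ?_)
  rcases eq_or_ne p q with rfl | e
  · rfl
  · exact (h2 p q e).symm.trans ((congrArg _ (sup_comm _ _)).trans (h2 q p e.symm))

end MC

theorem Ctx.solvable (h : Ctx r A G) : Group.IsSolvable G := by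
  induction hn : Nat.card G using Nat.strong_induction_on generalizing Γ with | _ n ih => ?_
  by_contra hs
  have sol : ∀ H, Inv A G H → H ≠ G → Group.IsSolvable H := fun H hH hne =>
    ih _ (hn ▸ proper_card (hH.1.lt_of_ne hne)) ⟨h.card, h.ncyc, hH.2, h.ndvd hH.1,
      fun a ha ha1 => abelianS (inf_le_inf_right _ hH.1) (h.ab a ha ha1)⟩ rfl
  have simple : ∀ N, Inv A G N → G ≤ 𝐍 N → N = ⊥ ∨ N = G := fun N hN hGN => by
    by_contra! hc
    have := (normalG N).subgroupOf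
    have hk : pre (qmk (𝐍 N) N) ⊥ = N := ker_qmk (normG N)
    have hcop := (h.cop' hN.1 le_rfl).symm
    refine hs (solvable_of_img (f := qmk (𝐍 N) N) hGN (solvableS inf_le_right
      (hk.symm ▸ sol N hN hc.2)) (ih _ ?_ (A := img (qmk (𝐍 N) N) A) ⟨?_, fun e => h.ncyc
        (cyclic_of_img hN.2 (hk.symm ▸ coprime_TIg hcop) e), img_norms _ h.norm,
        fun e => h.cop (e.trans (card_img_dvd _ G)), fun a ha ha1 => ?_⟩ rfl))
    · rw [← hn, ← card_img_mul_of_ker_le (f := qmk (𝐍 N) N) hGN (hk.symm ▸ hN.1), hk]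
      exact lt_mul_of_one_lt_right (cardG_gt0 _) (cardG_gt1.2 hc.1)
    · rw [card_img_of_coprime hN.2 (hk.symm ▸ hcop), h.card]
    · obtain ⟨a, haN, ha', rfl⟩ := mem_img'.1 ha
      have hB := zpowers_le.2 ha'
      rw [← cent_zpowers, ← img_zpowers, ← coprime_quotient_cent _ (hB.trans hN.2) hGN
        (hB.trans h.norm) (h.cop' inf_le_left hB) (.inl (abelian_sol (abelian_zpowers a))),
        cent_zpowers]
      exact abelian_img _ (h.ab a ha' fun e => ha1 (by subst e; exact map_one _))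
  have h1 : G ≤ 𝐂 (G ⊓ 𝐂 A) := h.gen h.inv fun a ha ha1 => h.cc ha ha1 inf_le_left inf_le_left
    inf_le_right (inf_le_right.trans (cent_le_cent1 ha))
  exact MC.false ⟨h, (simple _ (h.inv.inf (norms_cent (normG A))) (cents_norm h1)).resolve_right
    fun e => hs (abelian_sol (abelian_iff.2 (by rwa [e] at h1))), hs, sol, simple⟩

end Cfsg.Lib.Solv.AbCent
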