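import Cfsg.Prelude.Def_AxialAlgebras

set_option autoImplicit false

namespace Cfsg.Lib.Solv.Maj

open Cfsg.Axial

variable {V : Type*} [AddCommGroup V] [Module ℝ V] {mul : V →ₗ[ℝ] V →ₗ[ℝ] V}
  {B : LinearMap.BilinForm ℝ V} {μ : V ≃ₗ[ℝ] V} {a : V}

theorem mem_eigen {c : ℝ} {v : V} : v ∈ eigen mul a c ↔ mul a v = c • v := by
  rw [eigen, Module.End.mem_eigenspace_iff]

theorem idem (h : IsMajoranaPair mul B μ a) : mul a a = a := h.2.2.1.1.2.1

theorem of_one (h : IsMajoranaPair mul B μ a) {v : V} (hv : mul a v = v) : ∃ l : ℝ, v = l • a := by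
  have : v ∈ eigen mul a 1 := mem_eigen.2 (by simpa using hv)
  rw [h.2.2.1.2, Submodule.mem_span_singleton] at this
  obtain ⟨l, rfl⟩ := this
  exact ⟨l, rfl⟩

theorem decomp (h : IsMajoranaPair mul B μ a) (v : V) : ∃ (l : ℝ) (x y z : V), mul a x = 0 ∧
    mul a y = (1 / 4 : ℝ) • y ∧ mul a z = (1 / 32 : ℝ) • z ∧ v = l • a + x + y + z := by
  have hv : v ∈ eigenSum mul a majoranaSpectrum := by rw [h.2.2.1.1.2.2.1]; trivial
  rw [eigenSum, majoranaSpectrum, iSup_insert, iSup_insert, iSup_insert, iSup_singleton] at hv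
  obtain ⟨w, hw, v1, hv1, rfl⟩ := Submodule.mem_sup.1 hv
  obtain ⟨x, hx, v2, hv2, rfl⟩ := Submodule.mem_sup.1 hv1
  obtain ⟨y, hy, z, hz, rfl⟩ := Submodule.mem_sup.1 hv2
  rw [mem_eigen] at hw hx hy hz
  obtain ⟨l, rfl⟩ := of_one h (v := w) (by simpa using hw)
  exact ⟨l, x, y, z, by simpa using hx, hy, hz, by abel⟩

theorem fus00 (h : IsMajoranaPair mul B μ a) {x y : V} (hx : mul a x = 0) (hy : mul a y = 0) :
    mul a (mul x y) = 0 := by
  have h3 := h.2.2.1.1.2.2.2 0 (by simp [majoranaSpectrum]) 0 (by simp [majoranaSpectrum])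
    x (mem_eigen.2 (by simpa using hx)) y (mem_eigen.2 (by simpa using hy))
  rw [show monsterLaw (1 / 4 : ℝ) (1 / 32) 0 0 = {0} by simp [monsterLaw], eigenSum,
    iSup_singleton, mem_eigen] at h3
  simpa using h3

theorem fus0q (h : IsMajoranaPair mul B μ a) {x y : V} (hx : mul a x = 0)
    (hy : mul a y = (1 / 4 : ℝ) • y) : mul a (mul x y) = (1 / 4 : ℝ) • mul x y := by
  have h3 := h.2.2.1.1.2.2.2 0 (by simp [majoranaSpectrum]) (1 / 4) (by simp [majoranaSpectrum])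
    x (mem_eigen.2 (by simpa using hx)) y (mem_eigen.2 hy)
  rw [show monsterLaw (1 / 4 : ℝ) (1 / 32) 0 (1 / 4) = {1 / 4} by simp [monsterLaw], eigenSum,
    iSup_singleton, mem_eigen] at h3
  exact h3

theorem fusqq (h : IsMajoranaPair mul B μ a) {x y : V} (hx : mul a x = (1 / 4 : ℝ) • x)
    (hy : mul a y = (1 / 4 : ℝ) • y) : ∃ m : ℝ, mul a (mul x y) = m • a := by
  have h3 := h.2.2.1.1.2.2.2 (1 / 4) (by simp [majoranaSpectrum]) (1 / 4)
    (by simp [majoranaSpectrum]) x (mem_eigen.2 hx) y (mem_eigen.2 hy)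
  rw [show monsterLaw (1 / 4 : ℝ) (1 / 32) (1 / 4) (1 / 4) = {1, 0} by simp [monsterLaw], eigenSum,
    iSup_insert, iSup_singleton] at h3
  obtain ⟨w, hw, v, hv, e⟩ := Submodule.mem_sup.1 h3
  rw [mem_eigen] at hw hv
  obtain ⟨l, rfl⟩ := of_one h (v := w) (by simpa using hw)
  exact ⟨l, by rw [← e, map_add, hw, hv]; simp⟩

theorem tau_even (h : IsMajoranaPair mul B μ a) {c : ℝ} (hc : c ∈ ({1, 0, 1 / 4} : Set ℝ)) {v : V}
    (hv : mul a v = c • v) : μ v = v :=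
  h.2.2.2.1 v ((le_iSup₂_of_le (f := fun c (_ : c ∈ ({1, 0, 1 / 4} : Set ℝ)) => eigen mul a c)
    c hc le_rfl) (mem_eigen.2 hv))

theorem tau_decomp (h : IsMajoranaPair mul B μ a) (l : ℝ) {x y z : V} (hx : mul a x = 0)
    (hy : mul a y = (1 / 4 : ℝ) • y) (hz : mul a z = (1 / 32 : ℝ) • z) :
    μ (l • a + x + y + z) = l • a + x + y - z := by
  have h1 : μ a = a := tau_even h (c := 1) (by simp) (by simp [idem h])
  have h2 : μ x = x := tau_even h (c := 0) (by simp) (by simp [hx])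
  have h3 : μ y = y := tau_even h (c := 1 / 4) (by simp) hy
  have h4 : μ z = -z := h.2.2.2.2 z (mem_eigen.2 hz)
  rw [map_add, map_add, map_add, map_smul, h1, h2, h3, h4, sub_eq_add_neg]

theorem tau_self (h : IsMajoranaPair mul B μ a) : μ a = a :=
  tau_even h (c := 1) (by simp) (by simp [idem h])

theorem tau_tau (h : IsMajoranaPair mul B μ a) (v : V) : μ (μ v) = v := by
  obtain ⟨l, x, y, z, hx, hy, hz, rfl⟩ := decomp h v
  rw [tau_decomp h l hx hy hz, sub_eq_add_neg,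
    tau_decomp h l hx hy (z := -z) (by rw [map_neg, hz, smul_neg]), sub_neg_eq_add]

theorem tau_mul_self (h : IsMajoranaPair mul B μ a) : μ * μ = 1 :=
  LinearEquiv.ext fun v => tau_tau h v

theorem tau_unique {μ' : V ≃ₗ[ℝ] V} (h : IsMajoranaPair mul B μ a)
    (h' : IsMajoranaPair mul B μ' a) : μ = μ' := by
  refine LinearEquiv.ext fun v => ?_
  obtain ⟨l, x, y, z, hx, hy, hz, rfl⟩ := decomp h v
  rw [tau_decomp h l hx hy hz, tau_decomp h' l hx hy hz]

/-- `a v - v/32` is fixed by the Miyamoto involution of `a`. -/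
theorem tau_sigma (h : IsMajoranaPair mul B μ a) (v : V) :
    μ (mul a v - (1 / 32 : ℝ) • v) = mul a v - (1 / 32 : ℝ) • v := by
  obtain ⟨l, x, y, z, hx, hy, hz, rfl⟩ := decomp h v
  have : mul a (l • a + x + y + z) - (1 / 32 : ℝ) • (l • a + x + y + z) =
      (31 / 32 * l) • a + (-1 / 32 : ℝ) • x + (7 / 32 : ℝ) • y + 0 := by
    simp only [map_add, map_smul, idem h, hx, hy, hz]; module
  rw [this, tau_decomp h _ (by simp [hx]) (by rw [map_smul, hy, smul_comm]) (by simp)]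
  simp

section conj

variable {g : V ≃ₗ[ℝ] V} (hg : ∀ u v, g (mul u v) = mul (g u) (g v))
include hg

theorem eigen_conj (c : ℝ) : eigen mul (g a) c = (eigen mul a c).map (g : V →ₗ[ℝ] V) := by
  ext v
  obtain ⟨w, rfl⟩ := g.surjective v
  rw [mem_eigen, ← hg, ← map_smul, g.injective.eq_iff, ← mem_eigen]
  constructor
  · exact fun h => ⟨w, h, rfl⟩
  · rintro ⟨w', h, e⟩
    rwa [← g.injective e]

theorem eigenSum_conj (S : Set ℝ) :
    eigenSum mul (g a) S = (eigenSum mul a S).map (g : V →ₗ[ℝ] V) := by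
  simp only [eigenSum, Submodule.map_iSup, eigen_conj hg]

theorem conj (hgB : ∀ u v, B (g u) (g v) = B u v) (h : IsMajoranaPair mul B μ a) :
    IsMajoranaPair mul B (g * μ * g⁻¹) (g a) := by
  have e : ∀ v, (g * μ * g⁻¹) (g v) = g (μ v) := fun v => by simp
  refine ⟨fun u v => ?_, fun u v => ?_, ⟨⟨?_, ?_, ?_, ?_⟩, ?_⟩, ?_, ?_⟩
  · obtain ⟨u, rfl⟩ := g.surjective u
    obtain ⟨v, rfl⟩ := g.surjective v
    rw [← hg, e, e, e, h.1, hg]
  · obtain ⟨u, rfl⟩ := g.surjective u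
    obtain ⟨v, rfl⟩ := g.surjective v
    rw [e, e, hgB, hgB, h.2.1]
  · simpa using h.2.2.1.1.1
  · rw [← hg, idem h]
  · rw [eigenSum_conj hg, h.2.2.1.1.2.2.1, Submodule.map_top, LinearEquiv.range]
  · intro c hc d hd u hu v hv
    rw [eigen_conj hg] at hu hv
    obtain ⟨u, hu, rfl⟩ := hu
    obtain ⟨v, hv, rfl⟩ := hv
    rw [eigenSum_conj hg]
    exact ⟨_, h.2.2.1.1.2.2.2 c hc d hd u hu v hv, hg u v⟩
  · rw [eigen_conj hg, h.2.2.1.2, Submodule.map_span, Set.image_singleton]; rfl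
  · intro v hv
    rw [eigenSum_conj hg] at hv
    obtain ⟨v, hv, rfl⟩ := hv
    have := h.2.2.2.1 v hv
    simp only [LinearEquiv.coe_coe] at this ⊢
    rw [e, this]
  · intro v hv
    rw [eigen_conj hg] at hv
    obtain ⟨v, hv, rfl⟩ := hv
    have := h.2.2.2.2 v hv
    simp only [LinearEquiv.coe_coe] at this ⊢
    rw [e, this, map_neg]

end conj

theorem orth (hV : IsMajoranaAmbient mul B) {c d : ℝ} {u w : V} (hu : mul a u = c • u)
    (hw : mul a w = d • w) (hcd : c ≠ d) : B u w = 0 := by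
  have h1 := hV.2.2.2.1 u a w
  rw [hV.1 u a, hu, hw] at h1
  simp only [map_smul, LinearMap.smul_apply, smul_eq_mul] at h1
  have : (c - d) * B u w = 0 := by linarith
  exact (mul_eq_zero.1 this).resolve_left (sub_ne_zero.2 hcd)

theorem nonneg (hV : IsMajoranaAmbient mul B) (u : V) : 0 ≤ B u u := by
  by_cases h : u = 0
  · simp [h]
  · exact (hV.2.2.1 u h).le

theorem coeff (hV : IsMajoranaAmbient mul B) (h : IsMajoranaPair mul B μ a) (ha : B a a = 1)
    (l : ℝ) {x y z : V} (hx : mul a x = 0)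
    (hy : mul a y = (1 / 4 : ℝ) • y) (hz : mul a z = (1 / 32 : ℝ) • z) :
    B a (l • a + x + y + z) = l := by
  have h1 : mul a a = (1 : ℝ) • a := by simp [idem h]
  have h2 : mul a x = (0 : ℝ) • x := by simp [hx]
  simp [ha, orth hV h1 h2 (by norm_num), orth hV h1 hy (by norm_num), orth hV h1 hz (by norm_num)]

/-- inner product of an axis with another unit idempotent -/
theorem ip_bounds (hV : IsMajoranaAmbient mul B) (h : IsMajoranaPair mul B μ a) (ha : B a a = 1)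
    {b : V} (hb : mul b b = b) (hb1 : B b b = 1) (hne : a ≠ b) : 0 ≤ B a b ∧ B a b ≤ 1 / 3 := by
  obtain ⟨l, x, y, z, hx, hy, hz, e⟩ := decomp h b
  have h1 : mul a a = (1 : ℝ) • a := by simp [idem h]
  have h2 : mul a x = (0 : ℝ) • x := by simp [hx]
  have hl : B a b = l := by rw [e]; exact coeff hV h ha l hx hy hz
  have ax := orth hV h1 h2 (by norm_num)
  have ay := orth hV h1 hy (by norm_num)
  have az := orth hV h1 hz (by norm_num)
  have xy := orth hV h2 hy (by norm_num)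
  have xz := orth hV h2 hz (by norm_num)
  have yz := orth hV hy hz (by norm_num)
  have xa := orth hV h2 h1 (by norm_num)
  have ya := orth hV hy h1 (by norm_num)
  have za := orth hV hz h1 (by norm_num)
  have yx := orth hV hy h2 (by norm_num)
  have zx := orth hV hz h2 (by norm_num)
  have zy := orth hV hz hy (by norm_num)
  have e1 : B b b = l ^ 2 + B x x + B y y + B z z := by
    rw [e]; simp [ha, ax, ay, az, xy, xz, yz, xa, ya, za, yx, zx, zy]; ring
  have e2 : B (mul a b) b = l ^ 2 + B y y / 4 + B z z / 32 := by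
    rw [e]; simp [idem h, hx, hy, hz, ha, ax, ay, az, yz, ya, za, yx, zx, zy]; ring
  rw [← hV.2.2.2.1, hb, hl] at e2
  have px := nonneg hV x
  have py := nonneg hV y
  have pz := nonneg hV z
  rw [hl]
  refine ⟨by nlinarith [sq_nonneg l], ?_⟩
  by_contra hc
  push Not at hc
  have hl1 : l = 1 := by nlinarith
  have z0 : ∀ u : V, B u u ≤ 0 → u = 0 := fun u hu => by
    by_contra h0
    exact absurd (hV.2.2.1 u h0) (not_lt.2 hu)
  subst hl1
  apply hne
  rw [e, z0 x (by nlinarith), z0 y (by nlinarith), z0 z (by nlinarith)]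
  simp

/-- the `0`- and `1/4`-components of a vector -/
theorem comps (hV : IsMajoranaAmbient mul B) (h : IsMajoranaPair mul B μ a) (ha : B a a = 1)
    (v : V) :
    mul a ((4 : ℝ) • mul a v - (4 * B a v) • a - (1 / 16 : ℝ) • (v - μ v)) =
      (1 / 4 : ℝ) • ((4 : ℝ) • mul a v - (4 * B a v) • a - (1 / 16 : ℝ) • (v - μ v)) ∧
    mul a ((-4 : ℝ) • mul a v + (3 * B a v) • a + (9 / 16 : ℝ) • v + (7 / 16 : ℝ) • μ v) = 0 := by
  obtain ⟨l, x, y, z, hx, hy, hz, rfl⟩ := decomp h v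
  rw [coeff hV h ha l hx hy hz, tau_decomp h l hx hy hz]
  simp only [map_add, map_sub, map_smul, idem h, hx, hy, hz, map_zero]
  constructor <;> module

theorem quad_pos {x y z l g2 g3 g4 g4' g5 g6 : ℝ} (hl : 0 ≤ l ∧ l ≤ 1 / 3)
    (h2 : 0 ≤ g2 ∧ g2 ≤ 1 / 3) (h3 : 0 ≤ g3 ∧ g3 ≤ 1 / 3) (h4 : 0 ≤ g4 ∧ g4 ≤ 1 / 3)
    (h4' : 0 ≤ g4' ∧ g4' ≤ 1 / 3) (h5 : 0 ≤ g5 ∧ g5 ≤ 1 / 3) (h6 : 0 ≤ g6 ∧ g6 ≤ 1 / 3)
    (hx : x ≠ 0) :
    0 < (1 - g6) * x ^ 2 + (1 - g4') * y ^ 2 + z ^ 2 + l * (2 * y * (x + z)) + g5 * (-2 * x * y)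
      + g3 * (-2 * y * z) + g2 * (2 * x * z - z ^ 2) + g4 * (-2 * x * z) := by
  have k : ∀ g T : ℝ, 0 ≤ g ∧ g ≤ 1 / 3 → 0 ≤ g * T ∨ T / 3 ≤ g * T := fun g T hg => by
    rcases le_total 0 T with hT | hT
    · exact Or.inl (mul_nonneg hg.1 hT)
    · exact Or.inr (by nlinarith [hg.2])
  have a1 : 2 / 3 * x ^ 2 ≤ (1 - g6) * x ^ 2 := by nlinarith [sq_nonneg x, h6.2]
  have a2 : 2 / 3 * y ^ 2 ≤ (1 - g4') * y ^ 2 := by nlinarith [sq_nonneg y, h4'.2]
  have hx2 : 0 < x ^ 2 := by positivity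
  have b1 := k l (2 * y * (x + z)) hl
  have b2 := k g5 (-2 * x * y) h5
  have b3 := k g3 (-2 * y * z) h3
  have b4 := k g2 (2 * x * z - z ^ 2) h2
  have b5 := k g4 (-2 * x * z) h4
  generalize l * (2 * y * (x + z)) = t1 at b1 ⊢
  generalize g5 * (-2 * x * y) = t2 at b2 ⊢
  generalize g3 * (-2 * y * z) = t3 at b3 ⊢
  generalize g2 * (2 * x * z - z ^ 2) = t4 at b4 ⊢
  generalize g4 * (-2 * x * z) = t5 at b5 ⊢
  generalize (1 - g6) * x ^ 2 = t6 at a1 ⊢
  generalize (1 - g4') * y ^ 2 = t7 at a2 ⊢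
  clear k hl h2 h3 h4 h4' h5 h6 hx
  rcases b1 with b1 | b1 <;> rcases b2 with b2 | b2 <;> rcases b3 with b3 | b3 <;>
  rcases b4 with b4 | b4 <;> rcases b5 with b5 | b5 <;>
  linarith [sq_nonneg y, sq_nonneg z, sq_nonneg (x + y), sq_nonneg (x - y), sq_nonneg (x + z),
    sq_nonneg (x - z), sq_nonneg (y + z), sq_nonneg (y - z), sq_nonneg (x + y + z),
    sq_nonneg (x - y + z), sq_nonneg (x - 2 * z), sq_nonneg (x + 2 * z), sq_nonneg (x - 2 * y),
    sq_nonneg (x + 2 * y)]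

end Cfsg.Lib.Solv.Maj
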