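import Cfsg.Agent.FT.BG7.SCN
import Cfsg.Agent.FT.BG6_3
import Cfsg.Agent.FT.BG14.T2
import Cfsg.Agent.Trans.SigCop
import Cfsg.Agent.Trans.ChiefTools

/-!
A non-cyclic group of order `r ^ 2` acting coprimely with abelian fixed point subgroups:
the local lemmas.
-/

set_option autoImplicit false

open Pointwise Cfsg Cfsg.Lib.Solv Cfsg.Lib.FT Cfsg.Lib.Trans Subgroup

namespace Cfsg.Lib.Solv.AbCent

universe u

variable {Γ : Type u} [Group Γ] {A G H K T U V W X Y : Subgroup Γ} {a b : Γ} {p q : ℕ}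

/-- `H` is an `A`-invariant subgroup of `G`. -/
def Inv (A G H : Subgroup Γ) : Prop := H ≤ G ∧ A ≤ 𝐍 H

theorem Inv.inf (h : Inv A G H) (hX : A ≤ 𝐍 X) : Inv A G (H ⊓ X) :=
  ⟨inf_le_left.trans h.1, normsI h.2 hX⟩

theorem Inv.sup (h : Inv A G H) (h' : Inv A G K) : Inv A G (H ⊔ K) :=
  ⟨sup_le h.1 h'.1, normsY h.2 h'.2⟩

theorem Inv.comm (h : Inv A G H) (h' : Inv A G K) : Inv A G ⁅H, K⁆ :=
  ⟨comm_subG h.1 h'.1, normsR h.2 h'.2⟩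

theorem Inv.cent (h : Inv A G H) (h' : Inv A G K) : Inv A G (H ⊓ 𝐂 K) := h.inf (norms_cent h'.2)

theorem Inv.nor (h : Inv A G H) (h' : Inv A G K) : Inv A G (H ⊓ 𝐍 K) := h.inf (norms_norm h'.2)

theorem Inv.pcore (h : Inv A G H) (π : Set ℕ) : Inv A G (piCoreOf π H) :=
  ⟨(pcore_sub π H).trans h.1, norms_pcore π h.2⟩

/-- The hypotheses of the theorem. -/
structure Ctx (r : ℕ) (A G : Subgroup Γ) : Prop where
  card : Nat.card A = r ^ 2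
  ncyc : ¬ IsCyclic A
  norm : A ≤ 𝐍 G
  cop : ¬ r ∣ Nat.card G
  ab : ∀ a ∈ A, a ≠ 1 → IsMulCommutative ↥(G ⊓ 𝐂₁ a)

variable [Finite Γ] {r : ℕ} [hr : Fact r.Prime]

theorem comm_le_of_prime {R N : Subgroup Γ} (hR : (Nat.card R).Prime) (hV : R ≤ 𝐍 V) (hT : R ≤ 𝐍 T)
    (hN : R ≤ 𝐍 N) (h1 : T ≤ 𝐍 V) (h2 : V ≤ 𝐍 N) (h3 : T ≤ 𝐍 N)
    (hc : (Nat.card V).Coprime (Nat.card T)) (hc' : (Nat.card ↥(V ⊔ T)).Coprime (Nat.card R))
    (hs : Group.IsSolvable V) (hs' : Group.IsSolvable T) (hNV : N ≤ V) (h4 : V ⊓ 𝐂 R ≤ N)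
    (h5 : T ⊓ 𝐂 R = ⊥) : ⁅V, T⁆ ≤ N := by
  have := (normalG N).subgroupOf
  have hd := SDProd.of_eq_sup h1 (coprime_TIg hc)
  have hk : pre (qmk (𝐍 N) N) ⊥ = N := ker_qmk (normG N)
  have h6 := coprime_quotient_cent (qmk (𝐍 N) N) hN (sup_le h2 h3) (normsY hV hT)
    (coprimeSg inf_le_left hc') (.inl (abelian_sol (cyclic_abelian (prime_cyclic hR))))
  rw [← (hd.subcent hV hT).sup, h5, sup_bot_eq, img_eq_bot_of_le (hk.symm ▸ h4)] at h6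
  refine (img_qmk_cents_iff h2 h3).1 (centsC.1 (sub_nilpotent_cent2 (prime_Frobenius_sol_kernel_nil
    (img_norms _ (normsY hV hT)) (solvable_img _ (hd.solvable hs hs')) ?_ h6.symm)
    (img_mono _ le_sup_left) (img_mono _ le_sup_right) (coprime_img _ hc)))
  rwa [card_img_of_coprime hN (hk.symm ▸ (coprimeSg (hNV.trans le_sup_left) hc').symm)]

namespace Ctx

variable (h : Ctx r A G)
include h

omit [Finite Γ] hr in
theorem inv : Inv A G G := ⟨le_rfl, h.norm⟩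

omit [Finite Γ] hr in
theorem pg : IsPGroup r A := .of_card h.card

omit [Finite Γ] in
theorem comm : IsMulCommutative A := IsPGroup.isMulCommutative_of_card_eq_prime_sq h.card

theorem card_zp (ha : a ∈ A) (h1 : a ≠ 1) : Nat.card (zpowers a) = r := by
  obtain ⟨i, hi, e⟩ := (Nat.dvd_prime_pow hr.out).1 (h.card ▸ cardSg (zpowers_le.2 ha))
  interval_cases i
  · exact absurd (zpowers_eq_bot.1 (trivg_card1.2 e)) h1
  · simpa using e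
  · exact absurd (cyclicP.2 ⟨a, (eq_of_le_of_card_le (zpowers_le.2 ha) (h.card.trans e.symm).le).symm⟩)
      h.ncyc

theorem prime_zp (ha : a ∈ A) (h1 : a ≠ 1) : (Nat.card (zpowers a)).Prime :=
  (h.card_zp ha h1).symm ▸ hr.out

theorem cop' (hH : H ≤ G) (hX : X ≤ A) : (Nat.card H).Coprime (Nat.card X) :=
  coprimeSg hH (coprimegS hX (Sig.cop_of_not_dvd h.pg h.cop).symm)

omit [Finite Γ] hr in
theorem ndvd (hH : H ≤ G) : ¬ r ∣ Nat.card H := fun e => h.cop (e.trans (cardSg hH))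

omit [Finite Γ] in
theorem cent1 (hH : Inv A G H) (ha : a ∈ A) : Inv A G (H ⊓ 𝐂₁ a) :=
  hH.inf (norms_cent1 (le_cent1_iff.2 (abelian_le_cent h.comm ha)))

theorem gen (hH : Inv A G H) (hX : ∀ a ∈ A, a ≠ 1 → H ⊓ 𝐂₁ a ≤ X) : H ≤ X :=
  coprime_abelian_gen_cent1 h.comm h.ncyc hH.2 (h.cop' hH.1 le_rfl) hX

theorem cent1_le (ha : a ∈ A) (hb : b ∈ zpowers a) (h1 : b ≠ 1) : 𝐂₁ b ≤ 𝐂₁ a :=
  cent1_le_cent1_of_mem_zpowers (nt_gen_prime (h.prime_zp ha fun e => h1 (by simpa [e] using hb))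
    hb h1 ▸ mem_zpowers a)

theorem gen2 (hH : Inv A G H) (ha : a ∈ A) (h1 : H ⊓ 𝐂₁ a ≤ X)
    (hX : ∀ b ∈ A, b ∉ zpowers a → H ⊓ 𝐂₁ b ≤ X) : H ≤ X :=
  h.gen hH fun b hb hb1 => (em _).elim
    (fun e => (inf_le_inf_left _ (h.cent1_le ha e hb1)).trans h1) (hX b hb)

theorem comm_zp_le {E : Subgroup Γ} (hb : b ∈ A) (hW : Inv A G W) (h3 : W ≤ 𝐍 E)
    (h5 : ∀ c ∈ A, c ∉ zpowers b → W ⊓ 𝐂₁ c ≤ E) : ⁅W, zpowers b⁆ ≤ E :=
  (le_commLe_iff.1 (h.gen2 hW hb (le_commLe_iff.2 ⟨inf_le_left.trans h3,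
    (commG1P.2 (cent_zpowers b ▸ inf_le_right)).trans_le bot_le⟩) fun c hc hc' =>
      le_commLe_iff.2 ⟨inf_le_left.trans h3, (commg_subl.2 ((zpowers_le.2 hb).trans
        (h.cent1 hW hc).2)).trans (h5 c hc hc')⟩)).2

theorem ti (hf : G ⊓ 𝐂 A = ⊥) (ha : a ∈ A) (h1 : a ≠ 1) (hb : b ∈ A) (hab : b ∉ zpowers a)
    (hX : X ≤ G) (h2 : X ≤ 𝐂₁ a) (h3 : X ≤ 𝐂₁ b) : X = ⊥ := by
  have h4 : zpowers a ⊔ zpowers b ≤ A := sup_le (zpowers_le.2 ha) (zpowers_le.2 hb)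
  have h5 := proper_card (left_lt_sup.2 (zpowers_le.not.2 hab))
  obtain ⟨i, hi, e⟩ := (Nat.dvd_prime_pow hr.out).1 (h.card ▸ cardSg h4)
  rw [h.card_zp ha h1, e, ← pow_one r, ← pow_mul, Nat.pow_lt_pow_iff_right hr.out.one_lt] at h5
  obtain rfl : i = 2 := by omega
  refine le_bot_iff.1 (hf ▸ le_inf hX ?_)
  rw [← eq_of_le_of_card_le h4 (h.card.trans e.symm).le, cent_sup, cent_zpowers, cent_zpowers]
  exact le_inf h2 h3

omit [Finite Γ] hr in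
theorem cc (ha : a ∈ A) (h1 : a ≠ 1) (hX : X ≤ G) (hY : Y ≤ G) (h2 : X ≤ 𝐂₁ a) (h3 : Y ≤ 𝐂₁ a) :
    X ≤ 𝐂 Y := centSS (le_inf hY h3) (le_inf hX h2) (abelian_le_cent (h.ab a ha h1))

/-- No fusion modulo `E`. -/
theorem nf {E : Subgroup Γ} (hb : b ∈ A) (h1 : b ≠ 1) (hW : Inv A G W) (hT : Inv A G T)
    (hE : E ≤ W) (hAE : A ≤ 𝐍 E) (hWE : W ≤ 𝐍 E) (hTW : T ≤ 𝐍 W) (hTE : T ≤ 𝐍 E)
    (hc : ⁅W, zpowers b⁆ ≤ E) : ⁅T, W⁆ ≤ E := by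
  have hB := zpowers_le.2 hb
  have hs := Or.inl (b := False) (abelian_sol (abelian_zpowers b))
  rw [← coprime_cent_prod (hB.trans hT.2) (h.cop' hT.1 hB) (hs.imp_right False.elim)]
  have h2 : ⁅T, zpowers b⁆ ≤ T := commg_subl.2 (hB.trans hT.2)
  refine commutator_sup_left_le_of_le_normalizer (h2.trans hTE) (inf_le_left.trans hTE)
    (three_subgroups_le_of_le_normalizer hTE (hB.trans hAE) hWE ?_
      ((commgSS (commg_subl.2 hTW) le_rfl).trans hc)) ?_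
  · rw [Subgroup.commutator_comm (zpowers b)]
    exact (commgSS hc le_rfl).trans (commg_subl.2 hTE)
  · rw [← coprime_cent_mod hE (hB.trans hAE) (h.cop' (hE.trans hW.1) hB) (hs.imp_right False.elim) hc,
      cent_zpowers]
    refine commutator_sup_right_le_of_le_normalizer (normG E) (inf_le_left.trans hWE)
      (commg_subr.2 (inf_le_left.trans hTE)) ((commG1P.2 ?_).trans_le bot_le)
    exact h.cc hb h1 (inf_le_left.trans hT.1) (inf_le_left.trans hW.1) inf_le_right inf_le_right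

theorem nf0 (hb : b ∈ A) (h1 : b ≠ 1) (hW : Inv A G W) (hT : Inv A G T) (hTW : T ≤ 𝐍 W)
    (hc : W ≤ 𝐂₁ b) : T ≤ 𝐂 W :=
  commG1P.1 (le_bot_iff.1 (h.nf hb h1 hW hT bot_le (norms1 _) (norms1 _) hTW (norms1 _)
    (commG1P.2 (cent_zpowers b ▸ hc)).le))

theorem comm_le {N : Subgroup Γ} (ha : a ∈ A) (ha1 : a ≠ 1) (hV : Inv A G V) (hT : Inv A G T)
    (hN : A ≤ 𝐍 N) (h1 : T ≤ 𝐍 V) (h2 : V ≤ 𝐍 N) (h3 : T ≤ 𝐍 N)
    (hc : (Nat.card V).Coprime (Nat.card T)) (hs : Group.IsSolvable V) (hs' : Group.IsSolvable T)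
    (hNV : N ≤ V) (h4 : V ⊓ 𝐂₁ a ≤ N) (h5 : T ⊓ 𝐂₁ a = ⊥) : ⁅V, T⁆ ≤ N :=
  have hB := zpowers_le.2 ha
  comm_le_of_prime (h.prime_zp ha ha1) (hB.trans hV.2) (hB.trans hT.2) (hB.trans hN) h1 h2 h3 hc
    (h.cop' (sup_le hV.1 hT.1) hB) hs hs' hNV (cent_zpowers a ▸ h4) (cent_zpowers a ▸ h5)

theorem cent_of_der {D : Subgroup Γ} (hb : b ∈ A) (h1 : b ≠ 1) (hU : Inv A G U)
    (hn : Group.IsNilpotent U) (hD : D ≤ 𝐍 U) (hc : (Nat.card U).Coprime (Nat.card D))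
    (he : ⁅U, D⁆ = U) (h2 : U ⊓ 𝐂₁ b ≤ 𝐂 D) (hT : Inv A G T) (hs : Group.IsSolvable T)
    (hTU : T ≤ 𝐍 U) (hc' : (Nat.card U).Coprime (Nat.card T)) (h3 : T ⊓ 𝐂₁ b = ⊥) : T ≤ 𝐂 U := by
  refine coprime_cent_Phi hTU hc' ((h.comm_le hb h1 hU hT (norms_der hU.2) hTU
    (norms_der (normG U)) (norms_der hTU) hc' (nilpotent_sol hn) hs (der_sub U)
    ((le_inf inf_le_left h2).trans (coprime_cent_sub_der1 hD hc he)) h3).trans ?_)
  rw [← Subgroup.map_subtype_commutator]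
  exact map_mono commutator_le_frattini_of_isNilpotent

theorem comm_cent (hf : G ⊓ 𝐂 A = ⊥) (ha : a ∈ A) (ha1 : a ≠ 1) (hV : Inv A G V)
    (hn : Group.IsNilpotent V) (hT : Inv A G T) (hTa : T ≤ 𝐂₁ a) (hTV : T ≤ 𝐍 V) (hW : Inv A G W)
    (hn' : Group.IsNilpotent W) (hWV : W ≤ 𝐍 V) (hTW : T ≤ 𝐍 W)
    (hc : (Nat.card V).Coprime (Nat.card W)) (hc' : (Nat.card W).Coprime (Nat.card T)) :
    ⁅W, T⁆ ≤ 𝐂 V := by
  induction W using WellFoundedLT.induction with | _ W ih => ?_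
  have ih' : ∀ X < W, Inv A G X → T ≤ 𝐍 X → ⁅X, T⁆ ≤ 𝐂 V := fun X h1 h2 h3 => ih X h1 h2
    (nilpotentS h1.le hn') (h1.le.trans hWV) h3 (coprimegS h1.le hc) (coprimeSg h1.le hc')
  rcases (commg_subl.2 hTW).lt_or_eq with h1 | h1
  · exact coprime_commGid hTW hc' ▸ ih' _ h1 (hW.comm hT) (commg_normr _ _)
  rw [h1]
  by_contra hcon
  have key : ∀ b ∈ A, b ≠ 1 → ∀ E, A ≤ 𝐍 E → W ≤ 𝐍 (W ⊓ E) → T ≤ 𝐍 E →
      (∀ c ∈ A, c ∉ zpowers b → W ⊓ 𝐂₁ c ≤ E) → W ≤ E := by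
    intro b hb hb1 E h2 h3 h4 h5
    exact h1.ge.trans ((Subgroup.commutator_comm W T).trans_le ((h.nf hb hb1 hW hT inf_le_left
      (normsI hW.2 h2) h3 hTW (normsI hTW h4) (h.comm_zp_le hb hW h3 fun c hc hc' =>
        le_inf inf_le_left (h5 c hc hc'))).trans inf_le_right))
  have hC := hW.cent hV
  have hWC : W ≤ 𝐍 (W ⊓ 𝐂 V) := norms_subcent (normG W) hWV
  have hTC : T ≤ 𝐍 (W ⊓ 𝐂 V) := norms_subcent hTW hTV
  have hCV : W ⊓ 𝐂 V ≤ 𝐂 V := inf_le_right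
  have hCW : W ⊓ 𝐂 V ≤ W := inf_le_left
  have hCm : ∀ X ≤ W, X ≤ 𝐂 V → X ≤ W ⊓ 𝐂 V := fun X => le_inf
  generalize W ⊓ 𝐂 V = C at *
  have hZ := hW.inf (le_normalizer_commLe hW.2 hC.2)
  have hTZ := normsI hTW (le_normalizer_commLe hTW hTC)
  have hZC : ⁅W ⊓ commLe W C, W⁆ ≤ C := (le_commLe_iff.1 inf_le_right).2
  have hCZ : C ≤ W ⊓ commLe W C := le_inf hCW (le_commLe_iff.2 ⟨normG C, commg_subl.2 hWC⟩)
  have hZW : W ⊓ commLe W C ≤ W := inf_le_left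
  have hnZ : ¬ W ⊓ commLe W C ≤ C := fun e => by
    obtain ⟨x, hx, hx', h2⟩ := PG.exists_not_mem_commutator_mem hn' le_rfl (normG W)
      fun e => hcon (e.trans hCV)
    exact hx' (e ⟨hx, hWC hx, fun s hs => (h2 s hs).1⟩)
  generalize W ⊓ commLe W C = Z at *
  obtain ⟨b, hb, hb1, hD⟩ : ∃ b ∈ A, b ≠ 1 ∧ ¬ Z ⊓ 𝐂₁ b ≤ C := by
    by_contra! e
    exact hnZ (h.gen hZ e)
  have hD1 := h.cent1 hZ hb
  have hD2 : Z ⊓ 𝐂₁ b ≤ Z := inf_le_left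
  have hD3 : Z ⊓ 𝐂₁ b ≤ 𝐂₁ b := inf_le_right
  generalize Z ⊓ 𝐂₁ b = D at *
  have hDW := hD2.trans hZW
  have hUV : ⁅V, D⁆ ≤ V := commg_subl.2 (hDW.trans hWV)
  have hU := hV.comm hD1
  have hUn : ∀ X ≤ 𝐍 V, X ≤ 𝐍 (D ⊔ C) → X ≤ 𝐍 ⁅V, D⁆ := fun X h2 h3 => by
    rw [show ⁅V, D⁆ = ⁅V, D ⊔ C⁆ from le_antisymm (commgSS le_rfl le_sup_left)
      (commutator_sup_right_le_of_le_normalizer (commg_normr _ _)
        (cents_norm (hCV.trans (centS hUV))) le_rfl ((commG1P.2 (centsC.1 hCV)).trans_le bot_le))]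
    exact normsR h2 h3
  have hWU := hUn W hWV (norm_of_commg_le (sup_le hD2 hCZ) (hZC.trans le_sup_right))
  have hcU := coprimeSg hUV hc
  have he := coprime_commGid (hDW.trans hWV) (coprimegS hDW hc)
  have hcen : ∀ c ∈ A, c ≠ 1 → ⁅V, D⁆ ⊓ 𝐂₁ c ≤ 𝐂 D → ∀ X ≤ W, Inv A G X → X ⊓ 𝐂₁ c = ⊥ →
      X ≤ 𝐂 ⁅V, D⁆ := fun c hc hc1 h2 X h3 h4 => h.cent_of_der hc hc1 hU (nilpotentS hUV hn)
    (commg_normr _ _) (coprimegS hDW hcU) he h2 h4 (nilpotent_sol (nilpotentS h3 hn'))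
    (h3.trans hWU) (coprimegS h3 hcU)
  have h2 : ∀ c ∈ A, c ∉ zpowers b → W ⊓ 𝐂₁ c ≤ 𝐂 ⁅V, D⁆ := fun c hc hc' =>
    hcen b hb hb1 (h.cc hb hb1 (inf_le_left.trans hU.1) hD1.1 inf_le_right hD3) _ inf_le_left
      (h.cent1 hW hc) (h.ti hf hb hb1 hc hc' (inf_le_left.trans (h.cent1 hW hc).1) inf_le_right
        (inf_le_left.trans inf_le_right))
  have h3 : ¬ D ≤ 𝐂 ⁅V, D⁆ := fun e => hD (hCm D hDW (centsC.1 (commG1P.1
    (he.symm.trans (commG1P.2 (centsC.1 e))))))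
  by_cases hTU : T ≤ 𝐍 ⁅V, D⁆
  · exact h3 (hDW.trans (key b hb hb1 _ (norms_cent hU.2) (norms_subcent (normG W) hWU)
      (norms_cent hTU) h2))
  have h4 : Z = W := hZW.eq_of_not_lt fun e => hTU (hUn T hTV (norm_of_commg_le (sup_le hD2 hCZ)
    ((hCm _ ((commg_subl.2 hTZ).trans hZW) (ih' Z e hZ hTZ)).trans le_sup_right)))
  have h5 : b ∉ zpowers a := fun e => hTU (hUn T hTV (normsY (cents_norm (h.cc ha ha1 hT.1 hD1.1 hTa
    (hD3.trans (h.cent1_le ha e hb1)))) hTC))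
  have hB := h.cent1 hU ha
  refine h3 (hcen a ha ha1 (centsC.1 (hDW.trans (key b hb hb1 _ (norms_cent hB.2)
    (sub_der1_norm (le_trans (h4 ▸ hZC) (le_inf hCW (hCV.trans (centS (inf_le_left.trans hUV)))))
      inf_le_left) (norms_cent (cents_norm (h.cc ha ha1 hT.1 hB.1 hTa inf_le_right)))
    fun c hc hc' => (h2 c hc hc').trans (centS inf_le_left)))) D hDW hD1
    (h.ti hf ha ha1 hb h5 (inf_le_left.trans hD1.1) inf_le_right (inf_le_left.trans hD3)))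

theorem hall_of [hq : Fact q.Prime] (hH : Inv A G H) (hs : Group.IsSolvable H)
    (hc : ∀ W K, Inv A G W → Inv A G K → IsPGroup q W → W ≤ H → K ≤ H → K ≤ 𝐍 W →
      IsPiSubgroup {q}ᶜ K → piCoreOf {q}ᶜ H ⊔ H ⊓ 𝐍 W = H → K ≤ 𝐂 W) :
    IsPiHallOf {q}ᶜ (piCoreOf {q}ᶜ H) H := by
  have := pPrimePCore_characteristic q H
  have hM : Inv A G (pPrimePCoreOf q H) := ⟨(p'p_core_sub q H).trans hH.1,
    hH.2.trans (normalizer_le_normalizer_map_subtype_of_char _)⟩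
  obtain ⟨W, hW, hAW⟩ := Sig.exists_inv_sylow q h.pg hM.2 (h.ndvd hM.1)
  have hWH := hW.1.trans (p'p_core_sub q H)
  have hWi : Inv A G W := ⟨hW.1.trans hM.1, hAW⟩
  have hN := hH.nor hWi
  have h1 : piCoreOf {q}ᶜ H ⊔ H ⊓ 𝐍 W = H := le_antisymm (sup_le (pcore_sub _ H) inf_le_left)
    ((Frattini_arg (p'p_core_normal q H) hW).ge.trans (sup_le ((p'core_sup_Sylow_p'p_core hW).ge.trans
      (sup_le_sup_left (le_inf hWH (normG W)) _)) le_sup_right))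
  obtain ⟨K, hK, hAK⟩ := coprime_Hall_exists {q}ᶜ hN.2 (h.cop' hN.1 le_rfl)
    (solvableS inf_le_left hs)
  have h2 := sub_p'core_of_le_p'p_core ((le_inf (hK.1.trans inf_le_left) (hc W K hWi
    ⟨hK.1.trans hN.1, hAK⟩ (Sylow_pgroup hW) hWH (hK.1.trans inf_le_left) (hK.1.trans inf_le_right)
      (pHall_pgroup hK) h1)).trans (solvable_p_constrained hq.out hs hW)) (pHall_pgroup hK)
  obtain ⟨S, hS⟩ := Sylow_exists q (H ⊓ 𝐍 W)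
  refine (SDProd.of_normal (pcore_normal _ H) (le_antisymm (sup_le (pcore_sub _ H)
    (hS.1.trans inf_le_left)) (h1.ge.trans (sup_le le_sup_left ((Hall_sup_eq hS hK).ge.trans
      (sup_le le_sup_right (h2.trans le_sup_left))))))
    (coprime_TIg (p'nat_coprime (pcore_pgroup _ H) (pHall_pgroup hS)))).isPiHallOf_left_iff.2
      ⟨pcore_pgroup _ H, by rw [compl_compl]; exact pHall_pgroup hS⟩

omit h hr in
theorem _root_.Cfsg.Lib.Solv.AbCent.pgroup_of_pair [Fact p.Prime] (hπ : IsPiSubgroup {p, q} H)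
    (hY : Y ≤ H) (hq : IsPiSubgroup {q}ᶜ Y) : IsPGroup p Y :=
  pgroup_iff.1 (pgroupP.2 fun s h1 h2 => (pgroupP.1 (pgroupS hY hπ) s h1 h2).resolve_right
    (pgroupP.1 hq s h1 h2))

theorem le_core [Fact p.Prime] [Fact q.Prime] (hf : G ⊓ 𝐂 A = ⊥) (hpq : p ≠ q) (hH : Inv A G H)
    (hs : Group.IsSolvable H) (hπ : IsPiSubgroup {p, q} H) (hX : X ≤ H) (hXp : IsPGroup p X)
    (hc : X ≤ 𝐂 (piCoreOf {q} H)) : X ≤ piCoreOf {p} H := by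
  have hC := hH.cent (hH.pcore {q})
  have hn := norm_subcent_normal (pcore_normal {q} H).2
  have hc' : H ⊓ 𝐂 (piCoreOf {q} H) ≤ 𝐂 (piCoreOf {q} H) := inf_le_right
  have hXC := le_inf hX hc
  generalize H ⊓ 𝐂 (piCoreOf {q} H) = C at *
  have hV := pgroup_of_pair hπ ((pcore_sub _ C).trans hn.1) (pcore_pgroup _ C)
  refine ((sub_Hall_pcore (h.hall_of hC (solvableS hn.1 hs) fun W K hW hK hWq hWC hKC hKW hKq he =>
    h.gen hK fun a ha ha1 => ?_) hXC).2 (pgroup_p'group_of_ne hXp hpq)).trans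
      (pcore_max' hV (pcore_normal_trans _ hn))
  have hVn := (pcore_normal {q}ᶜ C).2
  have h0 := pgroup_coprime_p'group hWq (pgroupS (inf_le_left : K ⊓ 𝐂₁ a ≤ K) hKq)
  have hTW : K ⊓ 𝐂₁ a ≤ 𝐍 W := inf_le_left.trans hKW
  have h1 := h.comm_cent hf ha ha1 (hC.pcore _) (pgroup_nil hV) (h.cent1 hK ha) inf_le_right
    (inf_le_left.trans (hKC.trans hVn)) hW (pgroup_nil hWq) (hWC.trans hVn) hTW
    (pgroup_coprime_p'group hWq (pcore_pgroup _ C)).symm h0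
  have h2 : W ⊓ 𝐂 (piCoreOf {q}ᶜ C) ≤ piCoreOf {q} C := pcore_max' (isPGroupS inf_le_left hWq)
    ⟨inf_le_left.trans hWC, he.ge.trans (sup_le (cents_norm (centsC.1 inf_le_right))
      (norms_subcent inf_le_right (inf_le_left.trans hVn)))⟩
  exact coprime_commGG1P hTW h0 (commG1P.2 (centsC.1 ((inf_le_left.trans (hKC.trans hc')).trans
    (centS ((le_inf (commg_subl.2 hTW) h1).trans (h2.trans (pcore_normal_le _ hn)))))))

theorem join {π : Set ℕ} {L : Subgroup Γ} (hf : G ⊓ 𝐂 A = ⊥) (hL : Inv A G L)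
    (hs : Group.IsSolvable L) (hX : X ≤ L) (hY : Y ≤ L) (hAX : A ≤ 𝐍 X) (hAY : A ≤ 𝐍 Y)
    (h1 : IsPiSubgroup π X) (h2 : IsPiSubgroup π Y) : IsPiSubgroup π (X ⊔ Y) := by
  have hc := h.cop' hL.1 le_rfl
  obtain ⟨K, hK, hA, h3⟩ := coprime_Hall_subset hL.2 hc hs hX h1 hAX
  obtain ⟨K', hK', hA', h4⟩ := coprime_Hall_subset hL.2 hc hs hY h2 hAY
  obtain ⟨x, hx, rfl⟩ := coprime_Hall_trans hL.2 hc hs hK hA hK' hA'
  obtain rfl : x = 1 := mem_bot.1 (hf ▸ inf_le_inf_right _ hL.1 hx)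
  exact pgroupS (sup_le (by simpa using h3) h4) (pHall_pgroup hK')

theorem le_syl [Fact p.Prime] {P : Subgroup Γ} (hf : G ⊓ 𝐂 A = ⊥) (hP : IsSylowOf p P G)
    (hA : A ≤ 𝐍 P) (hX : Inv A G X) (hp : IsPGroup p X) : X ≤ P := by
  obtain ⟨x, hx, h1⟩ := Sig.inv_le_conj_sylow h.pg h.norm h.cop hP hA hX.1 hp hX.2
  obtain rfl : x = 1 := mem_bot.1 (hf ▸ hx)
  simpa using h1

end Ctx

end Cfsg.Lib.Solv.AbCent
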