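import Cfsg.Agent.Solv.ClassSize
import Cfsg.Agent.Solv.PSolvable
import Cfsg.Agent.Solv.PConstrained
import Cfsg.Agent.S0028

/-!
# Class sizes with a common `p`-part

If in a `p`-solvable group all noncentral class sizes have the same `p`-part, which is not `1`,
the group has a normal `p`-complement (Casolo, Dolfi, Jabara).
-/

set_option autoImplicit false

namespace Cfsg.Lib.Solv.ClassSize

open Subgroup

variable {G : Type*} [Group G] [Finite G] {p : ℕ} [hp : Fact p.Prime]

omit [Finite G] hp in
theorem coprime_orderOf_of_pow_eq_one {y t : G} {k : ℕ} (hy : y ^ p ^ k = 1)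
    (ht : (orderOf t).Coprime p) : (orderOf t).Coprime (orderOf y) :=
  Nat.Coprime.coprime_dvd_right (orderOf_dvd_of_pow_eq_one hy) (ht.pow_right k)

/-- A `p'`-element `t` commuting with a `p`-element `y` and centralizing a Sylow `p`-subgroup of
`C(y)` lies in `O_{p'}(G)`. -/
theorem mem_pPrimeCore_of_not_dvd_relIndex (hG : IsPSolvable p G) {y t : G} {k : ℕ}
    (hy : y ^ p ^ k = 1) (ht : (orderOf t).Coprime p) (hc : Commute t y)
    (hi : ¬ p ∣ (centralizer ({t} : Set G) ⊓ centralizer ({y} : Set G)).relIndex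
      (centralizer ({y} : Set G))) : t ∈ pPrimeCore p G := by
  set K := pPrimeCore p G with hK
  set f := QuotientGroup.mk' K with hf
  set U := pCore p (G ⧸ K) with hU
  have hCU : centralizer (U : Set (G ⧸ K)) ≤ U :=
    (hG.quotient K).centralizer_pCore_le (pPrimeCore_quotient_pPrimeCore p G)
  have hUp : IsPGroup p U := pCore_isPGroup p _
  set L := centralizer ({y} : Set G) with hL
  set M := centralizer ({t} : Set G) ⊓ L with hM
  have hyp : IsPGroup p (zpowers y) := isPGroup_zpowers_of_pow_eq_one hy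
  have hLmap : L.map f = centralizer ({f y} : Set (G ⧸ K)) := by
    have h1 := map_mk'_centralizer_of_isPGroup K (coprime_card_pPrimeCore p G) hyp
    rw [MonoidHom.map_zpowers, centralizer_zpowers, centralizer_zpowers] at h1
    exact h1
  have hidx : (M.map f).relIndex (L.map f) ∣ M.relIndex L := by
    have h1 := index_map_dvd (M.subgroupOf L) (f.subgroupMap_surjective L)
    have h2 : (M.subgroupOf L).map (f.subgroupMap L) = (M.map f).subgroupOf (L.map f) := by
      ext ⟨x, hx⟩
      constructor
      · rintro ⟨⟨a, ha⟩, haM, h⟩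
        exact ⟨a, haM, congrArg Subtype.val h⟩
      · rintro ⟨a, haM, h⟩
        exact ⟨⟨a, haM.2⟩, haM, Subtype.ext h⟩
    rw [h2] at h1
    exact h1
  have hle : U.subgroupOf (L.map f) ≤ (M.map f).subgroupOf (L.map f) := by
    apply le_of_normal_of_coprime_card_index
    have h1 : IsPGroup p (U.subgroupOf (L.map f)) := hUp.comap_of_injective _ (subtype_injective _)
    obtain ⟨j, hj⟩ := h1.exists_card_eq
    rw [hj]
    exact Nat.Coprime.pow_left _ ((Nat.Prime.coprime_iff_not_dvd hp.out).2
      fun hd => hi (hd.trans hidx))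
  have hto : (orderOf (f t)).Coprime p := Nat.Coprime.coprime_dvd_left (orderOf_map_dvd f t) ht
  have key : zpowers (f t) ≤ centralizer (U : Set (G ⧸ K)) := by
    refine Cfsg.Agent.S0028.result p (zpowers (f y)) (zpowers (f t)) U ?_ ?_ hUp ?_ ?_ ?_ ?_
    · rw [← MonoidHom.map_zpowers]; exact hyp.map f
    · rwa [Nat.card_zpowers]
    · rw [centralizer_zpowers, zpowers_le, mem_cent_iff_commute]
      exact (hc.symm).map f
    · rw [normalizer_eq_top]; exact le_top
    · rw [normalizer_eq_top]; exact le_top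
    · rw [centralizer_zpowers, centralizer_zpowers]
      rintro u ⟨huU, huy⟩
      rw [← hLmap] at huy
      obtain ⟨a, ha, rfl⟩ := (hle (show (⟨u, huy⟩ : L.map f) ∈ U.subgroupOf (L.map f) from huU) :
        u ∈ M.map f)
      exact map_cent_le f t ⟨a, ha.1, rfl⟩
  have htU : f t ∈ U := hCU (key (mem_zpowers _))
  obtain ⟨j, hj⟩ := hUp ⟨f t, htU⟩
  have hj' : (f t) ^ p ^ j = 1 := congrArg Subtype.val hj
  have h1 : orderOf (f t) = 1 :=
    Nat.Coprime.eq_one_of_dvd (hto.pow_right j) (orderOf_dvd_of_pow_eq_one hj')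
  exact (QuotientGroup.eq_one_iff t).1 (orderOf_eq_one_iff.1 h1)

omit hp in
theorem factorization_card_add_index (C : Subgroup G) :
    (Nat.card C).factorization p + C.index.factorization p = (Nat.card G).factorization p := by
  rw [← C.card_mul_index, Nat.factorization_mul Nat.card_pos.ne' C.index_ne_zero_of_finite]
  rfl

/-- **Casolo–Dolfi–Jabara**, `p`-solvable case: `p'`-elements lie in `O_{p'}(G)`. -/
theorem mem_pPrimeCore_of_const (hG : IsPSolvable p G) {a : ℕ} (ha : 0 < a)
    (h : ∀ x : G, x ∉ center G → (centralizer ({x} : Set G)).index.factorization p = a)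
    {t : G} (ht : (orderOf t).Coprime p) : t ∈ pPrimeCore p G := by
  by_contra htK
  have htZ : t ∉ center G := fun hz => htK (le_pPrimeCore (N := zpowers t)
    ⟨fun n hn g => by
      rwa [mem_center_iff.1 (zpowers_le.2 hz hn) g, mul_inv_cancel_right]⟩
    (by rwa [Nat.card_zpowers]) (mem_zpowers t))
  -- `p`-elements commuting with `t` are central
  have hcen : ∀ (y : G) (k : ℕ), y ^ p ^ k = 1 → Commute t y → y ∈ center G := by
    intro y k hy hc
    by_contra hyZ
    refine htK (mem_pPrimeCore_of_not_dvd_relIndex hG hy ht hc fun hd => ?_)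
    have hm := cent_mul_of_coprime hc (coprime_orderOf_of_pow_eq_one hy ht)
    have htyZ : t * y ∉ center G := fun hz => htZ (by
      rw [← cent_eq_top_iff] at hz ⊢
      rw [hm] at hz
      exact top_le_iff.1 (hz ▸ inf_le_left))
    have h1 := h _ htyZ
    have h2 := h _ hyZ
    have hr : (centralizer ({t} : Set G) ⊓ centralizer ({y} : Set G)).relIndex
      (centralizer ({y} : Set G)) ≠ 0 := index_ne_zero_of_finite
    rw [hm, ← relIndex_mul_index (inf_le_right : centralizer ({t} : Set G) ⊓
      centralizer ({y} : Set G) ≤ _), Nat.factorization_mul (b := (centralizer ({y} : Set G)).index) hr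
      index_ne_zero_of_finite, Finsupp.add_apply, h2] at h1
    have h3 := (hp.out.dvd_iff_one_le_factorization hr).1 hd
    omega
  obtain ⟨S⟩ : Nonempty (Sylow p (centralizer ({t} : Set G))) := inferInstance
  set S' := (S : Subgroup (centralizer ({t} : Set G))).map (Subgroup.subtype _) with hS'
  have hS'p : IsPGroup p S' := S.isPGroup'.map _
  have hS'Z : S' ≤ center G := by
    intro y hy
    obtain ⟨k, hk⟩ := hS'p ⟨y, hy⟩
    exact hcen y k (congrArg Subtype.val hk)
      (mem_cent_iff_commute.1 (map_subtype_le _ hy)).symm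
  have hS'c : Nat.card S' = p ^ (Nat.card (centralizer ({t} : Set G))).factorization p := by
    rw [hS', card_map_of_injective (subtype_injective _), S.card_eq_multiplicity]
  obtain ⟨P, hP⟩ := hS'p.exists_le_sylow
  have hPZ : ¬ (P : Subgroup G) ≤ center G := fun hle => by
    have h1 := not_dvd_index_of_sylow_le P (hle.trans (center_le_cent t))
    have h2 := h t htZ
    exact h1 ((hp.out.dvd_iff_one_le_factorization index_ne_zero_of_finite).2 (by omega))
  obtain ⟨y, hyP, hyZ⟩ := SetLike.not_le_iff_exists.1 hPZ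
  have hT : S' ⊔ zpowers y ≤ (P : Subgroup G) ⊓ centralizer ({y} : Set G) :=
    sup_le (le_inf hP (hS'Z.trans (center_le_cent y)))
      (le_inf (zpowers_le.2 hyP) (zpowers_le_cent y))
  obtain ⟨j, hj⟩ := (P.isPGroup'.to_le (hT.trans inf_le_left)).exists_card_eq
  have hlt : Nat.card S' < Nat.card ↥(S' ⊔ zpowers y) := by
    refine lt_of_le_of_ne (card_le_of_le le_sup_left) fun he => hyZ (hS'Z ?_)
    rw [eq_of_le_of_card_ge (le_sup_left : S' ≤ S' ⊔ zpowers y) he.ge]; exact (le_sup_right : zpowers y ≤ _) (mem_zpowers y)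
  have hdv : p ^ j ∣ Nat.card (centralizer ({y} : Set G)) :=
    hj ▸ card_dvd_of_le (hT.trans inf_le_right)
  rw [hp.out.pow_dvd_iff_le_factorization Nat.card_pos.ne'] at hdv
  rw [hS'c, hj, Nat.pow_lt_pow_iff_right hp.out.one_lt] at hlt
  have e1 := factorization_card_add_index (p := p) (centralizer ({t} : Set G))
  have e2 := factorization_card_add_index (p := p) (centralizer ({y} : Set G))
  rw [h t htZ] at e1
  rw [h y hyZ] at e2
  omega

/-- **Casolo–Dolfi–Jabara**, `p`-solvable case: `O_{p'}(G)` is a normal `p`-complement. -/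
theorem isPGroup_quotient_of_const (hG : IsPSolvable p G) {a : ℕ} (ha : 0 < a)
    (h : ∀ x : G, x ∉ center G → (centralizer ({x} : Set G)).index.factorization p = a) :
    IsPGroup p (G ⧸ pPrimeCore p G) := by
  intro x
  obtain ⟨g, rfl⟩ := QuotientGroup.mk_surjective x
  refine ⟨(orderOf g).factorization p, ?_⟩
  rw [← QuotientGroup.mk_pow, QuotientGroup.eq_one_iff]
  refine mem_pPrimeCore_of_const hG ha h ?_
  rw [orderOf_pow_of_dvd (pow_ne_zero _ hp.out.ne_zero) (Nat.ordProj_dvd _ _)]
  exact (Nat.coprime_ordCompl hp.out (orderOf_pos g).ne').symm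

end Cfsg.Lib.Solv.ClassSize
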