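import Cfsg.Agent.Solv.CDJ
import Cfsg.Agent.Solv.Mann
import Cfsg.Agent.Solv.ActionTransport
import Cfsg.Agent.Solv.ExtraSub
import Cfsg.Agent.S0023
import Cfsg.Agent.S0055

/-!
# Groups with class sizes `1`, `p ^ a`, `p ^ a * n`
-/

set_option autoImplicit false
set_option linter.unusedSectionVars false

namespace Cfsg.Lib.Solv.ClassSize

open Subgroup
open scoped commutatorElement

/-- A nontrivial group of exponent `p` acting fixed-point-freely on a nontrivial `p'`-group has
order `p`. -/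
theorem card_eq_of_fpf {A K : Type*} [Group A] [Group K] [Finite A] [Finite K] [Nontrivial A]
    [Nontrivial K] {p : ℕ} [hp : Fact p.Prime] (φ : A →* MulAut K) (hexp : ∀ a : A, a ^ p = 1)
    (hcop : (Nat.card K).Coprime p) (hf : ∀ a : A, a ≠ 1 → ∀ k, φ a k = k → k = 1) :
    Nat.card A = p := by
  have hA : IsPGroup p A := fun a => ⟨1, by rw [pow_one, hexp]⟩
  have := hA.center_nontrivial
  obtain ⟨⟨z, hzc⟩, hz⟩ := exists_ne (1 : center A)
  have hz1 : z ≠ 1 := fun h => hz (Subtype.ext h)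
  have hzo : orderOf z = p := orderOf_eq_prime (hexp z) hz1
  by_cases hall : ∀ r : A, r ∈ zpowers z
  · rw [← hzo, ← Nat.card_zpowers, (eq_top_iff' _).2 hall, card_top]
  exfalso
  push Not at hall
  obtain ⟨r, hr⟩ := hall
  set B := closure ({z, r} : Set A) with hB
  have hBc : IsMulCommutative B := by
    refine isMulCommutative_closure ?_
    rintro x (rfl | rfl) y (rfl | rfl)
    · rfl
    · exact (mem_center_iff.1 hzc _).symm
    · exact mem_center_iff.1 hzc _
    · rfl
  have hzB : z ∈ B := subset_closure (by simp)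
  have hrB : r ∈ B := subset_closure (by simp)
  have hnc : ¬ IsCyclic B := by
    intro hc
    obtain ⟨g, hg⟩ := hc.exists_generator
    have h1 : Nat.card B ≤ p := by
      rw [← orderOf_eq_card_of_forall_mem_zpowers hg]
      exact Nat.le_of_dvd hp.out.pos (orderOf_dvd_of_pow_eq_one (Subtype.ext (hexp g)))
    have h2 : zpowers z = B :=
      eq_of_le_of_card_ge (zpowers_le.2 hzB) (by rwa [Nat.card_zpowers, hzo])
    exact hr (h2 ▸ hrB)
  obtain ⟨j, hj⟩ := (hA.to_subgroup B).exists_card_eq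
  have h3 : (⊤ : Subgroup K) ≤ ⊥ := Act.le_of_forall_fix_zpowers (φ := φ) hnc (Act.inv_top B)
    (by rw [hj, card_top]; exact (hcop.pow_right j).symm)
    fun b _ hb k hk => hf b hb k (Act.mem_fix_zpowers.1 hk.2)
  exact top_ne_bot (le_bot_iff.1 h3)

variable {G : Type*} [Group G] [Finite G] {p : ℕ} [hp : Fact p.Prime]

/-- The setting: class sizes `1, p ^ a, p ^ a * n` and a normal `p`-complement `H`. -/
structure Mmn (p a n : ℕ) {G : Type*} [Group G] (H : Subgroup G) : Prop where
  ha : 0 < a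
  hn : 1 < n
  hnp : n.Coprime p
  hH : (Nat.card H).Coprime p
  hi : ∃ k, H.index = p ^ k
  hcs : ∀ x : G, (centralizer ({x} : Set G)).index = 1 ∨
    (centralizer ({x} : Set G)).index = p ^ a ∨ (centralizer ({x} : Set G)).index = p ^ a * n
  hm : ∃ x : G, (centralizer ({x} : Set G)).index = p ^ a
  hmn : ∃ x : G, (centralizer ({x} : Set G)).index = p ^ a * n

namespace Mmn

variable {a n : ℕ} {H : Subgroup G} [hHn : H.Normal] (c : Mmn p a n H)
include c

omit hHn in
theorem decomp (P : Sylow p G) (g : G) : ∃ l ∈ (P : Subgroup G), ∃ h ∈ H, g = l * h := by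
  obtain ⟨k, hk⟩ := c.hi
  exact forall_mul_sylow_of_index_dvd P (k := k) (by rw [hk]) g

omit [Finite G] hHn in
theorem one_lt : 1 < p ^ a := Nat.one_lt_pow c.ha.ne' hp.out.one_lt

omit [Finite G] hHn in
theorem dvd_index {x : G} (hx : x ∉ center G) : p ∣ (centralizer ({x} : Set G)).index := by
  rcases c.hcs x with h | h | h
  · exact absurd (index_cent_eq_one_iff.1 h) hx
  · rw [h]; exact dvd_pow_self p c.ha.ne'
  · rw [h]; exact (dvd_pow_self p c.ha.ne').mul_right n

omit hHn in
theorem mem_center (P : Sylow p G) {x : G} (hx : (P : Subgroup G) ≤ centralizer ({x} : Set G)) :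
    x ∈ center G := by
  by_contra h
  exact not_dvd_index_of_sylow_le P hx (c.dvd_index h)

omit c [Finite G] hHn hp in
theorem mem_D {x : G} : x ∈ centralizer (H : Set G) ↔ H ≤ centralizer ({x} : Set G) :=
  ⟨fun h _ hy => mem_cent.2 (h _ hy), fun h _ hy => mem_cent.1 (h hy)⟩

theorem mem_D_iff {x : G} : x ∈ centralizer (H : Set G) ↔
    (centralizer ({x} : Set G)).index = 1 ∨ (centralizer ({x} : Set G)).index = p ^ a := by
  rw [mem_D]
  constructor
  · intro h
    obtain ⟨k, hk⟩ := c.hi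
    rcases c.hcs x with h1 | h1 | h1
    · exact Or.inl h1
    · exact Or.inr h1
    · have h2 : n ∣ p ^ k := by
        rw [← hk]; exact (Dvd.intro_left _ h1.symm).trans (index_dvd_of_le h)
      exact absurd (Nat.Coprime.eq_one_of_dvd (c.hnp.pow_right k) h2) c.hn.ne'
  · rintro (h | h)
    · exact le_cent_of_coprime (by rw [h]; exact Nat.coprime_one_right _)
    · exact le_cent_of_coprime (by rw [h]; exact c.hH.pow_right a)

theorem index_of_not_mem {x : G} (hx : x ∉ centralizer (H : Set G)) :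
    (centralizer ({x} : Set G)).index = p ^ a * n := by
  rw [c.mem_D_iff, not_or] at hx
  exact ((c.hcs x).resolve_left hx.1).resolve_left hx.2

theorem index_of_mem {x : G} (hx : x ∈ centralizer (H : Set G)) (hz : x ∉ center G) :
    (centralizer ({x} : Set G)).index = p ^ a :=
  (c.mem_D_iff.1 hx).resolve_left fun h => hz (index_cent_eq_one_iff.1 h)

theorem relIndex_of_not_mem {x : G} (hx : x ∉ centralizer (H : Set G)) :
    (centralizer ({x} : Set G)).relIndex H = n := by
  set C := centralizer ({x} : Set G) with hC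
  have h1 : C.relIndex (H ⊔ C) * (H ⊔ C).index = p ^ a * n := by
    rw [relIndex_mul_index le_sup_right, c.index_of_not_mem hx]
  rw [relIndex_sup_of_normal_of_le le_rfl] at h1
  obtain ⟨k, hk⟩ := c.hi
  have h2 : (H ⊔ C).index ∣ p ^ k := hk ▸ index_dvd_of_le le_sup_left
  have h3 : (C.relIndex H).Coprime p :=
    Nat.Coprime.coprime_dvd_left (relIndex_dvd_card C H) c.hH
  apply Nat.dvd_antisymm
  · exact (h3.pow_right a).dvd_of_dvd_mul_left (Dvd.intro _ h1)
  · exact (Nat.Coprime.coprime_dvd_right h2 (c.hnp.pow_right k)).dvd_of_dvd_mul_right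
      (Dvd.intro_left _ h1.symm)

theorem D_ne_top : centralizer (H : Set G) ≠ ⊤ := by
  intro h
  obtain ⟨x, hx⟩ := c.hmn
  have h1 := c.mem_D_iff.1 (h ▸ mem_top x)
  have h2 := c.one_lt
  have h3 := c.hn
  rw [hx] at h1
  rcases h1 with h1 | h1 <;> nlinarith

theorem not_le_D (P : Sylow p G) : ¬ (P : Subgroup G) ≤ centralizer (H : Set G) := by
  intro h
  refine c.D_ne_top ((eq_top_iff' _).2 fun g => ?_)
  obtain ⟨l, hl, y, hy, rfl⟩ := c.decomp P g
  refine mul_mem (h hl) (center_le_centralizer _ (c.mem_center P fun u hu => ?_))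
  exact mem_cent.2 (h hu y hy).symm

omit hHn in
theorem coprime_orderOf (P : Sylow p G) {h l : G} (hh : h ∈ H) (hl : l ∈ (P : Subgroup G)) :
    (orderOf h).Coprime (orderOf l) := by
  obtain ⟨k, hk⟩ := P.isPGroup' ⟨l, hl⟩
  exact coprime_orderOf_of_pow_eq_one (congrArg Subtype.val hk)
    (Nat.Coprime.coprime_dvd_left (orderOf_dvd_natCard _ hh) c.hH)

omit c hHn hp in
theorem eq_of_le_of_index_eq {A B : Subgroup G} (h : A ≤ B) (hi : A.index = B.index) : A = B :=
  cent_eq_of_le_of_index_le h hi.le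

/-- The normal `p`-complement is abelian. -/
theorem H_le_D : H ≤ centralizer (H : Set G) := by
  by_contra hne
  obtain ⟨h0, hh0, hh0D⟩ := SetLike.not_le_iff_exists.1 hne
  obtain ⟨P⟩ : Nonempty (Sylow p G) := inferInstance
  set D := centralizer (H : Set G) with hD
  have key : ∀ l ∈ (P : Subgroup G), l ∉ D → D ≤ centralizer ({l} : Set G) := by
    intro l hl hlD
    have hex : ¬ (centralizer ({l} : Set G)).subgroupOf H ≤ D.subgroupOf H := by
      intro hle
      have h1 : D.subgroupOf H ≤ (centralizer ({h0} : Set G)).subgroupOf H :=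
        fun u hu => mem_cent.2 (hu h0 hh0).symm
      have h2 : (centralizer ({l} : Set G)).subgroupOf H =
          (centralizer ({h0} : Set G)).subgroupOf H :=
        eq_of_le_of_index_eq (hle.trans h1)
          ((c.relIndex_of_not_mem hlD).trans (c.relIndex_of_not_mem hh0D).symm)
      have h3 : (⟨h0, hh0⟩ : H) ∈ (centralizer ({h0} : Set G)).subgroupOf H := self_mem_cent h0
      rw [← h2] at h3
      exact hh0D (hle h3)
    obtain ⟨⟨h, hh⟩, hhl, hhD⟩ := SetLike.not_le_iff_exists.1 hex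
    have hhD' : h ∉ D := hhD
    have hhl' : h ∈ centralizer ({l} : Set G) := hhl
    have hm := cent_mul_of_coprime (mem_cent_iff_commute.1 hhl') (c.coprime_orderOf P hh hl)
    have hD2 : h * l ∉ D := fun hd => hlD (mem_D.2 ((mem_D.1 hd).trans (hm ▸ inf_le_right)))
    have e1 : centralizer ({h * l} : Set G) = centralizer ({h} : Set G) :=
      eq_of_le_of_index_eq (hm ▸ inf_le_left)
        ((c.index_of_not_mem hD2).trans (c.index_of_not_mem hhD').symm)
    have h3 : D ≤ centralizer ({h} : Set G) := fun u hu => mem_cent.2 (hu h hh).symm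
    rw [← e1, hm] at h3
    exact h3.trans inf_le_right
  obtain ⟨l0, hl0, hl0D⟩ := SetLike.not_le_iff_exists.1 (c.not_le_D P)
  obtain ⟨x, hx⟩ := c.hm
  have hxD : x ∈ D := c.mem_D_iff.2 (Or.inr hx)
  have hxZ : x ∈ center G := by
    refine c.mem_center P fun l hl => ?_
    by_cases hlD : l ∈ D
    · have h1 : l * l0 ∉ D := fun hd => hl0D ((mul_mem_cancel_left hlD).1 hd)
      have h2 := mem_cent_comm.1 (key _ (mul_mem hl hl0) h1 hxD)
      exact (mul_mem_cancel_right (mem_cent_comm.1 (key _ hl0 hl0D hxD))).1 h2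
    · exact mem_cent_comm.1 (key l hl hlD hxD)
  rw [← index_cent_eq_one_iff, hx] at hxZ
  exact c.one_lt.ne' hxZ

theorem comm {x y : G} (hx : x ∈ H) (hy : y ∈ H) : x * y = y * x := c.H_le_D hy x hx

theorem inf_eq_bot (P : Sylow p G) : (P : Subgroup G) ⊓ H = ⊥ :=
  inf_eq_bot_of_isPGroup_of_coprime P.isPGroup' c.hH

/-- Without abelian direct factor, `H` meets the centre trivially. -/
theorem eq_one_of_center (hnodf : ∀ A B : Subgroup G, A.Normal → B.Normal → A ⊓ B = ⊥ →
    A ⊔ B = ⊤ → IsMulCommutative A → A = ⊥) {x : G} (hx : x ∈ H) (hz : x ∈ center G) : x = 1 := by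
  obtain ⟨P⟩ : Nonempty (Sylow p G) := inferInstance
  have : IsMulCommutative H := ⟨⟨fun u v => Subtype.ext (c.comm u.2 v.2)⟩⟩
  obtain ⟨j, hj⟩ := P.isPGroup'.exists_card_eq
  obtain ⟨h1, h2⟩ := Cfsg.Agent.S0055.result (P : Subgroup G) H
    (by rw [normalizer_eq_top]; exact le_top) (by rw [hj]; exact (c.hH.pow_right j).symm)
  set A := H ⊓ centralizer ((P : Subgroup G) : Set G) with hA
  have hAZ : A ≤ center G := fun u hu => c.mem_center P fun l hl => mem_cent.2 (hu.2 l hl)
  have hAn : A.Normal := ⟨fun u hu g => by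
    rwa [mem_center_iff.1 (hAZ hu) g, mul_inv_cancel_right]⟩
  set W := ⁅H, (P : Subgroup G)⁆ with hW
  have hWH : W ≤ H := commutator_le_left _ _
  have htop : A ⊔ (W ⊔ P) = ⊤ := by
    rw [← sup_assoc, h2, eq_top_iff']
    intro g
    obtain ⟨l, hl, y, hy, rfl⟩ := c.decomp P g
    exact mul_mem (mem_sup_right hl) (mem_sup_left hy)
  have hBn : (W ⊔ (P : Subgroup G)).Normal := by
    rw [← normalizer_eq_top_iff, eq_top_iff, ← htop]
    exact sup_le (hAZ.trans (center_le_normalizer _)) le_normalizer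
  have hPW : (P : Subgroup G) ≤ normalizer (W : Set G) := normalizer_commutator_ge_right _ _
  have hdis : A ⊓ (W ⊔ P) = ⊥ := by
    rw [eq_bot_iff]
    rintro u ⟨huA, huB⟩
    obtain ⟨w, hw, l, hl, rfl⟩ := (mem_sup_of_le_normalizer hPW).1 huB
    have hlH : l ∈ H := (mul_mem_cancel_left (hWH hw)).1 huA.1
    have hl1 : l = 1 := mem_bot.1 (c.inf_eq_bot P ▸ (⟨hl, hlH⟩ : l ∈ (P : Subgroup G) ⊓ H))
    subst hl1
    rw [mul_one] at huA ⊢
    exact h1 ▸ (⟨huA, hw⟩ : w ∈ A ⊓ W)
  have hA0 := hnodf A _ hAn hBn hdis htop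
    ⟨⟨fun u v => Subtype.ext (c.comm u.2.1 v.2.1)⟩⟩
  exact mem_bot.1 (hA0 ▸ (⟨hx, center_le_centralizer _ hz⟩ : x ∈ A))

theorem isPGroup_quotient_D : IsPGroup p (G ⧸ centralizer (H : Set G)) := by
  obtain ⟨k, hk⟩ := c.hi
  have h1 : (centralizer (H : Set G)).index ∣ p ^ k := hk ▸ index_dvd_of_le c.H_le_D
  obtain ⟨j, -, hj⟩ := (Nat.dvd_prime_pow hp.out).1 h1
  exact IsPGroup.of_card hj

theorem nontrivial_quotient_D : Nontrivial (G ⧸ centralizer (H : Set G)) :=
  QuotientGroup.nontrivial_iff.2 c.D_ne_top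

theorem exists_z : ∃ z : G, z ∉ centralizer (H : Set G) ∧
    ∀ g : G, g * z * g⁻¹ * z⁻¹ ∈ centralizer (H : Set G) := by
  have := c.nontrivial_quotient_D
  have := c.isPGroup_quotient_D.center_nontrivial
  obtain ⟨⟨z, hzc⟩, hz⟩ := exists_ne (1 : center (G ⧸ centralizer (H : Set G)))
  obtain ⟨z, rfl⟩ := QuotientGroup.mk_surjective z
  refine ⟨z, fun h => hz (Subtype.ext ((QuotientGroup.eq_one_iff z).2 h)), fun g => ?_⟩
  rw [← QuotientGroup.eq_one_iff]
  simp only [QuotientGroup.mk_mul, QuotientGroup.mk_inv]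
  rw [mem_center_iff.1 hzc]
  group

section nodf

variable (hnodf : ∀ A B : Subgroup G, A.Normal → B.Normal → A ⊓ B = ⊥ →
    A ⊔ B = ⊤ → IsMulCommutative A → A = ⊥)
include hnodf

theorem index_of_mem_H {x : G} (hx : x ∈ H) (h1 : x ≠ 1) :
    (centralizer ({x} : Set G)).index = p ^ a :=
  c.index_of_mem (c.H_le_D hx) fun hz => h1 (c.eq_one_of_center hnodf hx hz)

theorem card_H : Nat.card H = n := by
  obtain ⟨z, hzD, hz⟩ := c.exists_z
  have key : ∀ w ∈ H, w * z = z * w → w = 1 := by
    intro w hw hwz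
    by_contra hw1
    obtain ⟨h, hh, hhz⟩ : ∃ h ∈ H, h * z ≠ z * h := by
      by_contra hcon
      push Not at hcon
      exact hzD hcon
    -- the commutator map
    have hφ : ∀ u ∈ H, u * z * u⁻¹ * z⁻¹ ∈ H := fun u hu => by
      have := mul_mem hu (hHn.conj_mem _ (inv_mem hu) z)
      simpa only [mul_assoc] using this
    have hC : ∀ u ∈ H, u * z ≠ z * u →
        centralizer ({u} : Set G) = centralizer ({u * z * u⁻¹ * z⁻¹} : Set G) := by
      intro u hu huz
      refine eq_of_le_of_index_eq (fun g hg => ?_) ?_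
      · rw [mem_cent_iff_conj]
        have h1 := mem_cent_iff_conj.1 hg
        have h2 := hz g _ (hφ u hu)
        have h3 := hz g _ hu
        set d := g * z * g⁻¹ * z⁻¹ with hd
        have h4 : g * z * g⁻¹ = d * z := by rw [hd]; group
        calc g * (u * z * u⁻¹ * z⁻¹) * g⁻¹
            = (g * u * g⁻¹) * (g * z * g⁻¹) * (g * u * g⁻¹)⁻¹ * (g * z * g⁻¹)⁻¹ := by group
          _ = (u * d) * z * u⁻¹ * z⁻¹ * d⁻¹ := by rw [h1, h4]; group
          _ = (d * (u * z * u⁻¹ * z⁻¹)) * d⁻¹ := by rw [h3]; group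
          _ = u * z * u⁻¹ * z⁻¹ := by rw [← h2]; group
      · rw [c.index_of_mem_H hnodf hu (by rintro rfl; simp at huz),
          c.index_of_mem_H hnodf (hφ u hu) fun h0 => huz ?_]
        calc u * z = (u * z * u⁻¹ * z⁻¹) * z * u := by group
          _ = z * u := by rw [h0, one_mul]
    have e1 : (h * w) * z * (h * w)⁻¹ * z⁻¹ = h * z * h⁻¹ * z⁻¹ := by
      calc (h * w) * z * (h * w)⁻¹ * z⁻¹ = h * (w * z) * w⁻¹ * h⁻¹ * z⁻¹ := by group
        _ = h * z * h⁻¹ * z⁻¹ := by rw [hwz]; group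
    have hhwz : (h * w) * z ≠ z * (h * w) := fun h0 => hhz (by
      calc h * z = h * (w * z) * w⁻¹ := by rw [hwz]; group
        _ = (h * w) * z * w⁻¹ := by group
        _ = z * h := by rw [h0]; group)
    have e2 : centralizer ({h} : Set G) = centralizer ({h * w} : Set G) := by
      rw [hC h hh hhz, hC _ (mul_mem hh hw) hhwz, e1]
    have e3 : centralizer ({h} : Set G) = centralizer ({w} : Set G) := by
      refine eq_of_le_of_index_eq (fun g hg => ?_) ?_
      · have h1 := mem_cent_comm.1 (e2 ▸ hg)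
        exact mem_cent_comm.1 ((mul_mem_cancel_left (mem_cent_comm.1 hg)).1 h1)
      · rw [c.index_of_mem_H hnodf hh (by rintro rfl; simp at hhz), c.index_of_mem_H hnodf hw hw1]
    have h5 : z ∈ centralizer ({h} : Set G) := e3 ▸ mem_cent.2 hwz.symm
    exact hhz (mem_cent.1 h5).symm
  have h1 : (centralizer ({z} : Set G)).subgroupOf H = ⊥ :=
    (eq_bot_iff_forall _).2 fun u hu => Subtype.ext (key u u.2 (mem_cent.1 hu))
  rw [← c.relIndex_of_not_mem hzD, relIndex, h1, index_bot]

theorem eq_one_of_comm {x h : G} (hx : x ∉ centralizer (H : Set G)) (hh : h ∈ H)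
    (hc : h * x = x * h) : h = 1 := by
  have h1 := c.relIndex_of_not_mem hx
  have h2 := ((centralizer ({x} : Set G)).subgroupOf H).card_mul_index
  rw [← relIndex, h1, c.card_H hnodf] at h2
  have h3 : Nat.card ((centralizer ({x} : Set G)).subgroupOf H) = 1 := by
    have := c.hn
    exact Nat.eq_of_mul_eq_mul_right (by omega) (h2.trans (one_mul n).symm)
  have h4 : (⟨h, hh⟩ : H) ∈ (centralizer ({x} : Set G)).subgroupOf H := mem_cent.2 hc
  rw [card_eq_one.1 h3] at h4
  exact congrArg Subtype.val (mem_bot.1 h4)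

theorem cent_of_mem_H {h : G} (hh : h ∈ H) (h1 : h ≠ 1) :
    centralizer ({h} : Set G) = centralizer (H : Set G) := by
  refine le_antisymm (fun x hx => ?_) fun x hx => mem_cent.2 (hx h hh).symm
  by_contra hxD
  exact h1 (c.eq_one_of_comm hnodf hxD hh (mem_cent.1 hx).symm)

theorem exists_ne_one : ∃ h ∈ H, h ≠ 1 := by
  by_contra hcon
  push Not at hcon
  have h1 := c.card_H hnodf
  rw [(eq_bot_iff_forall _).2 hcon, card_bot] at h1
  exact c.hn.ne h1

theorem index_D : (centralizer (H : Set G)).index = p ^ a := by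
  obtain ⟨h, hh, h1⟩ := c.exists_ne_one hnodf
  rw [← c.cent_of_mem_H hnodf hh h1, c.index_of_mem_H hnodf hh h1]

theorem D_le_cent {d : G} (hd : d ∈ centralizer (H : Set G)) :
    centralizer (H : Set G) ≤ centralizer ({d} : Set G) := by
  obtain ⟨P⟩ : Nonempty (Sylow p G) := inferInstance
  obtain ⟨h, hh, h1⟩ := c.exists_ne_one hnodf
  obtain ⟨l, hl, y, hy, rfl⟩ := c.decomp P d
  have hlD : l ∈ centralizer (H : Set G) := (mul_mem_cancel_right (c.H_le_D hy)).1 hd
  have hm := cent_mul_of_coprime (show Commute h l from hlD h hh) (c.coprime_orderOf P hh hl)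
  rw [c.cent_of_mem_H hnodf hh h1] at hm
  have hZ : h * l ∉ center G := fun hz => c.D_ne_top (by
    rw [← cent_eq_top_iff, hm] at hz
    exact top_le_iff.1 (hz ▸ inf_le_left))
  have e1 : centralizer ({h * l} : Set G) = centralizer (H : Set G) :=
    eq_of_le_of_index_eq (hm ▸ inf_le_left)
      ((c.index_of_mem (mul_mem (c.H_le_D hh) hlD) hZ).trans (c.index_D hnodf).symm)
  intro x hx
  have h2 : x ∈ centralizer ({l} : Set G) := by
    have h3 := hx
    rw [← e1, hm] at h3
    exact h3.2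
  exact inf_cent_le_cent_mul l y ⟨h2, mem_cent.2 (hx y hy).symm⟩

theorem cent_of_mem_D {d : G} (hd : d ∈ centralizer (H : Set G)) (hz : d ∉ center G) :
    centralizer ({d} : Set G) = centralizer (H : Set G) :=
  (eq_of_le_of_index_eq (c.D_le_cent hnodf hd)
    ((c.index_D hnodf).trans (c.index_of_mem hd hz).symm)).symm

theorem index_sylow (P : Sylow p G) : (P : Subgroup G).index = n := by
  have h1 : (P : Subgroup G).IsComplement' H := by
    refine isComplement'_of_disjoint_and_mul_eq_univ (disjoint_iff.2 (c.inf_eq_bot P)) ?_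
    rw [Set.eq_univ_iff_forall]
    intro g
    obtain ⟨l, hl, y, hy, rfl⟩ := c.decomp P g
    exact Set.mul_mem_mul hl hy
  rw [h1.symm.index_eq_card, c.card_H hnodf]

theorem relIndex_D (P : Sylow p G) : (centralizer (H : Set G)).relIndex P = p ^ a := by
  rw [relIndex_eq_of_forall_mul (B := ⊤) le_top, relIndex_top_right, c.index_D hnodf]
  intro g _
  obtain ⟨l, hl, y, hy, rfl⟩ := c.decomp P g
  exact ⟨l, hl, y, c.H_le_D hy, rfl⟩

theorem cent_le_sylow (P : Sylow p G) {l : G} (hl : l ∈ (P : Subgroup G))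
    (hlD : l ∉ centralizer (H : Set G)) : centralizer ({l} : Set G) ≤ P := by
  intro x hx
  obtain ⟨g, hg, y, hy, rfl⟩ := c.decomp P x
  have h0 := mem_cent_iff_conj.1 hx
  have h1 : y * l * y⁻¹ * l⁻¹ = g⁻¹ * l * g * l⁻¹ := by
    have h4 : g⁻¹ * (g * y * l * (g * y)⁻¹) * g = y * l * y⁻¹ := by group
    rw [← h4, h0]
  have h2 : y * l * y⁻¹ * l⁻¹ ∈ (P : Subgroup G) ⊓ H := by
    refine mem_inf.2 ⟨?_, ?_⟩
    · rw [h1]; exact mul_mem (mul_mem (mul_mem (inv_mem hg) hl) hg) (inv_mem hl)
    · have := mul_mem hy (hHn.conj_mem _ (inv_mem hy) l)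
      simpa only [mul_assoc] using this
  rw [c.inf_eq_bot P, mem_bot] at h2
  have h3 : y = 1 := c.eq_one_of_comm hnodf hlD hy (by
    calc y * l = (y * l * y⁻¹ * l⁻¹) * l * y := by group
      _ = l * y := by rw [h2, one_mul])
  rw [h3, mul_one]; exact hg

theorem relIndex_cent (P : Sylow p G) {l : G} (hl : l ∈ (P : Subgroup G)) (hz : l ∉ center G) :
    (centralizer ({l} : Set G)).relIndex P = p ^ a := by
  by_cases hlD : l ∈ centralizer (H : Set G)
  · rw [c.cent_of_mem_D hnodf hlD hz, c.relIndex_D hnodf]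
  · have h1 := relIndex_mul_index (c.cent_le_sylow hnodf P hl hlD)
    rw [c.index_of_not_mem hlD, c.index_sylow hnodf] at h1
    have := c.hn
    exact Nat.eq_of_mul_eq_mul_right (by omega) h1

theorem mem_center_sylow_iff (P : Sylow p G) (l : (P : Subgroup G)) :
    l ∈ center (P : Subgroup G) ↔ (l : G) ∈ center G := by
  constructor
  · intro h
    exact c.mem_center P fun u hu => mem_cent.2 (congrArg Subtype.val (mem_center_iff.1 h ⟨u, hu⟩))
  · intro h
    exact mem_center_iff.2 fun u => Subtype.ext (mem_center_iff.1 h u)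

theorem pow_mem_D (g : G) : g ^ p ∈ centralizer (H : Set G) := by
  obtain ⟨P⟩ : Nonempty (Sylow p G) := inferInstance
  obtain ⟨l, hl, y, hy, rfl⟩ := c.decomp P g
  have h1 : (⟨l, hl⟩ : (P : Subgroup G)) ^ p ∈ center (P : Subgroup G) := by
    refine pow_mem_center_of_two_sizes P.isPGroup' (m := p ^ a) (fun x => ?_) _
    by_cases hx : (x : G) ∈ center G
    · exact Or.inl (index_cent_eq_one_iff.2 ((c.mem_center_sylow_iff hnodf P x).2 hx))
    · exact Or.inr ((index_cent_subtype x).trans (c.relIndex_cent hnodf P x.2 hx))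
  have h2 : l ^ p ∈ centralizer (H : Set G) :=
    center_le_centralizer _ ((c.mem_center_sylow_iff hnodf P _).1 h1)
  rw [← QuotientGroup.eq_one_iff] at h2 ⊢
  rw [QuotientGroup.mk_pow, QuotientGroup.mk_mul, (QuotientGroup.eq_one_iff y).2 (c.H_le_D hy),
    mul_one, ← QuotientGroup.mk_pow, h2]

theorem index_D_eq : (centralizer (H : Set G)).index = p := by
  have := c.nontrivial_quotient_D
  obtain ⟨h, hh, h1⟩ := c.exists_ne_one hnodf
  have : Nontrivial H := ⟨⟨⟨h, hh⟩, 1, fun h0 => h1 (congrArg Subtype.val h0)⟩⟩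
  let φ : G ⧸ centralizer (H : Set G) →* MulAut H :=
    QuotientGroup.lift _ (MulAut.conjNormal (H := H)) fun x hx => by
      ext u
      simp only [MulAut.conjNormal_apply, MulAut.one_apply]
      rw [← hx u u.2, mul_inv_cancel_right]
  refine card_eq_of_fpf φ (fun x => ?_) c.hH fun x hx k hk => ?_
  · obtain ⟨g, rfl⟩ := QuotientGroup.mk_surjective x
    rw [← QuotientGroup.mk_pow, QuotientGroup.eq_one_iff]
    exact c.pow_mem_D hnodf g
  · obtain ⟨g, rfl⟩ := QuotientGroup.mk_surjective x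
    have hg : g ∉ centralizer (H : Set G) := fun h0 => hx ((QuotientGroup.eq_one_iff g).2 h0)
    have h2 : g * k * g⁻¹ = k := congrArg Subtype.val hk
    exact Subtype.ext (c.eq_one_of_comm hnodf hg k.2 (mul_inv_eq_iff_eq_mul.1 h2).symm)

theorem pow_eq : p ^ a = p := (c.index_D hnodf).symm.trans (c.index_D_eq hnodf)

theorem dvd_sub_one : p ∣ n - 1 := by
  obtain ⟨P⟩ : Nonempty (Sylow p G) := inferInstance
  let φ : (P : Subgroup G) →* MulAut H := (MulAut.conjNormal (H := H)).comp (Subgroup.subtype _)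
  let _ : MulAction (P : Subgroup G) H := MulAction.compHom H φ
  have h1 := P.isPGroup'.card_modEq_card_fixedPoints H
  have h2 : MulAction.fixedPoints (P : Subgroup G) H = {1} := by
    ext u
    simp only [MulAction.mem_fixedPoints, Set.mem_singleton_iff]
    constructor
    · intro hu
      refine Subtype.ext (c.eq_one_of_center hnodf u.2 (c.mem_center P fun l hl => ?_))
      exact mem_cent_iff_conj.2 (congrArg Subtype.val (hu ⟨l, hl⟩))
    · rintro rfl l
      exact map_one (φ l)
  rw [h2, c.card_H hnodf, Nat.card_unique] at h1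
  exact (Nat.modEq_iff_dvd' c.hn.le).1 h1.symm

theorem card_commutator (P : Sylow p G) : Nat.card (commutator (P : Subgroup G)) = p := by
  obtain ⟨l, hl, hlD⟩ := SetLike.not_le_iff_exists.1 (c.not_le_D P)
  have hlZ : l ∉ center G := fun h => hlD (center_le_centralizer _ h)
  set A := (centralizer (H : Set G)).subgroupOf (P : Subgroup G) with hA
  have : IsMulCommutative A := ⟨⟨fun u v => Subtype.ext (Subtype.ext
    (mem_cent.1 (c.D_le_cent hnodf v.2 u.2)))⟩⟩
  have hAi : A.index = p := (c.relIndex_D hnodf P).trans (c.pow_eq hnodf)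
  have hna : ¬ IsMulCommutative (P : Subgroup G) := fun h => hlZ
    ((c.mem_center_sylow_iff hnodf P ⟨l, hl⟩).1 (mem_center_iff.2 fun u => h.is_comm.comm _ _))
  have h1 := PG.card_commutator_mul_card_center P.isPGroup' hna hAi
  set L := (centralizer ({l} : Set G)).subgroupOf (P : Subgroup G) with hL
  have hLi : L.index = p := (c.relIndex_cent hnodf P hl hlZ).trans (c.pow_eq hnodf)
  have hLA : Nat.card L = Nat.card A := by
    have e1 := L.card_mul_index
    have e2 := A.card_mul_index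
    rw [hLi] at e1
    rw [hAi] at e2
    exact Nat.eq_of_mul_eq_mul_right hp.out.pos (e1.trans e2.symm)
  have hinf : A ⊓ L = center (P : Subgroup G) := by
    refine le_antisymm (fun u hu => ?_) fun u hu => ?_
    · rw [c.mem_center_sylow_iff hnodf P]
      by_contra hz
      exact hlD (c.cent_of_mem_D hnodf hu.1 hz ▸ mem_cent_comm.1 hu.2)
    · have h2 := (c.mem_center_sylow_iff hnodf P u).1 hu
      exact ⟨center_le_centralizer _ h2, center_le_cent l h2⟩
  have hrel : A.relIndex L = p := by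
    have h2 : A.relIndex L ∣ p := (relIndex_dvd_index_of_normal A L).trans hAi.dvd
    refine ((Nat.dvd_prime hp.out).1 h2).resolve_left fun h3 => hlD ?_
    exact relIndex_eq_one.1 h3 (show (⟨l, hl⟩ : (P : Subgroup G)) ∈ L from self_mem_cent l)
  have h3 := (A.subgroupOf L).card_mul_index
  rw [← relIndex, hrel, ← inf_subgroupOf_right, Nat.card_congr
    (subgroupOfEquivOfLe inf_le_right).toEquiv, hinf, hLA, ← h1, mul_comm] at h3
  exact (Nat.eq_of_mul_eq_mul_right Nat.card_pos h3).symm

end nodf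

end Mmn

end Cfsg.Lib.Solv.ClassSize
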